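import Cfsg.Agent.Lib.Helper8.CfunFam

set_option autoImplicit false
set_option linter.unusedSectionVars false

namespace Cfsg.Agent.Lib.Helper8.CfunFamT

open Cfsg
open Cfsg.Agent.Lib.Helper8.ClassicAlperin Cfsg.Agent.Lib.Helper8.ConjFam
  Cfsg.Agent.Lib.Helper8.WellPlaced Cfsg.Agent.Lib.Helper8.Cfun Cfsg.Agent.Lib.Helper8.CfunFam
open scoped commutatorElement

variable {G : Type*} [Group G]

/-- The target subgroup. -/
def FF (𝓦 : Set (Subgroup G → Subgroup G)) (S : Subgroup G) : Subgroup G :=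
  ⨆ W ∈ 𝓦, S ⊓ ⁅⊤ ⊓ Subgroup.normalizer ((W S : Subgroup G) : Set G),
      ⊤ ⊓ Subgroup.normalizer ((W S : Subgroup G) : Set G)⁆

/-- Transfer form of goodness. -/
def GoodT (F : Subgroup G) (B : Set G) (g : G) : Prop :=
  ∀ a ∈ B, a * (g * a * g⁻¹)⁻¹ ∈ F

theorem goodT_one (F : Subgroup G) (B : Set G) : GoodT F B 1 := by
  intro a _
  have e : a * (1 * a * 1⁻¹)⁻¹ = 1 := by group
  rw [e]
  exact one_mem F

theorem goodT_comp (F : Subgroup G) (B : Set G) (g g' : G) (h1 : GoodT F B g)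
    (h2 : GoodT F (im g B) g') : GoodT F B (g' * g) := by
  intro a ha
  have e : a * (g' * g * a * (g' * g)⁻¹)⁻¹ =
      a * (g * a * g⁻¹)⁻¹ * ((g * a * g⁻¹) * (g' * (g * a * g⁻¹) * g'⁻¹)⁻¹) := by group
  rw [e]
  exact mul_mem (h1 a ha) (h2 _ (mem_im_of_mem ha g))

/-- The local claim at `E`. -/
def ClaimT (𝓦 : Set (Subgroup G → Subgroup G)) (S E : Subgroup G) : Prop :=
  ∀ W ∈ 𝓦, E ⊓ ⁅Subgroup.normalizer ((W E : Subgroup G) : Set G),
    Subgroup.normalizer ((W E : Subgroup G) : Set G)⁆ ≤ FF 𝓦 S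

variable [Finite G] {p : ℕ} [Fact p.Prime]

section Transfer

variable (S : Sylow p G) (𝓦 : Set (Subgroup G → Subgroup G))
  (h𝓦 : ∀ W ∈ 𝓦, IsConjugacyFunctor p W)
  (hloc : ∀ T : Subgroup G, T ≤ (S : Subgroup G) → T ≠ ⊥ →
    ¬ p ∣ ((S : Subgroup G) ⊓ Subgroup.normalizer ((T : Subgroup G) : Set G)).relIndex
      (Subgroup.normalizer ((T : Subgroup G) : Set G)) →
    FamilyControlsTransferIn p 𝓦 (Subgroup.normalizer ((T : Subgroup G) : Set G)))

include h𝓦 hloc in
/-- The local hypothesis, pushed into `FF`. -/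
theorem local_le (T : Subgroup G) (hT : T ≤ (S : Subgroup G)) (hTne : T ≠ ⊥)
    (htame : ¬ p ∣ ((S : Subgroup G) ⊓ Subgroup.normalizer ((T : Subgroup G) : Set G)).relIndex
      (Subgroup.normalizer ((T : Subgroup G) : Set G)))
    (hE : ClaimT 𝓦 (S : Subgroup G)
      ((S : Subgroup G) ⊓ Subgroup.normalizer ((T : Subgroup G) : Set G))) :
    ((S : Subgroup G) ⊓ Subgroup.normalizer ((T : Subgroup G) : Set G)) ⊓
      ⁅Subgroup.normalizer ((T : Subgroup G) : Set G),
        Subgroup.normalizer ((T : Subgroup G) : Set G)⁆ ≤ FF 𝓦 (S : Subgroup G) := by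
  have h1 := fct_sylow h𝓦 (hloc T hT hTne htame)
    ((S : Subgroup G) ⊓ Subgroup.normalizer ((T : Subgroup G) : Set G)) inf_le_right
    (S.2.to_le inf_le_left) htame
  rw [h1]
  exact iSup₂_le fun W hW => (inf_le_inf_left _
    (Subgroup.commutator_mono inf_le_right inf_le_right)).trans (hE W hW)

include h𝓦 hloc in
theorem claimT' (c : ℕ)
    (hc : ∀ E : Subgroup G, E ≤ (S : Subgroup G) → E ≠ ⊥ → c ≤ Nat.card E →
      ClaimT 𝓦 (S : Subgroup G) E)
    (A : Set G) (hA : A ⊆ ((S : Subgroup G) : Set G)) (hne : A.Nonempty) (hbig : Big c A)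
    (g : G) (hAg : im g A ⊆ ((S : Subgroup G) : Set G)) :
    GoodT (FF 𝓦 (S : Subgroup G)) A g := by
  obtain ⟨l, hl, hch⟩ := exists_fchain S (Tame p (S : Subgroup G)) (fun U hU => hU.1)
    (tame_h S) A g hne hA hAg
  have key := fchain_induction (𝓕 := Tame p (S : Subgroup G)) (GoodT (FF 𝓦 (S : Subgroup G)))
    (Big c) (goodT_one _) (goodT_comp _)
    (fun B y hB => big_cj hB y)
    (by
      intro T hT y hy B hB hBbig a ha
      by_cases hTne : T = ⊥
      · have ha1 : a = 1 := by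
          have := hB ha
          rw [hTne] at this
          exact Subgroup.mem_bot.mp this
        rw [ha1]
        have e : (1 : G) * (y⁻¹ * 1 * y⁻¹⁻¹)⁻¹ = 1 := by group
        rw [e]
        exact one_mem _
      · have hTE : T ≤ (S : Subgroup G) ⊓ Subgroup.normalizer ((T : Subgroup G) : Set G) :=
          le_inf hT.1 Subgroup.le_normalizer
        have hBE : B ⊆ (((S : Subgroup G) ⊓ Subgroup.normalizer ((T : Subgroup G) : Set G) :
            Subgroup G) : Set G) := hB.trans hTE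
        have hEne : (S : Subgroup G) ⊓ Subgroup.normalizer ((T : Subgroup G) : Set G) ≠ ⊥ := by
          intro h
          rw [h] at hTE
          exact hTne (le_bot_iff.mp hTE)
        have e : a * (y⁻¹ * a * y⁻¹⁻¹)⁻¹ = ⁅a, y⁻¹⁆ := by
          rw [commutatorElement_def]
          group
        rw [e]
        apply local_le S 𝓦 h𝓦 hloc T hT.1 hTne hT.2 (hc _ inf_le_left hEne (hBbig _ hBE))
        refine ⟨?_, Subgroup.commutator_mem_commutator (Subgroup.le_normalizer (hB ha))
          (inv_mem hy)⟩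
        have haT : a ∈ T := hB ha
        have h2 : y⁻¹ * a⁻¹ * y⁻¹⁻¹ ∈ T :=
          (Subgroup.mem_normalizer_iff.mp (inv_mem hy) a⁻¹).mp (inv_mem haT)
        have h3 : ⁅a, y⁻¹⁆ ∈ T := by
          have e2 : ⁅a, y⁻¹⁆ = a * (y⁻¹ * a⁻¹ * y⁻¹⁻¹) := by
            rw [commutatorElement_def]
            group
          rw [e2]
          exact mul_mem haT h2
        exact hTE h3)
    l A hbig hch
  rw [hl, inv_inv] at key
  exact key

include h𝓦 hloc in
theorem claimT_all : ∀ (n : ℕ) (E : Subgroup G), E ≤ (S : Subgroup G) → E ≠ ⊥ →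
    Nat.card (S : Subgroup G) - Nat.card E = n → ClaimT 𝓦 (S : Subgroup G) E := by
  intro n
  induction n using Nat.strong_induction_on with
  | _ n ih =>
    intro E hES hEne hn W hW
    by_cases hE : E = (S : Subgroup G)
    · rw [hE]
      unfold FF
      refine le_iSup₂_of_le W hW ?_
      rw [top_inf_eq]
    · obtain ⟨k, S₁, hES₁, hS₁S, hS₁N, hcard, hk1, hk2, hk3, hk4⟩ :=
        setup S (h𝓦 W hW) hES hEne hE
      have hcardS : ∀ D : Subgroup G, D ≤ (S : Subgroup G) →
          Nat.card D ≤ Nat.card (S : Subgroup G) := fun D hD => Subgroup.card_le_of_le hD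
      have hc' : ∀ E' : Subgroup G, E' ≤ (S : Subgroup G) → E' ≠ ⊥ →
          Nat.card E + 1 ≤ Nat.card E' → ClaimT 𝓦 (S : Subgroup G) E' := by
        intro E' hE' hne' hcard'
        have := hcardS E' hE'
        have := hcardS E hES
        exact ih (Nat.card (S : Subgroup G) - Nat.card E') (by omega) E' hE' hne' rfl
      have hcard' : Nat.card E + 1 ≤ Nat.card ((S : Subgroup G) ⊓
          Subgroup.normalizer ((cm k (W E) : Subgroup G) : Set G) : Subgroup G) := by
        have h1 := Subgroup.card_le_of_le hk4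
        rw [card_cm] at h1
        omega
      have hS₁'ne : (S : Subgroup G) ⊓
          Subgroup.normalizer ((cm k (W E) : Subgroup G) : Set G) ≠ ⊥ := by
        intro h
        have h1 : cm k (W E) ≤ (S : Subgroup G) ⊓
            Subgroup.normalizer ((cm k (W E) : Subgroup G) : Set G) :=
          le_inf hk1 Subgroup.le_normalizer
        rw [h] at h1
        exact hk2 (le_bot_iff.mp h1)
      have hloc' := local_le S 𝓦 h𝓦 hloc (cm k (W E)) hk1 hk2 hk3
        (hc' _ inf_le_left hS₁'ne hcard')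
      have hkS₁ : im k (S₁ : Set G) ⊆ ((S : Subgroup G) : Set G) := by
        rw [← coe_cm]
        exact hk4.trans inf_le_left
      have hgk : GoodT (FF 𝓦 (S : Subgroup G)) (S₁ : Set G) k :=
        claimT' S 𝓦 h𝓦 hloc (Nat.card E + 1) hc' (S₁ : Set G) hS₁S
          ⟨1, S₁.one_mem⟩ (big_mono (by omega) (big_subgroup S₁)) k hkS₁
      intro x hx
      have hx1 : k * x * k⁻¹ ∈ FF 𝓦 (S : Subgroup G) := by
        apply hloc'
        refine ⟨hk4 (mem_cm_of_mem (hES₁ hx.1) k), ?_⟩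
        rw [← cm_normalizer, ← cm_commutator]
        exact mem_cm_of_mem hx.2 k
      have hx2 := hgk x (hES₁ hx.1)
      have e : x = x * (k * x * k⁻¹)⁻¹ * (k * x * k⁻¹) := by group
      rw [e]
      exact mul_mem hx2 hx1

include h𝓦 hloc in
theorem familyControlsTransfer : FamilyControlsTransferIn p 𝓦 ⊤ := by
  refine ⟨S, le_top, S.2, relIndex_top_sylow S, le_antisymm ?_
    (iSup₂_le fun W hW => inf_le_inf_left _ (Subgroup.commutator_mono le_top le_top))⟩
  show _ ≤ FF 𝓦 (S : Subgroup G)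
  apply focal_le
  intro x hx u hu
  have hA : ({x} : Set G) ⊆ ((S : Subgroup G) : Set G) := by
    intro a ha
    rw [Set.mem_singleton_iff] at ha
    rw [ha]
    exact hx
  have hAu : im u ({x} : Set G) ⊆ ((S : Subgroup G) : Set G) := by
    rintro _ ⟨a, ha, rfl⟩
    rw [Set.mem_singleton_iff] at ha
    rw [ha]
    exact hu
  exact claimT' S 𝓦 h𝓦 hloc 0
    (fun E hE hEne _ => claimT_all S 𝓦 h𝓦 hloc _ E hE hEne rfl) {x} hA ⟨x, rfl⟩
    (big_zero _) u hAu x rfl

end Transfer

end Cfsg.Agent.Lib.Helper8.CfunFamT
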