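import Cfsg.Agent.Lib.Helper8.Cfun
import Cfsg.Prelude.Def_Transfer

set_option autoImplicit false
set_option linter.unusedSectionVars false

namespace Cfsg.Agent.Lib.Helper8.CfunWC

open Cfsg
open Cfsg.Agent.Lib.Helper8.ClassicAlperin Cfsg.Agent.Lib.Helper8.ConjFam
  Cfsg.Agent.Lib.Helper8.WellPlaced Cfsg.Agent.Lib.Helper8.Cfun

variable {G : Type*} [Group G]

/-- The first step of a chain that moves the subgroup `A`. -/
theorem first_move (𝓕 : Set (Subgroup G)) (A : Subgroup G) :
    ∀ l : List (Subgroup G × G), FChain 𝓕 (A : Set G) l → cj (fprod l) (A : Set G) ≠ (A : Set G) →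
      ∃ T ∈ 𝓕, A ≤ T ∧ ∃ y ∈ Subgroup.normalizer ((T : Subgroup G) : Set G),
        cj y (A : Set G) ≠ (A : Set G)
  | [], _, h => by
      rw [fprod_nil, cj_one] at h
      exact absurd rfl h
  | e :: l, hc, h => by
      by_cases he : cj e.2 (A : Set G) = (A : Set G)
      · have hc' := hc.2.2
        rw [he] at hc'
        rw [fprod_cons, cj_mul, he] at h
        exact first_move 𝓕 A l hc' h
      · exact ⟨e.1, hc.1.1, hc.2.1, e.2, hc.1.2, he⟩

variable [Finite G] {p : ℕ} [Fact p.Prime]

theorem exists_wellPlaced_not_weaklyClosed (S : Sylow p G) (W : Subgroup G → Subgroup G)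
    (hW : IsConjugacyFunctor p W)
    (hWZ : ∀ P : Subgroup G, IsPGroup p P → P ⊓ Subgroup.centralizer (P : Set G) ≤ W P)
    (A : Subgroup G)
    (hAZ : A ≤ (S : Subgroup G) ⊓ Subgroup.centralizer ((S : Subgroup G) : Set G))
    (hAN : Subgroup.normalizer ((W (S : Subgroup G) : Subgroup G) : Set G) ≤
      Subgroup.normalizer ((A : Subgroup G) : Set G))
    (hnwc : ¬ IsWeaklyClosed A (S : Subgroup G)) :
    ∃ T : Subgroup G, IsWellPlaced p W (S : Subgroup G) T ∧ A ≤ T ∧
      Subgroup.normalizer ((W ((S : Subgroup G) ⊓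
        Subgroup.normalizer ((T : Subgroup G) : Set G)) : Subgroup G) : Set G) ≤
        Subgroup.normalizer ((A : Subgroup G) : Set G) ∧
      ¬ p ∣ ((S : Subgroup G) ⊓ Subgroup.normalizer ((T : Subgroup G) : Set G)).relIndex
        (Subgroup.normalizer ((T : Subgroup G) : Set G)) ∧
      A ≤ Subgroup.centralizer (((S : Subgroup G) ⊓
        Subgroup.normalizer ((T : Subgroup G) : Set G) : Subgroup G) : Set G) ∧
      ∃ g ∈ Subgroup.normalizer ((T : Subgroup G) : Set G),
        A.map (MulAut.conj g).toMonoidHom ≤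
          (S : Subgroup G) ⊓ Subgroup.normalizer ((T : Subgroup G) : Set G) ∧
        A.map (MulAut.conj g).toMonoidHom ≠ A := by
  have hAS : A ≤ (S : Subgroup G) := hAZ.trans inf_le_left
  have hAC : A ≤ Subgroup.centralizer ((S : Subgroup G) : Set G) := hAZ.trans inf_le_right
  -- a conjugate of `A` in `S` other than `A`
  obtain ⟨g, hg1, hg2⟩ : ∃ g : G, cm g A ≤ (S : Subgroup G) ∧ cm g A ≠ A := by
    by_contra hcon
    apply hnwc
    refine ⟨hAS, fun g hg => ?_⟩
    by_contra hne
    exact hcon ⟨g, hg, hne⟩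
  have hAg : im g (A : Set G) ⊆ ((S : Subgroup G) : Set G) := by
    rw [← coe_cm]
    exact hg1
  obtain ⟨l, hl, hc⟩ := exists_fchain S {T : Subgroup G | IsWellPlaced p W (S : Subgroup G) T}
    (fun U hU => hU.1) (wp_h W hW S) (A : Set G) g ⟨1, A.one_mem⟩ hAS hAg
  have hmove : cj (fprod l) (A : Set G) ≠ (A : Set G) := by
    rw [hl, ← im_eq_cj, ← coe_cm]
    intro h
    exact hg2 (SetLike.coe_injective h)
  obtain ⟨T, hT, hAT, y, hy, hyA⟩ := first_move _ A l hc hmove
  have hT' : IsWellPlaced p W (S : Subgroup G) T := hT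
  -- `A` lies in every term of the tower
  have hAt : ∀ j : ℕ, A ≤ functorTower W (S : Subgroup G) T j := by
    intro j
    induction j with
    | zero => exact hAT
    | succ j ih =>
      have h1 : A ≤ nt W (S : Subgroup G) T j := le_inf hAS (ih.trans Subgroup.le_normalizer)
      have h2 : A ≤ Subgroup.centralizer ((nt W (S : Subgroup G) T j : Subgroup G) : Set G) :=
        hAC.trans (Subgroup.centralizer_le (inf_le_left : nt W (S : Subgroup G) T j ≤ _))
      exact (le_inf h1 h2).trans (hWZ _ (S.2.to_le inf_le_left))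
  -- the last term whose normalizer does not normalize `A`
  have h0 : ¬ Subgroup.normalizer ((functorTower W (S : Subgroup G) T 0 : Subgroup G) : Set G) ≤
      Subgroup.normalizer ((A : Subgroup G) : Set G) := by
    intro h
    apply hyA
    rw [← coe_cjG, cjG_of_mem_normalizer (h hy)]
  have hlast : ∃ j : ℕ,
      ¬ Subgroup.normalizer ((functorTower W (S : Subgroup G) T j : Subgroup G) : Set G) ≤
        Subgroup.normalizer ((A : Subgroup G) : Set G) ∧
      Subgroup.normalizer ((functorTower W (S : Subgroup G) T (j + 1) : Subgroup G) : Set G) ≤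
        Subgroup.normalizer ((A : Subgroup G) : Set G) := by
    by_contra hcon
    have hall : ∀ j : ℕ,
        ¬ Subgroup.normalizer ((functorTower W (S : Subgroup G) T j : Subgroup G) : Set G) ≤
          Subgroup.normalizer ((A : Subgroup G) : Set G) := by
      intro j
      induction j with
      | zero => exact h0
      | succ j ih => exact fun h => hcon ⟨j, ih, h⟩
    apply hall (Nat.card (S : Subgroup G) + 1)
    have hnt : nt W (S : Subgroup G) T (Nat.card (S : Subgroup G)) = (S : Subgroup G) :=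
      nt_eq_top W hW S T _ (by omega)
    rw [tower_succ, hnt]
    exact hAN
  obtain ⟨j, hj1, hj2⟩ := hlast
  have hwp := wellPlaced_tower hW S hT' j
  refine ⟨functorTower W (S : Subgroup G) T j, hwp, hAt j, hj2, hwp.2 0, ?_, ?_⟩
  · exact hAC.trans (Subgroup.centralizer_le inf_le_left)
  · obtain ⟨g', hg', hg'A⟩ := Set.not_subset.mp hj1
    refine ⟨g', hg', ?_, ?_⟩
    · have h1 : cm g' A ≤ cm g' (functorTower W (S : Subgroup G) T j) := cm_mono (hAt j) g'
      rw [cm_self_of_mem_normalizer hg'] at h1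
      exact h1.trans (le_inf hwp.1 Subgroup.le_normalizer)
    · intro h
      exact hg'A (mem_normalizer_of_cm_eq h)

end Cfsg.Agent.Lib.Helper8.CfunWC
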