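import Cfsg.Agent.Lib.Helper8.ThQuot
import Cfsg.Prelude.Def_Local

set_option autoImplicit false

namespace Cfsg.Agent.Lib.Helper8.PStabQuot

open Cfsg
open Cfsg.Agent.Lib.Helper8.Stable
open Cfsg.Agent.Lib.Helper8.ThFact
open Cfsg.Agent.Lib.Helper8.Centric
open Cfsg.Agent.Lib.Helper8.ThQuot

universe u

variable {p : ℕ}

/-- the intrinsic form of the conclusion of p-stability -/
def Good (p : ℕ) {X : Type*} [Group X] (A P : Subgroup X) : Prop :=
  ∃ D : Subgroup X, A ≤ D ∧ D ≤ Subgroup.normalizer (P : Set X) ∧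
    Subgroup.centralizer (P : Set X) ≤ D ∧
    (∀ n ∈ Subgroup.normalizer (P : Set X), ∀ d ∈ D, n * d * n⁻¹ ∈ D) ∧
    ∀ d ∈ D, ∃ k : ℕ, d ^ (p ^ k) ∈ Subgroup.centralizer (P : Set X)

theorem pCore_isPGroup {X : Type*} [Group X] [Finite X] [Fact p.Prime] :
    IsPGroup p ↥(pCore p X) := by
  obtain ⟨S⟩ : Nonempty (Sylow p X) := inferInstance
  exact S.isPGroup'.to_le (pCore_le_syl S)

theorem le_of_good {X : Type*} [Group X] (A P : Subgroup X) (h : Good p A P) :
    (A.subgroupOf (Subgroup.normalizer (P : Set X))).map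
        (QuotientGroup.mk' ((Subgroup.centralizer (P : Set X)).subgroupOf
          (Subgroup.normalizer (P : Set X))))
      ≤ pCore p _ := by
  obtain ⟨D, hAD, -, -, hDn, hDp⟩ := h
  have hD'n : (D.subgroupOf (Subgroup.normalizer (P : Set X))).Normal := by
    constructor
    intro d hd n
    exact hDn n.1 n.2 d.1 hd
  have hle : A.subgroupOf (Subgroup.normalizer (P : Set X)) ≤
      D.subgroupOf (Subgroup.normalizer (P : Set X)) := fun x hx => hAD hx
  refine (Subgroup.map_mono hle).trans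
    (le_sSup ⟨Subgroup.Normal.map hD'n _ (QuotientGroup.mk'_surjective _), ?_⟩)
  rintro ⟨_, ⟨d, hd, rfl⟩⟩
  obtain ⟨k, hk⟩ := hDp d.1 hd
  refine ⟨k, Subtype.ext ?_⟩
  show (QuotientGroup.mk' ((Subgroup.centralizer (P : Set X)).subgroupOf
          (Subgroup.normalizer (P : Set X))) d) ^ (p ^ k) = 1
  rw [← map_pow]
  exact (QuotientGroup.eq_one_iff _).2 hk

theorem good_of_le {X : Type*} [Group X] [Finite X] [Fact p.Prime] (A P : Subgroup X)
    (hAN : A ≤ Subgroup.normalizer (P : Set X))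
    (h : (A.subgroupOf (Subgroup.normalizer (P : Set X))).map
        (QuotientGroup.mk' ((Subgroup.centralizer (P : Set X)).subgroupOf
          (Subgroup.normalizer (P : Set X))))
      ≤ pCore p _) : Good p A P := by
  have hOp : IsPGroup p ↥(pCore p (↥(Subgroup.normalizer (P : Set X)) ⧸
      (Subgroup.centralizer (P : Set X)).subgroupOf (Subgroup.normalizer (P : Set X)))) :=
    pCore_isPGroup
  obtain ⟨D', hD'⟩ : ∃ D' : Subgroup ↥(Subgroup.normalizer (P : Set X)),
      D' = (pCore p (↥(Subgroup.normalizer (P : Set X)) ⧸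
      (Subgroup.centralizer (P : Set X)).subgroupOf (Subgroup.normalizer (P : Set X)))).comap
        (QuotientGroup.mk' ((Subgroup.centralizer (P : Set X)).subgroupOf
          (Subgroup.normalizer (P : Set X)))) := ⟨_, rfl⟩
  have hD'n : D'.Normal := by
    rw [hD']; exact Subgroup.Normal.comap inferInstance _
  have hmem : ∀ d : ↥(Subgroup.normalizer (P : Set X)), d ∈ D' ↔
      QuotientGroup.mk' ((Subgroup.centralizer (P : Set X)).subgroupOf
          (Subgroup.normalizer (P : Set X))) d ∈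
        pCore p (↥(Subgroup.normalizer (P : Set X)) ⧸
      (Subgroup.centralizer (P : Set X)).subgroupOf (Subgroup.normalizer (P : Set X))) := by
    intro d; rw [hD']; exact Iff.rfl
  refine ⟨D'.map (Subgroup.normalizer (P : Set X)).subtype, ?_, Subgroup.map_subtype_le _,
    ?_, ?_, ?_⟩
  · intro a ha
    have ha' : (⟨a, hAN ha⟩ : ↥(Subgroup.normalizer (P : Set X))) ∈
        A.subgroupOf (Subgroup.normalizer (P : Set X)) := ha
    exact Subgroup.mem_map.2 ⟨⟨a, hAN ha⟩, (hmem _).2 (h (Subgroup.mem_map_of_mem _ ha')), rfl⟩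
  · intro c hc
    have hcN : c ∈ Subgroup.normalizer (P : Set X) := Subgroup.centralizer_le_normalizer _ hc
    have h1 : QuotientGroup.mk' ((Subgroup.centralizer (P : Set X)).subgroupOf
          (Subgroup.normalizer (P : Set X))) (⟨c, hcN⟩ : ↥(Subgroup.normalizer (P : Set X))) = 1 :=
      (QuotientGroup.eq_one_iff _).2 hc
    refine Subgroup.mem_map.2 ⟨⟨c, hcN⟩, (hmem _).2 ?_, rfl⟩
    rw [h1]; exact Subgroup.one_mem _
  · rintro n hn _ ⟨d, hd, rfl⟩
    exact Subgroup.mem_map.2 ⟨⟨n, hn⟩ * d * ⟨n, hn⟩⁻¹, hD'n.conj_mem d hd ⟨n, hn⟩, rfl⟩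
  · rintro _ ⟨d, hd, rfl⟩
    obtain ⟨k, hk⟩ := hOp ⟨_, (hmem d).1 hd⟩
    refine ⟨k, ?_⟩
    have hk' : (QuotientGroup.mk' ((Subgroup.centralizer (P : Set X)).subgroupOf
          (Subgroup.normalizer (P : Set X))) d) ^ (p ^ k) = 1 := congrArg Subtype.val hk
    rw [← map_pow] at hk'
    have hk'' : d ^ p ^ k ∈ (Subgroup.centralizer (P : Set X)).subgroupOf
        (Subgroup.normalizer (P : Set X)) := (QuotientGroup.eq_one_iff _).1 hk'
    exact hk''

theorem le_pPrimePCore {X : Type*} [Group X] (P : Subgroup X) (hPp : IsPGroup p P)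
    (hn : (pPrimeCore p X ⊔ P).Normal) : P ≤ pPrimePCore p X := by
  unfold pPrimePCore
  rw [← Subgroup.map_le_iff_le_comap]
  apply le_sSup
  refine ⟨?_, hPp.map _⟩
  have h1 : P.map (QuotientGroup.mk' (pPrimeCore p X)) =
      (pPrimeCore p X ⊔ P).map (QuotientGroup.mk' (pPrimeCore p X)) := by
    rw [Subgroup.map_sup]
    have h2 : (pPrimeCore p X).map (QuotientGroup.mk' (pPrimeCore p X)) = ⊥ := by
      rw [eq_bot_iff]
      rintro _ ⟨k, hk, rfl⟩
      exact Subgroup.mem_bot.2 ((QuotientGroup.eq_one_iff k).2 hk)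
    rw [h2, bot_sup_eq]
  rw [h1]
  exact Subgroup.Normal.map hn _ (QuotientGroup.mk'_surjective _)

theorem frat {G : Type*} [Group G] [Finite G] [Fact p.Prime] (K P : Subgroup G)
    [hKn : K.Normal] (hK : (Nat.card K).Coprime p) (hP : IsPGroup p P)
    (hKP : (K ⊔ P).Normal) (g : G) :
    ∃ n ∈ Subgroup.normalizer (P : Set G), ∃ k ∈ K, g = n * k := by
  obtain ⟨H, hH⟩ : ∃ H : Subgroup G, H = K ⊔ P := ⟨_, rfl⟩
  have hPH : P ≤ H := by rw [hH]; exact le_sup_right
  haveI hHn : H.Normal := by rw [hH]; exact hKP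
  obtain ⟨T, hT⟩ := (hP.comap_subtype (K := H)).exists_le_sylow
  have hTle : (T : Subgroup H).map H.subtype ≤ P := by
    rintro _ ⟨t, ht, rfl⟩
    have htH : (t : G) ∈ K ⊔ P := by rw [← hH]; exact t.2
    obtain ⟨k, hk, y, hy, hky⟩ := Subgroup.mem_sup_of_normal_left.1 htH
    have hkH : k ∈ H := by rw [hH]; exact Subgroup.mem_sup_left hk
    have hyT : (⟨y, hPH hy⟩ : H) ∈ (T : Subgroup H) :=
      hT (show (⟨y, hPH hy⟩ : H) ∈ P.comap H.subtype from hy)
    have hkT : (⟨k, hkH⟩ : H) ∈ (T : Subgroup H) := by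
      have e : (⟨k, hkH⟩ : H) = t * (⟨y, hPH hy⟩ : H)⁻¹ := by
        apply Subtype.ext
        show k = (t : G) * y⁻¹
        rw [← hky]; group
      rw [e]; exact Subgroup.mul_mem _ ht (Subgroup.inv_mem _ hyT)
    obtain ⟨j, hj⟩ := T.isPGroup' ⟨⟨k, hkH⟩, hkT⟩
    have hj' : k ^ p ^ j = 1 := congrArg (fun z : ↥(T : Subgroup H) => ((z : H) : G)) hj
    have hk1 : (⟨k, hk⟩ : K) = 1 :=
      eq_one_of_pow_coprime (Nat.Coprime.pow_right j hK) _ (Subtype.ext hj')
    have hk1' : k = 1 := congrArg Subtype.val hk1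
    rw [hk1', one_mul] at hky
    show (t : G) ∈ P
    rw [← hky]; exact hy
  have hfr := Sylow.normalizer_sup_eq_top T
  have hmapT : (T : Subgroup H).map H.subtype = P := by
    apply le_antisymm hTle
    intro y hy
    exact ⟨⟨y, hPH hy⟩, hT (show (⟨y, hPH hy⟩ : H) ∈ P.comap H.subtype from hy), rfl⟩
  rw [hmapT] at hfr
  have hmem : g ∈ (⊤ : Subgroup G) := Subgroup.mem_top g
  rw [← hfr] at hmem
  obtain ⟨n, hn, m, hm, hnm⟩ := Subgroup.mem_sup_of_normal_right.1 hmem
  have hmH : m ∈ K ⊔ P := by rw [← hH]; exact hm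
  obtain ⟨k, hk, y, hy, hky⟩ := Subgroup.mem_sup_of_normal_left.1 hmH
  refine ⟨n * y, Subgroup.mul_mem _ hn (Subgroup.le_normalizer hy), y⁻¹ * k * y, ?_, ?_⟩
  · have h1 := hKn.conj_mem k hk y⁻¹
    rw [inv_inv] at h1; exact h1
  · rw [← hnm, ← hky]; group

theorem cent_transfer {G : Type*} {G' : Type*} [Group G] [Group G'] (f : G →* G')
    (P : Subgroup G) (hbot : P ⊓ f.ker = ⊥)
    (n : G) (hn : n ∈ Subgroup.normalizer (P : Set G))
    (hc : f n ∈ Subgroup.centralizer ((P.map f : Subgroup G') : Set G')) :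
    n ∈ Subgroup.centralizer (P : Set G) := by
  refine Subgroup.mem_centralizer_iff.2 (fun y hy => ?_)
  have h1 : n * y * n⁻¹ ∈ P := (Subgroup.mem_normalizer_iff.1 hn y).1 hy
  have h2 : f y * f n = f n * f y :=
    Subgroup.mem_centralizer_iff.1 hc (f y) (Subgroup.mem_map_of_mem f hy)
  have h3 : f (n * y * n⁻¹) = f y := by
    have e : f (n * y * n⁻¹) = f n * f y * (f n)⁻¹ := by simp only [map_mul, map_inv]
    rw [e, ← h2]; group
  have h4 : n * y * n⁻¹ = y := inj_on f P hbot _ _ h1 hy h3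
  calc y * n = (n * y * n⁻¹) * n := by rw [h4]
    _ = n * y := by group

theorem main_gen {G : Type u} [Group G] [Finite G] [Fact p.Prime] {G' : Type u} [Group G']
    (f : G →* G') (hf : Function.Surjective f) (hker : f.ker = pPrimeCore p G)
    (hO : pCore p G ≠ ⊥) :
    IsPStable p G ↔ IsPStable p G' := by
  haveI : Finite G' := Finite.of_surjective f hf
  have hKc : (Nat.card ↥(f.ker)).Coprime p := by rw [hker]; exact pPrimeCore_coprime p
  have hO' : pPrimeCore p G' = ⊥ := pPrimeCore_quot_bot f hf hker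
  have hfr : ∀ P : Subgroup G, IsPGroup p P → (pPrimeCore p G ⊔ P).Normal → ∀ g : G,
      ∃ n ∈ Subgroup.normalizer (P : Set G), f n = f g := by
    intro P hPp hPn g
    rw [← hker] at hPn
    obtain ⟨n, hn, k, hk, hg⟩ := frat f.ker P hKc hPp hPn g
    refine ⟨n, hn, ?_⟩
    rw [hg, map_mul, MonoidHom.mem_ker.1 hk, mul_one]
  have hcentmap : ∀ (P : Subgroup G) (c : G), c ∈ Subgroup.centralizer (P : Set G) →
      f c ∈ Subgroup.centralizer ((P.map f : Subgroup G') : Set G') := by
    intro P c hc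
    refine Subgroup.mem_centralizer_iff.2 (fun t ht => ?_)
    obtain ⟨y, hy, rfl⟩ := Subgroup.mem_map.1 ht
    have h1 := Subgroup.mem_centralizer_iff.1 hc y hy
    rw [← map_mul, ← map_mul, h1]
  constructor
  · rintro ⟨hodd, -, hst⟩
    refine ⟨hodd, ?_, ?_⟩
    · intro hbot
      apply hO
      rw [eq_bot_iff]
      intro r hr
      have hRp : IsPGroup p ↥(pCore p G) := pCore_isPGroup
      have h1 : (pCore p G).map f ≤ pCore p G' := by
        apply le_sSup
        exact ⟨Subgroup.Normal.map inferInstance f hf, hRp.map f⟩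
      have h2 : f r ∈ pCore p G' := h1 (Subgroup.mem_map_of_mem f hr)
      rw [hbot, Subgroup.mem_bot] at h2
      have h3 : r ∈ pCore p G ⊓ f.ker := Subgroup.mem_inf.2 ⟨hr, MonoidHom.mem_ker.2 h2⟩
      rw [inf_ker_bot (pCore p G) hRp f.ker hKc] at h3
      exact h3
    · intro A' P' hA'p hP'p hnorm' _ hP'n hquad'
      rw [hO', bot_sup_eq] at hP'n
      haveI := hP'n
      obtain ⟨S', hS'⟩ := hP'p.exists_le_sylow
      obtain ⟨S, rfl⟩ := Sylow.mapSurjective_surjective hf p S'
      have hS'' : P' ≤ (S : Subgroup G).map f := hS'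
      obtain ⟨P, hP⟩ : ∃ P : Subgroup G, P = (S : Subgroup G) ⊓ P'.comap f := ⟨_, rfl⟩
      have hPp : IsPGroup p P := by rw [hP]; exact S.isPGroup'.to_le inf_le_left
      have hPf : P.map f = P' := by
        apply le_antisymm
        · rintro _ ⟨x, hx, rfl⟩
          rw [hP] at hx
          exact (Subgroup.mem_inf.1 hx).2
        · intro y hy
          obtain ⟨s, hs, rfl⟩ := Subgroup.mem_map.1 (hS'' hy)
          refine Subgroup.mem_map.2 ⟨s, ?_, rfl⟩
          rw [hP]; exact Subgroup.mem_inf.2 ⟨hs, hy⟩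
      have hKP : f.ker ⊔ P = P'.comap f := by
        apply le_antisymm
        · apply sup_le
          · intro k hk
            show f k ∈ P'
            rw [MonoidHom.mem_ker.1 hk]; exact Subgroup.one_mem _
          · intro x hx
            show f x ∈ P'
            rw [← hPf]; exact Subgroup.mem_map_of_mem f hx
        · intro x hx
          have hx' : f x ∈ P.map f := by rw [hPf]; exact hx
          obtain ⟨y, hy, hyx⟩ := Subgroup.mem_map.1 hx'
          have e : x = (x * y⁻¹) * y := by group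
          rw [e]
          refine Subgroup.mul_mem _ (Subgroup.mem_sup_left ?_) (Subgroup.mem_sup_right hy)
          rw [MonoidHom.mem_ker, map_mul, map_inv, hyx, mul_inv_cancel]
      have hPn : (pPrimeCore p G ⊔ P).Normal := by
        rw [← hker, hKP]; exact Subgroup.Normal.comap hP'n f
      have hPbot : P ⊓ f.ker = ⊥ := inf_ker_bot P hPp f.ker hKc
      obtain ⟨L, hL⟩ : ∃ L : Subgroup G,
          L = A'.comap f ⊓ Subgroup.normalizer (P : Set G) := ⟨_, rfl⟩
      have hLA : ∀ x ∈ L, f x ∈ A' := by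
        intro x hx; rw [hL] at hx; exact (Subgroup.mem_inf.1 hx).1
      have hLN : L ≤ Subgroup.normalizer (P : Set G) := by rw [hL]; exact inf_le_right
      obtain ⟨φ, hφ⟩ : ∃ φ : ↥L →* ↥A', ∀ x : ↥L, ((φ x : ↥A') : G') = f (x : G) :=
        ⟨(f.comp L.subtype).codRestrict A' (fun x => hLA x.1 x.2), fun x => rfl⟩
      have hφs : Function.Surjective φ := by
        intro a
        obtain ⟨g, hg⟩ := hf (a : G')
        obtain ⟨n, hn, hng⟩ := hfr P hPp hPn g
        have hnL : n ∈ L := by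
          rw [hL]; refine Subgroup.mem_inf.2 ⟨?_, hn⟩
          show f n ∈ A'
          rw [hng, hg]; exact a.2
        refine ⟨⟨n, hnL⟩, Subtype.ext ?_⟩
        rw [hφ]; show f n = (a : G'); rw [hng, hg]
      obtain ⟨Q⟩ : Nonempty (Sylow p ↥L) := inferInstance
      have hQtop : ((Sylow.mapSurjective hφs Q : Sylow p ↥A') : Subgroup ↥A') = ⊤ :=
        ((Sylow.mapSurjective hφs Q).is_maximal' (Q := ⊤) (hA'p.to_subgroup ⊤) le_top).symm
      obtain ⟨A, hA⟩ : ∃ A : Subgroup G, A = (Q : Subgroup ↥L).map L.subtype := ⟨_, rfl⟩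
      have hAp : IsPGroup p A := by rw [hA]; exact Q.isPGroup'.map _
      have hAL : A ≤ L := by rw [hA]; exact Subgroup.map_subtype_le _
      have hAN : A ≤ Subgroup.normalizer (P : Set G) := hAL.trans hLN
      have hAf : A.map f = A' := by
        apply le_antisymm
        · rintro _ ⟨x, hx, rfl⟩
          exact hLA x (hAL hx)
        · intro a ha
          have h1 : (⟨a, ha⟩ : ↥A') ∈
              ((Sylow.mapSurjective hφs Q : Sylow p ↥A') : Subgroup ↥A') := by
            rw [hQtop]; exact Subgroup.mem_top _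
          have h1' : (⟨a, ha⟩ : ↥A') ∈ (Q : Subgroup ↥L).map φ := h1
          obtain ⟨q, hq, hqa⟩ := Subgroup.mem_map.1 h1'
          refine Subgroup.mem_map.2 ⟨(q : G), ?_, ?_⟩
          · rw [hA]; exact Subgroup.mem_map_of_mem _ hq
          · have h2 := hφ q
            rw [hqa] at h2
            exact h2.symm
      have hAnorm : ∀ a ∈ A, ∀ x ∈ P, a * x * a⁻¹ ∈ P := fun a ha x hx =>
        (Subgroup.mem_normalizer_iff.1 (hAN ha) x).1 hx
      have hquad : ⁅⁅P, A⁆, A⁆ = ⊥ := by
        have h1 : ⁅P, A⁆ ≤ P := by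
          rw [Subgroup.commutator_le]
          intro x hx a ha
          rw [commutatorElement_def]
          have h2 := hAnorm a ha x⁻¹ (Subgroup.inv_mem _ hx)
          have e : x * a * x⁻¹ * a⁻¹ = x * (a * x⁻¹ * a⁻¹) := by group
          rw [e]; exact Subgroup.mul_mem _ hx h2
        have h2 : ⁅⁅P, A⁆, A⁆ ≤ P := (Subgroup.commutator_mono h1 le_rfl).trans h1
        rw [eq_bot_iff, ← hPbot]
        refine le_inf h2 ?_
        intro z hz
        have h3 : f z ∈ (⁅⁅P, A⁆, A⁆).map f := Subgroup.mem_map_of_mem f hz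
        rw [Subgroup.map_commutator, Subgroup.map_commutator, hPf, hAf, hquad',
          Subgroup.mem_bot] at h3
        exact MonoidHom.mem_ker.2 h3
      have hmain := hst A P hAp hPp hAnorm (le_pPrimePCore P hPp hPn) hPn hquad
      obtain ⟨D, hAD, hDN, hCD, hDn, hDp⟩ := good_of_le A P hAN hmain
      apply le_of_good
      refine ⟨D.map f, ?_, ?_, ?_, ?_, ?_⟩
      · rw [← hAf]; exact Subgroup.map_mono hAD
      · rw [Subgroup.normalizer_eq_top P']; exact le_top
      · intro c hc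
        obtain ⟨g, rfl⟩ := hf c
        obtain ⟨n, hn, hng⟩ := hfr P hPp hPn g
        rw [← hng] at hc ⊢
        rw [← hPf] at hc
        exact Subgroup.mem_map_of_mem f (hCD (cent_transfer f P hPbot n hn hc))
      · rintro n' - _ ⟨d, hd, rfl⟩
        obtain ⟨g, rfl⟩ := hf n'
        obtain ⟨n, hn, hng⟩ := hfr P hPp hPn g
        rw [← hng]
        have h1 := Subgroup.mem_map_of_mem f (hDn n hn d hd)
        rw [map_mul, map_mul, map_inv] at h1
        exact h1
      · rintro _ ⟨d, hd, rfl⟩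
        obtain ⟨k, hk⟩ := hDp d hd
        refine ⟨k, ?_⟩
        rw [← map_pow, ← hPf]
        exact hcentmap P _ hk
  · rintro ⟨hodd, -, hst'⟩
    refine ⟨hodd, hO, ?_⟩
    intro A P hAp hPp hAnorm _ hPn hquad
    have hPbot : P ⊓ f.ker = ⊥ := inf_ker_bot P hPp f.ker hKc
    have hP'n : (P.map f).Normal := by
      have h1 : P.map f = (pPrimeCore p G ⊔ P).map f := by
        rw [Subgroup.map_sup, ← hker]
        have h2 : (f.ker).map f = ⊥ := by
          rw [eq_bot_iff]
          rintro _ ⟨k, hk, rfl⟩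
          exact Subgroup.mem_bot.2 (MonoidHom.mem_ker.1 hk)
        rw [h2, bot_sup_eq]
      rw [h1]; exact Subgroup.Normal.map hPn f hf
    haveI := hP'n
    have hP'n2 : (pPrimeCore p G' ⊔ P.map f).Normal := by rw [hO', bot_sup_eq]; exact hP'n
    have hAN : A ≤ Subgroup.normalizer (P : Set G) := by
      intro a ha
      rw [Subgroup.mem_normalizer_iff]
      intro x
      constructor
      · exact hAnorm a ha x
      · intro hx
        have h1 := hAnorm a⁻¹ (Subgroup.inv_mem _ ha) _ hx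
        have e : a⁻¹ * (a * x * a⁻¹) * a⁻¹⁻¹ = x := by group
        rw [e] at h1; exact h1
    have hnorm' : ∀ a ∈ A.map f, ∀ x ∈ P.map f, a * x * a⁻¹ ∈ P.map f := by
      rintro _ ⟨a, ha, rfl⟩ _ ⟨x, hx, rfl⟩
      have h1 := Subgroup.mem_map_of_mem f (hAnorm a ha x hx)
      rw [map_mul, map_mul, map_inv] at h1
      exact h1
    have hquad' : ⁅⁅P.map f, A.map f⁆, A.map f⁆ = ⊥ := by
      rw [← Subgroup.map_commutator, ← Subgroup.map_commutator, hquad, Subgroup.map_bot]
    have hmain := hst' (A.map f) (P.map f) (hAp.map f) (hPp.map f) hnorm'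
      (le_pPrimePCore (P.map f) (hPp.map f) hP'n2) hP'n2 hquad'
    have hA'N : A.map f ≤ Subgroup.normalizer ((P.map f : Subgroup G') : Set G') := by
      rw [Subgroup.normalizer_eq_top (P.map f)]; exact le_top
    obtain ⟨D', hAD', hD'N, hCD', hD'n, hD'p⟩ := good_of_le (A.map f) (P.map f) hA'N hmain
    apply le_of_good
    refine ⟨D'.comap f ⊓ Subgroup.normalizer (P : Set G), ?_, inf_le_right, ?_, ?_, ?_⟩
    · intro a ha
      exact Subgroup.mem_inf.2 ⟨hAD' (Subgroup.mem_map_of_mem f ha), hAN ha⟩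
    · intro c hc
      exact Subgroup.mem_inf.2 ⟨hCD' (hcentmap P c hc),
        Subgroup.centralizer_le_normalizer _ hc⟩
    · intro n hn d hd
      obtain ⟨hd1, hd2⟩ := Subgroup.mem_inf.1 hd
      refine Subgroup.mem_inf.2 ⟨?_,
        Subgroup.mul_mem _ (Subgroup.mul_mem _ hn hd2) (Subgroup.inv_mem _ hn)⟩
      show f (n * d * n⁻¹) ∈ D'
      rw [map_mul, map_mul, map_inv]
      refine hD'n (f n) ?_ (f d) hd1
      rw [Subgroup.normalizer_eq_top (P.map f)]; exact Subgroup.mem_top _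
    · intro d hd
      obtain ⟨hd1, hd2⟩ := Subgroup.mem_inf.1 hd
      obtain ⟨k, hk⟩ := hD'p (f d) hd1
      refine ⟨k, ?_⟩
      rw [← map_pow] at hk
      exact cent_transfer f P hPbot _ (Subgroup.pow_mem _ hd2 _) hk

theorem main {G : Type u} [Group G] [Finite G] [Fact p.Prime] (hO : pCore p G ≠ ⊥) :
    IsPStable p G ↔ IsPStable p (G ⧸ pPrimeCore p G) :=
  main_gen (QuotientGroup.mk' (pPrimeCore p G)) (QuotientGroup.mk'_surjective _)
    (QuotientGroup.ker_mk' _) hO

end Cfsg.Agent.Lib.Helper8.PStabQuot
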