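import Cfsg.Agent.Lib.Helper8.PSolv
import Cfsg.Agent.Lib.Helper8.WNormal
import Cfsg.Agent.Lib.Helper8.PStabQuot
import Cfsg.Prelude.Def_CaseTheorems

set_option autoImplicit false

namespace Cfsg.Agent.Lib.Helper8.CharTwo

open Cfsg
open scoped commutatorElement

universe u

/-! ### solvable implies p-solvable -/

theorem psolv_ext {G : Type*} [Group G] [Finite G] (p : ℕ) (N : Subgroup G) [hN : N.Normal]
    (hNc : (∃ m : ℕ, Nat.card N = p ^ m) ∨ (Nat.card N).Coprime p)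
    (hQ : IsPSolvable p (G ⧸ N)) : IsPSolvable p G := by
  obtain ⟨n, H, h0, hlast, hmono, hnorm, hstep⟩ := hQ
  obtain ⟨H', hH'0, hH's⟩ : ∃ H' : Fin (n + 1 + 1) → Subgroup G, H' 0 = ⊥ ∧
      ∀ i : Fin (n + 1), H' i.succ = (H i).comap (QuotientGroup.mk' N) :=
    ⟨Fin.cons ⊥ (fun i => (H i).comap (QuotientGroup.mk' N)), Fin.cons_zero _ _,
      fun i => Fin.cons_succ _ _ i⟩
  refine ⟨n + 1, H', hH'0, ?_, ?_, ?_, ?_⟩
  · have hl : (Fin.last (n + 1) : Fin (n + 1 + 1)) = (Fin.last n).succ := (Fin.succ_last n).symm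
    rw [hl, hH's, hlast, Subgroup.comap_top]
  · intro i j
    refine Fin.cases ?_ (fun i => ?_) i
    · intro _
      rw [hH'0]; exact bot_le
    · refine Fin.cases ?_ (fun j => ?_) j
      · intro hij
        exfalso
        have h1 : ((i.succ : Fin (n + 1 + 1)) : ℕ) ≤ ((0 : Fin (n + 1 + 1)) : ℕ) := hij
        rw [Fin.val_succ, Fin.val_zero] at h1
        omega
      · intro hij
        rw [hH's, hH's]
        exact Subgroup.comap_mono (hmono (Fin.succ_le_succ_iff.1 hij))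
  · intro i
    refine Fin.cases ?_ (fun i => ?_) i
    · rw [hH'0]; infer_instance
    · rw [hH's]; exact Subgroup.Normal.comap (hnorm i) _
  · intro i
    refine Fin.cases ?_ (fun i => ?_) i
    · have e1 : H' (Fin.castSucc (0 : Fin (n + 1))) = ⊥ := by
        rw [Fin.castSucc_zero]; exact hH'0
      have e2 : H' (Fin.succ (0 : Fin (n + 1))) = N := by
        rw [hH's, h0]
        exact (QuotientGroup.ker_mk' N)
      rw [e1, e2, Subgroup.relIndex_bot_left]
      exact hNc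
    · have e1 : H' (Fin.castSucc i.succ) = (H i.castSucc).comap (QuotientGroup.mk' N) := by
        rw [← Fin.succ_castSucc, hH's]
      have e2 : H' (Fin.succ i.succ) = (H i.succ).comap (QuotientGroup.mk' N) := hH's _
      rw [e1, e2, Subgroup.relIndex_comap,
        Subgroup.map_comap_eq_self_of_surjective (QuotientGroup.mk'_surjective N)]
      exact hstep i

theorem exists_normal_pq {G : Type*} [Group G] [Finite G] [Nontrivial G] (p : ℕ)
    [hp : Fact p.Prime] (hs : Group.IsSolvable G) :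
    ∃ N : Subgroup G, N.Normal ∧ N ≠ ⊥ ∧
      ((∃ m : ℕ, Nat.card N = p ^ m) ∨ (Nat.card N).Coprime p) := by
  classical
  have hex : ∃ n, derivedSeries G n = ⊥ := (Group.isSolvable_def G).1 hs
  obtain ⟨n, hn, hmin⟩ : ∃ n, derivedSeries G n = ⊥ ∧ ∀ m < n, derivedSeries G m ≠ ⊥ :=
    ⟨Nat.find hex, Nat.find_spec hex, fun m hm => Nat.find_min hex hm⟩
  have hn0 : n ≠ 0 := by
    rintro rfl
    rw [derivedSeries_zero] at hn
    exact top_ne_bot hn
  obtain ⟨k, rfl⟩ : ∃ k, n = k + 1 := ⟨n - 1, by omega⟩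
  obtain ⟨A, hA⟩ : ∃ A : Subgroup G, A = derivedSeries G k := ⟨_, rfl⟩
  have hAne : A ≠ ⊥ := by rw [hA]; exact hmin k (Nat.lt_succ_self k)
  have hAn : A.Normal := by rw [hA]; exact derivedSeries_normal G k
  have hAc : ∀ a ∈ A, ∀ b ∈ A, a * b = b * a := by
    intro a ha b hb
    have h1 : ⁅a, b⁆ ∈ ⁅A, A⁆ := Subgroup.commutator_mem_commutator ha hb
    rw [hA, ← derivedSeries_succ, hn, Subgroup.mem_bot] at h1
    exact commutatorElement_eq_one_iff_mul_comm.1 h1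
  by_cases hdvd : p ∣ Nat.card A
  · obtain ⟨N, hN⟩ : ∃ N : Subgroup G, ∀ a, a ∈ N ↔ a ∈ A ∧ ∃ k : ℕ, a ^ (p ^ k) = 1 :=
      ⟨{ carrier := {a | a ∈ A ∧ ∃ k : ℕ, a ^ (p ^ k) = 1}
         one_mem' := ⟨A.one_mem, 0, one_pow _⟩
         mul_mem' := by
           rintro a b ⟨ha, ka, hka⟩ ⟨hb, kb, hkb⟩
           refine ⟨A.mul_mem ha hb, ka + kb, ?_⟩
           have hc : Commute a b := hAc a ha b hb
           have h1 : a ^ p ^ (ka + kb) = 1 := by rw [pow_add, pow_mul, hka, one_pow]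
           have h2 : b ^ p ^ (ka + kb) = 1 := by rw [pow_add, mul_comm, pow_mul, hkb, one_pow]
           rw [hc.mul_pow, h1, h2, one_mul]
         inv_mem' := by
           rintro a ⟨ha, ka, hka⟩
           exact ⟨A.inv_mem ha, ka, by rw [inv_pow, hka, inv_one]⟩ }, fun a => Iff.rfl⟩
    refine ⟨N, ⟨fun a ha g => ?_⟩, ?_, Or.inl ?_⟩
    · obtain ⟨haA, k, hk⟩ := (hN a).1 ha
      exact (hN _).2 ⟨hAn.conj_mem a haA g, k, by rw [conj_pow, hk, mul_one, mul_inv_cancel]⟩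
    · intro hbot
      obtain ⟨x, hx⟩ := exists_prime_orderOf_dvd_card' p hdvd
      have hxp : (x : G) ^ p = 1 := by
        have h := pow_orderOf_eq_one x
        rw [hx] at h
        exact congrArg Subtype.val h
      have hxN : (x : G) ∈ N := (hN _).2 ⟨x.2, 1, by rw [pow_one]; exact hxp⟩
      rw [hbot, Subgroup.mem_bot] at hxN
      have hx1 : x = 1 := Subtype.ext hxN
      rw [hx1, orderOf_one] at hx
      exact hp.out.one_lt.ne hx
    · have hNp : IsPGroup p ↥N := by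
        rintro ⟨a, ha⟩
        obtain ⟨-, k, hk⟩ := (hN a).1 ha
        exact ⟨k, Subtype.ext hk⟩
      exact IsPGroup.iff_card.1 hNp
  · exact ⟨A, hAn, hAne, Or.inr ((Nat.Prime.coprime_iff_not_dvd hp.out).2 hdvd).symm⟩

theorem psolv_of_solvable (p : ℕ) [Fact p.Prime] :
    ∀ (n : ℕ) (G : Type u) [Group G] [Finite G],
      Nat.card G = n → Group.IsSolvable G → IsPSolvable p G := by
  intro n
  induction n using Nat.strong_induction_on with
  | _ n ih =>
    intro G _ _ hcard hs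
    by_cases htriv : Nontrivial G
    · obtain ⟨N, hNn, hNne, hNc⟩ := exists_normal_pq p hs
      haveI := hNn
      haveI := hs
      have hlt : Nat.card (G ⧸ N) < n := by
        rw [← hcard, Subgroup.card_eq_card_quotient_mul_card_subgroup N]
        have h1 : 1 < Nat.card N := by
          by_contra hle
          exact hNne ((Subgroup.card_le_one_iff_eq_bot N).1 (not_lt.1 hle))
        have h2 : 0 < Nat.card (G ⧸ N) := Nat.card_pos
        exact lt_mul_of_one_lt_right h2 h1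
      exact psolv_ext p N hNc (ih _ hlt (G ⧸ N) rfl inferInstance)
    · rw [not_nontrivial_iff_subsingleton] at htriv
      refine ⟨0, fun _ => ⊥, rfl, ?_, fun _ _ _ => le_rfl, fun _ => inferInstance,
        fun i => i.elim0⟩
      exact ((Subgroup.eq_top_iff' _).2 (fun x => by
        rw [Subsingleton.elim x 1]; exact Subgroup.one_mem _))

/-! ### the p-core of a subgroup inside the ambient group -/

section core

variable {G : Type u} [Group G] {p : ℕ}

/-- the p-core of a subgroup, as a subgroup of the ambient group -/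
def Op (p : ℕ) (Y : Subgroup G) : Subgroup G := (pCore p ↥Y).map Y.subtype

theorem Op_isPGroup [Finite G] [Fact p.Prime] (Y : Subgroup G) : IsPGroup p ↥(Op p Y) :=
  (PStabQuot.pCore_isPGroup (p := p) (X := ↥Y)).map _

theorem Op_le (Y : Subgroup G) : Op p Y ≤ Y := Subgroup.map_subtype_le _

theorem Op_conj (Y : Subgroup G) (y : G) (hy : y ∈ Y) (m : G) (hm : m ∈ Op p Y) :
    y * m * y⁻¹ ∈ Op p Y := by
  obtain ⟨m', hm', rfl⟩ := Subgroup.mem_map.1 hm
  exact Subgroup.mem_map.2 ⟨⟨y, hy⟩ * m' * ⟨y, hy⟩⁻¹,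
    (inferInstance : (pCore p ↥Y).Normal).conj_mem m' hm' ⟨y, hy⟩, rfl⟩

theorem le_Op (Y M : Subgroup G) (hMY : M ≤ Y) (hMp : IsPGroup p ↥M)
    (hn : ∀ y ∈ Y, ∀ m ∈ M, y * m * y⁻¹ ∈ M) : M ≤ Op p Y := by
  have h1 : M.subgroupOf Y ≤ pCore p ↥Y := by
    apply le_sSup
    exact ⟨⟨fun m hm y => hn y.1 y.2 m.1 hm⟩, hMp.comap_subtype⟩
  intro m hm
  exact Subgroup.mem_map.2
    ⟨⟨m, hMY hm⟩, h1 (show (⟨m, hMY hm⟩ : ↥Y) ∈ M.subgroupOf Y from hm), rfl⟩

theorem Op_conj_of_normalizes [Finite G] [Fact p.Prime] (Y : Subgroup G) (h : G)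
    (hh : ∀ y ∈ Y, h * y * h⁻¹ ∈ Y) (hh' : ∀ y ∈ Y, h⁻¹ * y * h ∈ Y) (m : G)
    (hm : m ∈ Op p Y) : h * m * h⁻¹ ∈ Op p Y := by
  have hle : (Op p Y).map (MulAut.conj h).toMonoidHom ≤ Op p Y := by
    apply le_Op
    · rintro _ ⟨m, hm, rfl⟩; exact hh m (Op_le Y hm)
    · exact (Op_isPGroup Y).map _
    · rintro y hy _ ⟨m, hm, rfl⟩
      refine ⟨(h⁻¹ * y * h) * m * (h⁻¹ * y * h)⁻¹, Op_conj Y _ (hh' y hy) m hm, ?_⟩
      show h * ((h⁻¹ * y * h) * m * (h⁻¹ * y * h)⁻¹) * h⁻¹ = y * (h * m * h⁻¹) * y⁻¹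
      group
  exact hle (Subgroup.mem_map_of_mem _ hm)

/-! ### Thompson's P × Q lemma -/

theorem pq_lemma [Finite G] [Fact p.Prime] (A B : Subgroup G) (hB : IsPGroup p ↥B)
    (hAB : ∀ a ∈ A, ∀ b ∈ B, a * b = b * a) (hA : ∀ a ∈ A, (orderOf a).Coprime p) :
    ∀ (n : ℕ) (P : Subgroup G), Nat.card P = n → IsPGroup p ↥P →
      (∀ a ∈ A, ∀ u ∈ P, a * u * a⁻¹ ∈ P) → (∀ b ∈ B, ∀ u ∈ P, b * u * b⁻¹ ∈ P) →
      (∀ u ∈ P, (∀ b ∈ B, b * u = u * b) → ∀ a ∈ A, a * u = u * a) →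
      ∀ u ∈ P, ∀ a ∈ A, a * u = u * a := by
  intro n
  induction n using Nat.strong_induction_on with
  | _ n ih =>
    intro P hcard hP hAP hBP hcent
    have hP1le : ⁅P, B⁆ ≤ P := by
      rw [Subgroup.commutator_le]
      intro u hu b hb
      rw [commutatorElement_def]
      have h2 := hBP b hb u⁻¹ (Subgroup.inv_mem _ hu)
      have e : u * b * u⁻¹ * b⁻¹ = u * (b * u⁻¹ * b⁻¹) := by group
      rw [e]; exact Subgroup.mul_mem _ hu h2
    have hPAle : ⁅P, A⁆ ≤ P := by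
      rw [Subgroup.commutator_le]
      intro u hu a ha
      rw [commutatorElement_def]
      have h2 := hAP a ha u⁻¹ (Subgroup.inv_mem _ hu)
      have e : u * a * u⁻¹ * a⁻¹ = u * (a * u⁻¹ * a⁻¹) := by group
      rw [e]; exact Subgroup.mul_mem _ hu h2
    by_cases hPbot : P = ⊥
    · intro u hu a ha
      rw [hPbot, Subgroup.mem_bot] at hu
      rw [hu, mul_one, one_mul]
    have hne : ¬ P ≤ ⁅P, B⁆ := by
      intro hle
      have hPB : IsPGroup p ↥(P ⊔ B) := by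
        apply IsPGroup.to_sup_of_normal_left' hP hB
        intro b hb
        rw [Subgroup.mem_normalizer_iff]
        intro u
        constructor
        · exact hBP b hb u
        · intro hx
          have h1 := hBP b⁻¹ (Subgroup.inv_mem _ hb) _ hx
          have e : b⁻¹ * (b * u * b⁻¹) * b⁻¹⁻¹ = u := by group
          rw [e] at h1; exact h1
      obtain ⟨S, hS⟩ := hPB.exists_le_sylow
      exact hPbot (WNormal.nil_aux S P B (le_sup_left.trans hS) (le_sup_right.trans hS) hle)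
    have hlt : Nat.card ↥(⁅P, B⁆) < n := by
      rw [← hcard]
      by_contra hge
      exact hne (le_of_eq (Subgroup.eq_of_le_of_card_ge hP1le (not_lt.1 hge)).symm)
    have hA1 : ∀ a ∈ A, ∀ u ∈ ⁅P, B⁆, a * u * a⁻¹ ∈ ⁅P, B⁆ := by
      intro a ha u hu
      have h1 : (⁅P, B⁆).map (MulAut.conj a).toMonoidHom ≤ ⁅P, B⁆ := by
        rw [Subgroup.map_commutator]
        apply Subgroup.commutator_mono
        · rintro _ ⟨v, hv, rfl⟩; exact hAP a ha v hv
        · rintro _ ⟨b, hb, rfl⟩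
          show a * b * a⁻¹ ∈ B
          rw [hAB a ha b hb, mul_inv_cancel_right]; exact hb
      exact h1 (Subgroup.mem_map_of_mem _ hu)
    have hB1 : ∀ b ∈ B, ∀ u ∈ ⁅P, B⁆, b * u * b⁻¹ ∈ ⁅P, B⁆ := by
      intro b hb u hu
      have h1 : (⁅P, B⁆).map (MulAut.conj b).toMonoidHom ≤ ⁅P, B⁆ := by
        rw [Subgroup.map_commutator]
        apply Subgroup.commutator_mono
        · rintro _ ⟨v, hv, rfl⟩; exact hBP b hb v hv
        · rintro _ ⟨b', hb', rfl⟩
          exact B.mul_mem (B.mul_mem hb hb') (B.inv_mem hb)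
      exact h1 (Subgroup.mem_map_of_mem _ hu)
    have hih := ih _ hlt ⁅P, B⁆ rfl (hP.to_le hP1le) hA1 hB1
      (fun u hu hub => hcent u (hP1le hu) hub)
    have h1 : ⁅⁅P, B⁆, A⁆ = ⊥ := by
      rw [Subgroup.commutator_eq_bot_iff_le_centralizer]
      intro u hu
      refine Subgroup.mem_centralizer_iff.2 (fun a ha => ?_)
      exact hih u hu a ha
    have h2 : ⁅⁅B, A⁆, P⁆ = ⊥ := by
      have h0 : ⁅B, A⁆ = ⊥ := by
        rw [Subgroup.commutator_eq_bot_iff_le_centralizer]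
        intro b hb
        refine Subgroup.mem_centralizer_iff.2 (fun a ha => ?_)
        exact hAB a ha b hb
      rw [h0, Subgroup.commutator_bot_left]
    have h3 : ⁅⁅A, P⁆, B⁆ = ⊥ := Subgroup.commutator_commutator_eq_bot_of_rotate h1 h2
    rw [Subgroup.commutator_comm A P, Subgroup.commutator_eq_bot_iff_le_centralizer] at h3
    intro u hu a ha
    obtain ⟨w, hw⟩ : ∃ w, w = u⁻¹ * (a * u * a⁻¹) := ⟨_, rfl⟩
    have hwc : w ∈ ⁅P, A⁆ := by
      have h4 : ⁅u⁻¹, a⁆ ∈ ⁅P, A⁆ :=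
        Subgroup.commutator_mem_commutator (Subgroup.inv_mem _ hu) ha
      rw [commutatorElement_def, inv_inv] at h4
      have e : w = u⁻¹ * a * u * a⁻¹ := by rw [hw]; group
      rw [e]; exact h4
    have hwP : w ∈ P := hPAle hwc
    have hwB : ∀ b ∈ B, b * w = w * b := by
      intro b hb
      exact Subgroup.mem_centralizer_iff.1 (h3 hwc) b hb
    have haw : a * w = w * a := hcent w hwP hwB a ha
    obtain ⟨k, hk⟩ := hP ⟨w, hwP⟩
    have hk' : w ^ p ^ k = 1 := congrArg Subtype.val hk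
    have hconj : a * u * a⁻¹ = u * w := by rw [hw]; group
    have hw1 : w = 1 := PSolv.eq_one_of_conj_eq_mul a u w (orderOf a) (p ^ k) hconj haw
      (pow_orderOf_eq_one a) hk' (Nat.Coprime.pow_right k (hA a ha))
    rw [hw1, mul_one] at hconj
    calc a * u = (a * u * a⁻¹) * a := by group
      _ = u * a := by rw [hconj]

end core

/-! ### characteristic 2 type -/

theorem key {G : Type u} [Group G] [Finite G] (T H : Subgroup G) (hT : IsPGroup 2 ↥T)
    (hTne : T ≠ ⊥) (hTH : T ≤ H) (hHT : ∀ h ∈ H, ∀ s ∈ T, h * s * h⁻¹ ∈ T)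
    (hHmax : ∀ g : G, (∀ s ∈ T, g * s = s * g) → g ∈ H)
    (hs : ∀ t : G, orderOf t = 2 → Group.IsSolvable (Subgroup.centralizer ({t} : Set G)))
    (hc : ∀ t : G, orderOf t = 2 → Cfsg.oddCore (Subgroup.centralizer ({t} : Set G)) = ⊥) :
    IsOfCharacteristicTwo ↥H := by
  haveI : Fact (Nat.Prime 2) := ⟨Nat.prime_two⟩
  unfold IsOfCharacteristicTwo
  obtain ⟨Q, hQ⟩ : ∃ Q : Subgroup G, Q = Op 2 H := ⟨_, rfl⟩
  have hQp : IsPGroup 2 ↥Q := by rw [hQ]; exact Op_isPGroup H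
  have hQH : Q ≤ H := by rw [hQ]; exact Op_le H
  have hQn : ∀ h ∈ H, ∀ q ∈ Q, h * q * h⁻¹ ∈ Q := by
    rw [hQ]; exact fun h hh q hq => Op_conj H h hh q hq
  have hTQ : T ≤ Q := by rw [hQ]; exact le_Op H T hTH hT hHT
  have hQne : Q ≠ ⊥ := by
    intro h
    rw [h] at hTQ
    exact hTne (le_bot_iff.1 hTQ)
  obtain ⟨t, htQ, htc, hto⟩ : ∃ t ∈ Q, (∀ q ∈ Q, q * t = t * q) ∧ orderOf t = 2 := by
    haveI : Nontrivial ↥Q := (Subgroup.nontrivial_iff_ne_bot Q).2 hQne
    haveI : Nontrivial (Subgroup.center ↥Q) := hQp.center_nontrivial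
    have hZ : IsPGroup 2 (Subgroup.center ↥Q) := hQp.to_subgroup _
    obtain ⟨n, hn0, hn⟩ := hZ.nontrivial_iff_card.1 inferInstance
    have hdvd : 2 ∣ Nat.card (Subgroup.center ↥Q) := by rw [hn]; exact dvd_pow_self 2 hn0.ne'
    obtain ⟨z, hz⟩ := exists_prime_orderOf_dvd_card' 2 hdvd
    refine ⟨((z : ↥Q) : G), (z : ↥Q).2, ?_, ?_⟩
    · intro q hq
      have h1 := (Subgroup.mem_center_iff.1 z.2) ⟨q, hq⟩
      exact congrArg Subtype.val h1
    · exact (Subgroup.orderOf_coe _).trans ((Subgroup.orderOf_coe _).trans hz)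
  obtain ⟨C, hC⟩ : ∃ C : Subgroup G, C = Subgroup.centralizer ({t} : Set G) := ⟨_, rfl⟩
  have hCmem : ∀ g : G, g ∈ C ↔ t * g = g * t := by
    intro g; rw [hC, Subgroup.mem_centralizer_iff]
    constructor
    · intro h; exact h t rfl
    · intro h x hx
      rw [Set.mem_singleton_iff] at hx
      rw [hx]; exact h
  have hCs : Group.IsSolvable ↥C := by rw [hC]; exact hs t hto
  have hCo : pPrimeCore 2 ↥C = ⊥ := by rw [hC]; exact hc t hto
  have hCps : IsPSolvable 2 ↥C := psolv_of_solvable 2 _ ↥C rfl hCs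
  have hfit := PSolv.centralizer_pCore_le hCps hCo
  obtain ⟨R, hR⟩ : ∃ R : Subgroup G, R = Op 2 C := ⟨_, rfl⟩
  have hRp : IsPGroup 2 ↥R := by rw [hR]; exact Op_isPGroup C
  have hRC : R ≤ C := by rw [hR]; exact Op_le C
  have hRn : ∀ c ∈ C, ∀ r ∈ R, c * r * c⁻¹ ∈ R := by
    rw [hR]; exact fun c hc' r hr => Op_conj C c hc' r hr
  have hRfit : ∀ y ∈ C, (∀ r ∈ R, r * y = y * r) → y ∈ R := by
    intro y hy hyr
    have h1 : (⟨y, hy⟩ : ↥C) ∈ Subgroup.centralizer (pCore 2 ↥C : Set ↥C) := by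
      refine Subgroup.mem_centralizer_iff.2 (fun r hr => ?_)
      apply Subtype.ext
      have hrR : (r : G) ∈ R := by
        rw [hR]; exact Subgroup.mem_map_of_mem C.subtype hr
      exact hyr r.1 hrR
    rw [hR]
    exact Subgroup.mem_map.2 ⟨⟨y, hy⟩, hfit h1, rfl⟩
  have hQC : Q ≤ C := fun q hq => (hCmem q).2 (htc q hq).symm
  obtain ⟨X, hX⟩ : ∃ X : Subgroup G, X = H ⊓ Subgroup.centralizer (Q : Set G) := ⟨_, rfl⟩
  have hXmem : ∀ x : G, x ∈ X ↔ x ∈ H ∧ ∀ q ∈ Q, q * x = x * q := by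
    intro x; rw [hX, Subgroup.mem_inf, Subgroup.mem_centralizer_iff]; exact Iff.rfl
  have hXH : X ≤ H := fun x hx => ((hXmem x).1 hx).1
  have hXC : X ≤ C := fun x hx => (hCmem x).2 (((hXmem x).1 hx).2 t htQ)
  have hHX : ∀ h ∈ H, ∀ x ∈ X, h * x * h⁻¹ ∈ X := by
    intro h hh x hx
    obtain ⟨hxH, hxQ⟩ := (hXmem x).1 hx
    refine (hXmem _).2 ⟨H.mul_mem (H.mul_mem hh hxH) (H.inv_mem hh), ?_⟩
    intro q hq
    have h1 := hQn h⁻¹ (H.inv_mem hh) q hq
    have h2 := hxQ _ h1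
    calc q * (h * x * h⁻¹) = h * ((h⁻¹ * q * h⁻¹⁻¹) * x) * h⁻¹ := by group
      _ = h * (x * (h⁻¹ * q * h⁻¹⁻¹)) * h⁻¹ := by rw [h2]
      _ = h * x * h⁻¹ * q := by group
  have hWQ : Op 2 X ≤ Q := by
    rw [hQ]
    apply le_Op H (Op 2 X) ((Op_le X).trans hXH) (Op_isPGroup X)
    intro h hh m hm
    exact Op_conj_of_normalizes X h (hHX h hh) (fun y hy => by
      have h1 := hHX h⁻¹ (H.inv_mem hh) y hy
      rw [inv_inv] at h1; exact h1) m hm
  have hRXQ : ∀ u ∈ R, u ∈ X → u ∈ Q := by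
    intro u huR huX
    apply hWQ
    have hle : R ⊓ X ≤ Op 2 X := by
      apply le_Op X (R ⊓ X) inf_le_right (hRp.to_le inf_le_left)
      intro y hy m hm
      obtain ⟨hm1, hm2⟩ := Subgroup.mem_inf.1 hm
      exact Subgroup.mem_inf.2
        ⟨hRn y (hXC hy) m hm1, X.mul_mem (X.mul_mem hy hm2) (X.inv_mem hy)⟩
    exact hle (Subgroup.mem_inf.2 ⟨huR, huX⟩)
  have hodd : ∀ x ∈ X, (orderOf x).Coprime 2 → x = 1 := by
    intro x hx hxo
    have hzX : Subgroup.zpowers x ≤ X := by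
      rw [Subgroup.zpowers_le]; exact hx
    have hcentR : ∀ u ∈ R, ∀ a ∈ Subgroup.zpowers x, a * u = u * a := by
      refine pq_lemma (p := 2) (Subgroup.zpowers x) Q hQp ?_ ?_ (Nat.card R) R rfl hRp ?_ ?_ ?_
      · intro a ha b hb
        exact (((hXmem a).1 (hzX ha)).2 b hb).symm
      · intro a ha
        exact Nat.Coprime.coprime_dvd_left (orderOf_dvd_of_mem_zpowers ha) hxo
      · intro a ha u hu
        exact hRn a (hXC (hzX ha)) u hu
      · intro b hb u hu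
        exact hRn b (hQC hb) u hu
      · intro u hu hub a ha
        have huH : u ∈ H := hHmax u (fun s hs' => (hub s (hTQ hs')).symm)
        have huX : u ∈ X := (hXmem u).2 ⟨huH, fun q hq => hub q hq⟩
        have huQ : u ∈ Q := hRXQ u hu huX
        exact (((hXmem a).1 (hzX ha)).2 u huQ).symm
    have hxR : x ∈ R :=
      hRfit x (hXC hx) (fun r hr => (hcentR r hr x (Subgroup.mem_zpowers x)).symm)
    obtain ⟨k, hk⟩ := hRp ⟨x, hxR⟩
    have hk' : x ^ 2 ^ k = 1 := congrArg Subtype.val hk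
    have h3 : orderOf x ∣ 2 ^ k := orderOf_dvd_of_pow_eq_one hk'
    have h4 := Nat.Coprime.eq_one_of_dvd (Nat.Coprime.pow_right k hxo) h3
    exact orderOf_eq_one_iff.1 h4
  have hXp : IsPGroup 2 ↥X := by
    rintro ⟨x, hx⟩
    have ho : orderOf x ≠ 0 := (orderOf_pos x).ne'
    obtain ⟨k, m, hm, hkm⟩ := Nat.exists_eq_two_pow_mul_odd ho
    refine ⟨k, Subtype.ext ?_⟩
    show x ^ 2 ^ k = 1
    apply hodd _ (X.pow_mem hx _)
    have h1 : (x ^ 2 ^ k) ^ m = 1 := by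
      rw [← pow_mul, ← hkm, pow_orderOf_eq_one]
    have h2 : orderOf (x ^ 2 ^ k) ∣ m := orderOf_dvd_of_pow_eq_one h1
    exact Nat.Coprime.coprime_dvd_left h2 (Nat.coprime_two_right.2 hm)
  have hXQ : X ≤ Q := by
    rw [hQ]; exact le_Op H X hXH hXp hHX
  intro z hz
  have hzX : (z : G) ∈ X := by
    refine (hXmem _).2 ⟨z.2, ?_⟩
    intro q hq
    rw [hQ] at hq
    have hq2 : q ∈ (pCore 2 ↥H).map H.subtype := hq
    obtain ⟨q', hq', rfl⟩ := Subgroup.mem_map.1 hq2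
    have h1 := Subgroup.mem_centralizer_iff.1 hz q' hq'
    exact congrArg Subtype.val h1
  have hzQ := hXQ hzX
  rw [hQ] at hzQ
  have hzQ2 : (z : G) ∈ (pCore 2 ↥H).map H.subtype := hzQ
  obtain ⟨z', hz', hzz'⟩ := Subgroup.mem_map.1 hzQ2
  have hzeq : z' = z := Subtype.ext hzz'
  rw [← hzeq]; exact hz'

theorem main {G : Type u} [Group G] [Finite G]
    (h2 : Even (Nat.card G))
    (hs : ∀ t : G, orderOf t = 2 → Group.IsSolvable (Subgroup.centralizer ({t} : Set G)))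
    (hc : ∀ t : G, orderOf t = 2 → Cfsg.oddCore (Subgroup.centralizer ({t} : Set G)) = ⊥) :
    Cfsg.IsCharacteristicTwoType G := by
  refine ⟨h2, ?_⟩
  intro T hT hTne
  exact key T (Subgroup.normalizer (T : Set G)) hT hTne Subgroup.le_normalizer
    (fun h hh s hs' => (Subgroup.mem_normalizer_iff.1 hh s).1 hs')
    (fun g hg => Subgroup.centralizer_le_normalizer _
      (Subgroup.mem_centralizer_iff.2 (fun s hs' => (hg s hs').symm))) hs hc

end Cfsg.Agent.Lib.Helper8.CharTwo
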