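import Mathlib
import Cfsg.Agent.Lib.Helper8.WNormal

set_option autoImplicit false

namespace Cfsg.Agent.Lib.Helper8.ConjCount

variable {X : Type*} [Group X]

theorem comm_eq_one [Finite X] (V G : Subgroup X) (hcop : (Nat.card V).Coprime (Nat.card G))
    {w g u : X} (hg : g ∈ G) (huV : u ∈ V) (hu : u = w * g * w⁻¹ * g⁻¹)
    (hug : g * u = u * g) : u = 1 := by
  have h1 : g * w⁻¹ * g⁻¹ = w⁻¹ * u := by rw [hu]; group
  have hcomm : Commute g u := hug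
  have key : ∀ i : ℕ, g ^ i * w⁻¹ * (g ^ i)⁻¹ = w⁻¹ * u ^ i := by
    intro i
    induction i with
    | zero => simp
    | succ i ih =>
      have h2 : g * u ^ i * g⁻¹ = u ^ i := by
        have := (hcomm.pow_right i).eq
        rw [this]; group
      calc g ^ (i + 1) * w⁻¹ * (g ^ (i + 1))⁻¹
          = g * (g ^ i * w⁻¹ * (g ^ i)⁻¹) * g⁻¹ := by rw [pow_succ']; group
        _ = g * (w⁻¹ * u ^ i) * g⁻¹ := by rw [ih]
        _ = (g * w⁻¹ * g⁻¹) * (g * u ^ i * g⁻¹) := by group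
        _ = w⁻¹ * u ^ (i + 1) := by rw [h1, h2, pow_succ', mul_assoc]
  have h4 : u ^ orderOf g = 1 := by
    have h3' : w⁻¹ = w⁻¹ * u ^ orderOf g := by
      have := key (orderOf g)
      rwa [pow_orderOf_eq_one, one_mul, inv_one, mul_one] at this
    exact mul_left_cancel (a := w⁻¹) (by rw [← h3', mul_one])
  have h5 : orderOf u ∣ Nat.card G :=
    (orderOf_dvd_of_pow_eq_one h4).trans (Subgroup.orderOf_dvd_natCard G hg)
  have h6 : orderOf u ∣ Nat.card V := Subgroup.orderOf_dvd_natCard V huV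
  have h7 : orderOf u ∣ 1 := by
    have := Nat.dvd_gcd h6 h5
    rwa [Nat.Coprime.gcd_eq_one hcop] at this
  exact orderOf_eq_one_iff.mp (Nat.dvd_one.mp h7)

theorem key_comm {A : Type*} [CommGroup A] [Finite A] (σ : A →* A)
    (hdisj : ∀ w : A, σ (w * (σ w)⁻¹) = w * (σ w)⁻¹ → w * (σ w)⁻¹ = 1) (v : A) :
    ∃ c w : A, σ c = c ∧ v * (w * (σ w)⁻¹) = c := by
  let φ : A →* A :=
    { toFun := fun w => w * (σ w)⁻¹
      map_one' := by simp
      map_mul' := fun a b => by rw [map_mul, mul_inv, mul_mul_mul_comm] }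
  have hφ : ∀ w, φ w = w * (σ w)⁻¹ := fun w => rfl
  have hker : ∀ c, c ∈ φ.ker → σ c = c := by
    intro c hc
    have h0 : φ c = 1 := MonoidHom.mem_ker.mp hc
    rw [hφ] at h0
    exact (mul_inv_eq_one.mp h0).symm
  have h1 : φ.ker ⊓ φ.range = ⊥ := by
    rw [eq_bot_iff]
    rintro c ⟨hc1, w, rfl⟩
    have h0 := hker _ hc1
    rw [hφ] at h0
    have := hdisj w h0
    exact Subgroup.mem_bot.mpr ((hφ w).trans this)
  have h2 : Nat.card φ.ker * Nat.card φ.range = Nat.card A := by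
    rw [← Subgroup.index_ker]; exact Subgroup.card_mul_index _
  have h3 : φ.ker ⊔ φ.range = ⊤ := by
    apply Subgroup.eq_top_of_le_card
    have := WNormal.card_mul_le φ.ker φ.range
    rw [h1, Subgroup.card_bot, mul_one, h2] at this
    exact this
  have hv : v ∈ φ.ker ⊔ φ.range := by rw [h3]; exact Subgroup.mem_top v
  obtain ⟨y, hy, z, ⟨w, rfl⟩, hyz⟩ := Subgroup.mem_sup.mp hv
  refine ⟨y, w⁻¹, hker y hy, ?_⟩
  rw [← hyz, hφ, map_inv, inv_inv, mul_assoc]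
  have : w * (σ w)⁻¹ * (w⁻¹ * σ w) = 1 := by
    rw [mul_mul_mul_comm, mul_inv_cancel, inv_mul_cancel, one_mul]
  rw [this, mul_one]

theorem exists_conj [Finite X] (V G : Subgroup X) [hVn : V.Normal]
    (hab : ∀ a ∈ V, ∀ b ∈ V, a * b = b * a)
    (hcop : (Nat.card V).Coprime (Nat.card G)) {g v : X} (hg : g ∈ G) (hv : v ∈ V) :
    ∃ w ∈ V, ∃ c ∈ V, g * c = c * g ∧ w * (v * g) * w⁻¹ = c * g := by
  letI : CommGroup ↥V :=
    { (inferInstance : Group ↥V) with mul_comm := fun a b => Subtype.ext (hab a a.2 b b.2) }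
  let σ : ↥V →* ↥V :=
    { toFun := fun w => ⟨g * w.1 * g⁻¹, hVn.conj_mem w.1 w.2 g⟩
      map_one' := Subtype.ext (by show g * 1 * g⁻¹ = 1; group)
      map_mul' := fun a b => Subtype.ext (by
        show g * (a.1 * b.1) * g⁻¹ = g * a.1 * g⁻¹ * (g * b.1 * g⁻¹); group) }
  have hdisj : ∀ w : ↥V, σ (w * (σ w)⁻¹) = w * (σ w)⁻¹ → w * (σ w)⁻¹ = 1 := by
    intro w hw
    have hu : ((w * (σ w)⁻¹ : ↥V) : X) = w.1 * g * w.1⁻¹ * g⁻¹ := by
      show w.1 * (g * w.1 * g⁻¹)⁻¹ = _; group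
    have hug : g * ((w * (σ w)⁻¹ : ↥V) : X) = ((w * (σ w)⁻¹ : ↥V) : X) * g := by
      have h' : g * ((w * (σ w)⁻¹ : ↥V) : X) * g⁻¹ = ((w * (σ w)⁻¹ : ↥V) : X) :=
        congrArg Subtype.val hw
      calc g * ((w * (σ w)⁻¹ : ↥V) : X)
          = (g * ((w * (σ w)⁻¹ : ↥V) : X) * g⁻¹) * g := by group
        _ = _ := by rw [h']
    exact Subtype.ext (comm_eq_one V G hcop hg (w * (σ w)⁻¹ : ↥V).2 hu hug)
  obtain ⟨c, w, hc, hw⟩ := key_comm σ hdisj ⟨v, hv⟩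
  refine ⟨w.1, w.2, c.1, c.2, ?_, ?_⟩
  · have h' : g * c.1 * g⁻¹ = c.1 := congrArg Subtype.val hc
    calc g * c.1 = (g * c.1 * g⁻¹) * g := by group
      _ = c.1 * g := by rw [h']
  · have h' : v * (w.1 * (g * w.1 * g⁻¹)⁻¹) = c.1 := congrArg Subtype.val hw
    calc w.1 * (v * g) * w.1⁻¹ = (w.1 * v) * g * w.1⁻¹ := by group
      _ = (v * w.1) * g * w.1⁻¹ := by rw [hab w.1 w.2 v hv]
      _ = (v * (w.1 * (g * w.1 * g⁻¹)⁻¹)) * g := by group
      _ = c.1 * g := by rw [h']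

theorem main [Finite X] (V : Subgroup X) [hVn : V.Normal]
    (hab : ∀ a ∈ V, ∀ b ∈ V, a * b = b * a) (G : Subgroup X)
    (hGV : Subgroup.IsComplement' V G) (hcop : (Nat.card V).Coprime (Nat.card G))
    (S : Finset X) (hSV : ∀ s ∈ S, s ∈ V)
    (hrep : ∀ v ∈ V, ∃! s, s ∈ S ∧ ∃ g ∈ G, g * v * g⁻¹ = s) :
    Nat.card (ConjClasses X) =
      ∑ s ∈ S, Nat.card (ConjClasses ↥(G ⊓ Subgroup.centralizer ({s} : Set X))) := by
  classical
  have hsurj : ∀ x : X, ∃ v ∈ V, ∃ g ∈ G, x = v * g := by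
    intro x
    obtain ⟨⟨⟨v, hv⟩, ⟨g, hg⟩⟩, h⟩ := hGV.2 x
    exact ⟨v, hv, g, hg, h.symm⟩
  have hi : Function.Injective (fun x : ↥(V : Set X) × ↥(G : Set X) => (x.1 : X) * (x.2 : X)) := hGV.1
  have hinj : ∀ v ∈ V, ∀ g ∈ G, ∀ v' ∈ V, ∀ g' ∈ G, v * g = v' * g' → v = v' ∧ g = g' := by
    intro v hv g hg v' hv' g' hg' h
    have := hi (a₁ := (⟨v, hv⟩, ⟨g, hg⟩)) (a₂ := (⟨v', hv'⟩, ⟨g', hg'⟩)) h
    exact ⟨congrArg (fun z => (z.1 : X)) this, congrArg (fun z => (z.2 : X)) this⟩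
  let F : (Σ s : {x // x ∈ S}, ConjClasses ↥(G ⊓ Subgroup.centralizer ({s.1} : Set X))) →
      ConjClasses X := fun a =>
    Quotient.liftOn a.2 (fun g => ConjClasses.mk (a.1.1 * g.1)) (by
      intro g g' hgg
      have hgg' : IsConj g g' := hgg
      obtain ⟨k, hk⟩ := isConj_iff.mp hgg'
      apply ConjClasses.mk_eq_mk_iff_isConj.mpr
      apply isConj_iff.mpr
      refine ⟨k.1, ?_⟩
      have hks : a.1.1 * k.1 = k.1 * a.1.1 :=
        (Subgroup.mem_centralizer_iff.mp (Subgroup.mem_inf.mp k.2).2) a.1.1 rfl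
      have hk' : k.1 * g.1 * k.1⁻¹ = g'.1 := congrArg Subtype.val hk
      calc k.1 * (a.1.1 * g.1) * k.1⁻¹ = (k.1 * a.1.1) * g.1 * k.1⁻¹ := by group
        _ = (a.1.1 * k.1) * g.1 * k.1⁻¹ := by rw [hks]
        _ = a.1.1 * (k.1 * g.1 * k.1⁻¹) := by group
        _ = a.1.1 * g'.1 := by rw [hk'])
  have hF : ∀ (s : {x // x ∈ S}) (g : ↥(G ⊓ Subgroup.centralizer ({s.1} : Set X))),
      F ⟨s, ConjClasses.mk g⟩ = ConjClasses.mk (s.1 * g.1) := fun s g => rfl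
  have hbij : Function.Bijective F := by
    constructor
    · rintro ⟨s, c⟩ ⟨s', c'⟩ hFF
      obtain ⟨g, rfl⟩ := ConjClasses.mk_surjective c
      obtain ⟨g', rfl⟩ := ConjClasses.mk_surjective c'
      rw [hF, hF] at hFF
      obtain ⟨x, hx⟩ := isConj_iff.mp (ConjClasses.mk_eq_mk_iff_isConj.mp hFF)
      obtain ⟨w, hw, h, hh, rfl⟩ := hsurj x
      have hsV := hSV s.1 s.2
      have hs'V := hSV s'.1 s'.2
      have hgG : g.1 ∈ G := (Subgroup.mem_inf.mp g.2).1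
      have hg'G : g'.1 ∈ G := (Subgroup.mem_inf.mp g'.2).1
      have hgs : s.1 * g.1 = g.1 * s.1 :=
        (Subgroup.mem_centralizer_iff.mp (Subgroup.mem_inf.mp g.2).2) s.1 rfl
      have hg's : s'.1 * g'.1 = g'.1 * s'.1 :=
        (Subgroup.mem_centralizer_iff.mp (Subgroup.mem_inf.mp g'.2).2) s'.1 rfl
      have hs1V : h * s.1 * h⁻¹ ∈ V := hVn.conj_mem _ hsV h
      have hg1G : h * g.1 * h⁻¹ ∈ G := G.mul_mem (G.mul_mem hh hgG) (G.inv_mem hh)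
      have huV : w * (h * g.1 * h⁻¹) * w⁻¹ * (h * g.1 * h⁻¹)⁻¹ ∈ V := by
        have h1 : (h * g.1 * h⁻¹) * w⁻¹ * (h * g.1 * h⁻¹)⁻¹ ∈ V :=
          hVn.conj_mem _ (V.inv_mem hw) _
        have h2 := V.mul_mem hw h1
        have e : w * (h * g.1 * h⁻¹) * w⁻¹ * (h * g.1 * h⁻¹)⁻¹
            = w * ((h * g.1 * h⁻¹) * w⁻¹ * (h * g.1 * h⁻¹)⁻¹) := by group
        rw [e]; exact h2
      have e1 : (h * s.1 * h⁻¹ * (w * (h * g.1 * h⁻¹) * w⁻¹ * (h * g.1 * h⁻¹)⁻¹))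
          * (h * g.1 * h⁻¹) = s'.1 * g'.1 := by
        rw [← hx]
        calc (h * s.1 * h⁻¹ * (w * (h * g.1 * h⁻¹) * w⁻¹ * (h * g.1 * h⁻¹)⁻¹))
              * (h * g.1 * h⁻¹)
            = ((h * s.1 * h⁻¹) * w) * (h * g.1 * h⁻¹) * w⁻¹ := by group
          _ = (w * (h * s.1 * h⁻¹)) * (h * g.1 * h⁻¹) * w⁻¹ := by rw [hab _ hs1V w hw]
          _ = w * h * (s.1 * g.1) * (w * h)⁻¹ := by group
      obtain ⟨e2, e3⟩ := hinj _ (V.mul_mem hs1V huV) _ hg1G _ hs'V _ hg'G e1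
      have hs1g1 : (h * s.1 * h⁻¹) * (h * g.1 * h⁻¹) = (h * g.1 * h⁻¹) * (h * s.1 * h⁻¹) := by
        calc (h * s.1 * h⁻¹) * (h * g.1 * h⁻¹) = h * (s.1 * g.1) * h⁻¹ := by group
          _ = h * (g.1 * s.1) * h⁻¹ := by rw [hgs]
          _ = _ := by group
      have hu1 : w * (h * g.1 * h⁻¹) * w⁻¹ * (h * g.1 * h⁻¹)⁻¹ = 1 := by
        apply comm_eq_one V G hcop hg1G huV rfl
        have hs'g1 : s'.1 * (h * g.1 * h⁻¹) = (h * g.1 * h⁻¹) * s'.1 := by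
          rw [e3]; exact hg's
        have hu' : w * (h * g.1 * h⁻¹) * w⁻¹ * (h * g.1 * h⁻¹)⁻¹
            = (h * s.1 * h⁻¹)⁻¹ * s'.1 := by
          rw [← e2]; group
        rw [hu']
        have hs1inv : (h * g.1 * h⁻¹) * (h * s.1 * h⁻¹)⁻¹
            = (h * s.1 * h⁻¹)⁻¹ * (h * g.1 * h⁻¹) := by
          calc (h * g.1 * h⁻¹) * (h * s.1 * h⁻¹)⁻¹
              = (h * s.1 * h⁻¹)⁻¹ * ((h * s.1 * h⁻¹) * (h * g.1 * h⁻¹))
                  * (h * s.1 * h⁻¹)⁻¹ := by group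
            _ = (h * s.1 * h⁻¹)⁻¹ * ((h * g.1 * h⁻¹) * (h * s.1 * h⁻¹))
                  * (h * s.1 * h⁻¹)⁻¹ := by rw [hs1g1]
            _ = _ := by group
        calc (h * g.1 * h⁻¹) * ((h * s.1 * h⁻¹)⁻¹ * s'.1)
            = ((h * g.1 * h⁻¹) * (h * s.1 * h⁻¹)⁻¹) * s'.1 := by group
          _ = ((h * s.1 * h⁻¹)⁻¹ * (h * g.1 * h⁻¹)) * s'.1 := by rw [hs1inv]
          _ = (h * s.1 * h⁻¹)⁻¹ * ((h * g.1 * h⁻¹) * s'.1) := by group
          _ = (h * s.1 * h⁻¹)⁻¹ * (s'.1 * (h * g.1 * h⁻¹)) := by rw [hs'g1]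
          _ = _ := by group
      have e4 : h * s.1 * h⁻¹ = s'.1 := by rw [← e2, hu1, mul_one]
      obtain ⟨s0, hs0, huniq⟩ := hrep s.1 hsV
      have t1 : s.1 = s0 := huniq s.1 ⟨s.2, 1, G.one_mem, by simp⟩
      have t2 : s'.1 = s0 := huniq s'.1 ⟨s'.2, h, hh, e4⟩
      have hss : s = s' := Subtype.ext (t1.trans t2.symm)
      subst hss
      have hconj : IsConj g g' := by
        apply isConj_iff.mpr
        refine ⟨⟨h, Subgroup.mem_inf.mpr ⟨hh, Subgroup.mem_centralizer_iff.mpr ?_⟩⟩,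
          Subtype.ext e3⟩
        intro y hy
        rw [Set.mem_singleton_iff.mp hy]
        calc s.1 * h = (h * s.1 * h⁻¹) * h := by rw [e4]
          _ = h * s.1 := by group
      rw [ConjClasses.mk_eq_mk_iff_isConj.mpr hconj]
    · intro y
      obtain ⟨x, rfl⟩ := ConjClasses.mk_surjective y
      obtain ⟨v, hv, g, hg, rfl⟩ := hsurj x
      obtain ⟨w, hw, c, hc, hcg, hwc⟩ := exists_conj V G hab hcop hg hv
      obtain ⟨s, ⟨hsS, h, hh, hhc⟩, -⟩ := hrep c hc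
      have hmem : h * g * h⁻¹ ∈ G ⊓ Subgroup.centralizer ({s} : Set X) := by
        refine Subgroup.mem_inf.mpr ⟨G.mul_mem (G.mul_mem hh hg) (G.inv_mem hh),
          Subgroup.mem_centralizer_iff.mpr ?_⟩
        intro y hy
        rw [Set.mem_singleton_iff.mp hy, ← hhc]
        calc h * c * h⁻¹ * (h * g * h⁻¹) = h * (c * g) * h⁻¹ := by group
          _ = h * (g * c) * h⁻¹ := by rw [hcg]
          _ = _ := by group
      refine ⟨⟨⟨s, hsS⟩, ConjClasses.mk ⟨h * g * h⁻¹, hmem⟩⟩, ?_⟩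
      rw [hF]
      apply ConjClasses.mk_eq_mk_iff_isConj.mpr
      apply isConj_iff.mpr
      refine ⟨(h * w)⁻¹, ?_⟩
      show (h * w)⁻¹ * (s * (h * g * h⁻¹)) * (h * w)⁻¹⁻¹ = v * g
      rw [← hhc]
      have e5 : v * g = w⁻¹ * (c * g) * w := by rw [← hwc]; group
      rw [e5]; group
  rw [← Nat.card_congr (Equiv.ofBijective F hbij), Nat.card_sigma]
  exact Finset.sum_coe_sort S
    (fun s => Nat.card (ConjClasses ↥(G ⊓ Subgroup.centralizer ({s} : Set X))))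

end Cfsg.Agent.Lib.Helper8.ConjCount
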