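import Cfsg.Agent.Lib.Helper8.Transport2
import Cfsg.Agent.Lib.Helper8.GroupFactor

set_option autoImplicit false

namespace Cfsg.Agent.Lib.Helper8.Constr2

open Cfsg Cfsg.FusionSystem Cfsg.Agent.Lib.Helper8.Fusion Cfsg.Agent.Lib.Helper8.FactorSys
  Cfsg.Agent.Lib.Helper8.Sat Cfsg.Agent.Lib.Helper8.Sat2 Cfsg.Agent.Lib.Helper8.Morph
  Cfsg.Agent.Lib.Helper8.Morph2 Cfsg.Agent.Lib.Helper8.Morph3 Cfsg.Agent.Lib.Helper8.Solv
  Cfsg.Agent.Lib.Helper8.Chain Cfsg.Agent.Lib.Helper8.Solv2 Cfsg.Agent.Lib.Helper8.Solv3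
  Cfsg.Agent.Lib.Helper8.Normal Cfsg.Agent.Lib.Helper8.Normal2 Cfsg.Agent.Lib.Helper8.Constr
  Cfsg.Agent.Lib.Helper8.Transport2 Cfsg.Agent.Lib.Helper8.Quasi
  Cfsg.Agent.Lib.Helper8.GroupFactor

open scoped commutatorElement

variable {Ω : Type*} [Group Ω] {S : Subgroup Ω} {Ω' : Type*} [Group Ω'] {S' : Subgroup Ω'}

theorem central_le_centralizer (F : FusionSystem S) {Z₀ : Subgroup Ω} (hZ : F.IsCentral Z₀) :
    Z₀ ≤ Subgroup.centralizer (S : Set Ω) := by
  intro z hz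
  rw [Subgroup.mem_centralizer_iff]
  intro s hs
  obtain ⟨ψ, -, h1, h2⟩ := hZ.2 Z₀ (conjHom Z₀ s) (F.conj_mem hZ.1 hs)
  have h3 : Subgroup.inclusion (le_sup_left : Z₀ ≤ Z₀ ⊔ Z₀) ⟨z, hz⟩ =
      Subgroup.inclusion (le_sup_right : Z₀ ≤ Z₀ ⊔ Z₀) ⟨z, hz⟩ := Subtype.ext rfl
  have h4 := h1 ⟨z, hz⟩
  rw [h3, h2] at h4
  have h5 : s * z * s⁻¹ = z := h4.symm
  calc s * z = s * z * s⁻¹ * s := by group
    _ = z * s := by rw [h5]

theorem isNormal_of_isCentral (F : FusionSystem S) {Z₀ : Subgroup Ω} (hZ : F.IsCentral Z₀) :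
    F.IsNormal Z₀ := by
  refine ⟨hZ.1, fun P φ hφ => ?_⟩
  obtain ⟨ψ, hψ, h1, h2⟩ := hZ.2 P φ hφ
  refine ⟨ψ, hψ, h1, ?_⟩
  ext y
  constructor
  · rintro ⟨w, hw, rfl⟩
    have hw' : (w : Ω) ∈ Z₀ := Subgroup.mem_subgroupOf.1 hw
    have h3 : w = Subgroup.inclusion (le_sup_right : Z₀ ≤ P ⊔ Z₀) ⟨w, hw'⟩ := Subtype.ext rfl
    rw [h3]
    show ψ _ ∈ Z₀
    rw [h2]
    exact hw'
  · intro hy
    exact ⟨Subgroup.inclusion (le_sup_right : Z₀ ≤ P ⊔ Z₀) ⟨y, hy⟩,
      Subgroup.mem_subgroupOf.2 hy, h2 ⟨y, hy⟩⟩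

theorem image_commutator_le (θ : S →* Ω') {A B C : Subgroup Ω} (h : ⁅A, B⁆ ≤ C) :
    ⁅imageAlong θ A, imageAlong θ B⁆ ≤ imageAlong θ C := by
  show ⁅(A.subgroupOf S).map θ, (B.subgroupOf S).map θ⁆ ≤ (C.subgroupOf S).map θ
  rw [← Subgroup.map_commutator]
  apply Subgroup.map_mono
  rw [Subgroup.commutator_le]
  intro a ha b hb
  rw [Subgroup.mem_subgroupOf]
  exact h (Subgroup.commutator_mem_commutator (Subgroup.mem_subgroupOf.1 ha)
    (Subgroup.mem_subgroupOf.1 hb))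

/-- The image of a subgroup normal in `F` is normal in a factor system of `F`. -/
theorem isNormal_image [Finite S] {p : ℕ} [Fact p.Prime] (hS : IsPGroup p S)
    (F : FusionSystem S) (hF : F.IsSaturated p) {Z₀ : Subgroup Ω} (hZ : F.StronglyClosed Z₀)
    (θ : S →* Ω') (E : FusionSystem S') (hE : F.IsFactorSystem Z₀ θ E) {Q : Subgroup Ω}
    (hQ : F.IsNormal Q) : E.IsNormal (imageAlong θ Q) := by
  have hr : θ.range = S' := hE.2.2.1
  have hfin' : Finite S' := finite_target θ hr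
  have hS' : IsPGroup p S' := isPGroup_target hS θ hr
  have hM := isMorphism_of_isFactorSystem hS F hF hZ θ E hE
  have hEs := isSaturated_of_isFactorSystem hS F hF hZ θ E hE hM
  obtain ⟨n, Qs, h0, hn, hmono, hstep⟩ := exists_chain_of_isNormal hS F hQ
  apply isNormal_of_chain hS' E hEs n (fun i => imageAlong θ (Qs i))
  · show imageAlong θ (Qs 0) = ⊥
    rw [h0, eq_bot_iff]
    rintro _ ⟨x, hx, rfl⟩
    have hx1 : x = 1 := Subtype.ext (Subgroup.mem_bot.1 (Subgroup.mem_subgroupOf.1 hx))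
    rw [hx1, map_one]
    exact Subgroup.one_mem _
  · show imageAlong θ (Qs (Fin.last n)) = imageAlong θ Q
    rw [hn]
  · intro i j hij
    exact Subgroup.map_mono (Subgroup.comap_mono (hmono hij))
  · intro i
    exact ⟨stronglyClosed_image F hZ θ E hE (hstep i).1, image_commutator_le θ (hstep i).2⟩

/-- A factor system of a constrained system modulo a central subgroup is constrained. -/
theorem isConstrained_factor_central [Finite S] {p : ℕ} [Fact p.Prime] (hS : IsPGroup p S)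
    (F : FusionSystem S) (hF : F.IsConstrained p) {Z₀ : Subgroup Ω} (hZ : F.IsCentral Z₀)
    (θ : S →* Ω') (E : FusionSystem S') (hE : F.IsFactorSystem Z₀ θ E) :
    E.IsConstrained p := by
  have hZsc := stronglyClosed_of_isCentral F hZ
  obtain ⟨hZS, hker, hr, hHom⟩ := id hE
  have hfin' : Finite S' := finite_target θ hr
  have hS' : IsPGroup p S' := isPGroup_target hS θ hr
  have hM := isMorphism_of_isFactorSystem hS F hF.1 hZsc θ E hE
  have hEs := isSaturated_of_isFactorSystem hS F hF.1 hZsc θ E hE hM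
  obtain ⟨Q, hQdef⟩ : ∃ Q, Q = F.core := ⟨_, rfl⟩
  have hQ : F.IsNormal Q := hQdef ▸ isNormal_core F
  have hQc : FusionSystem.centralizerIn S Q ≤ Q := hQdef ▸ centralizerIn_core_le F hF
  have hQsc := stronglyClosed_of_isNormal F hQ
  have hQ' : E.IsNormal (imageAlong θ Q) := isNormal_image hS F hF.1 hZsc θ E hE hQ
  rw [isConstrained_iff]
  refine ⟨hEs, imageAlong θ Q, hQ', ?_⟩
  obtain ⟨X, hXdef⟩ : ∃ X, X = preimageAlong θ
      (FusionSystem.centralizerIn S' (imageAlong θ Q)) := ⟨_, rfl⟩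
  have hXsc : F.StronglyClosed X := by
    rw [hXdef]
    exact stronglyClosed_pre F θ E hM (stronglyClosed_centralizerIn E hQ')
  have hXS := hXsc.1
  have hXcomm : ∀ x (hx : x ∈ X) q (hq : q ∈ Q),
      θ ⟨q, hQ.1 hq⟩ * θ ⟨x, hXS hx⟩ = θ ⟨x, hXS hx⟩ * θ ⟨q, hQ.1 hq⟩ := by
    intro x hx q hq
    have h1 : θ ⟨x, hXS hx⟩ ∈ FusionSystem.centralizerIn S' (imageAlong θ Q) :=
      ((mem_pre θ _ x).1 (hXdef ▸ hx)).2
    exact (Subgroup.mem_centralizer_iff.1 h1.2) _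
      ⟨⟨q, hQ.1 hq⟩, Subgroup.mem_subgroupOf.2 hq, rfl⟩
  have hkerZ : ∀ s (hs : s ∈ S), θ ⟨s, hs⟩ = 1 → s ∈ Z₀ := fun s hs h => (hker ⟨s, hs⟩).1 h
  have hZcent := central_le_centralizer F hZ
  have hXQ : ∀ x ∈ X, ∀ q ∈ Q, q⁻¹ * x * q * x⁻¹ ∈ Z₀ := by
    intro x hx q hq
    have hmem : q⁻¹ * x * q * x⁻¹ ∈ S :=
      S.mul_mem (S.mul_mem (S.mul_mem (S.inv_mem (hQ.1 hq)) (hXS hx)) (hQ.1 hq))
        (S.inv_mem (hXS hx))
    apply hkerZ _ hmem
    have h1 : (⟨q⁻¹ * x * q * x⁻¹, hmem⟩ : S) =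
        (⟨q, hQ.1 hq⟩ : S)⁻¹ * ⟨x, hXS hx⟩ * ⟨q, hQ.1 hq⟩ * (⟨x, hXS hx⟩ : S)⁻¹ := rfl
    rw [h1, map_mul, map_mul, map_mul, map_inv, map_inv]
    have h2 := hXcomm x hx q hq
    rw [mul_assoc (θ ⟨q, hQ.1 hq⟩)⁻¹, ← h2, inv_mul_cancel_left, mul_inv_cancel]
  have h1 : ⁅X, X⁆ ≤ Subgroup.centralizer (Q : Set Ω) := by
    apply comm_le_centralizer (R := Z₀)
    · intro x hx
      rw [Subgroup.mem_centralizer_iff]
      intro z hz
      exact ((Subgroup.mem_centralizer_iff.1 (hZcent hz)) x (hXS hx)).symm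
    · intro q hq r hr'
      rw [(Subgroup.mem_centralizer_iff.1 (hZcent hr')) q (hQ.1 hq), mul_inv_cancel_right]
      exact hr'
    · exact hXQ
  have h2 : ⁅X, X⁆ ≤ X ⊓ Q :=
    le_inf (commutator_le_self' X)
      (fun z hz => hQc ⟨hXS (commutator_le_self' X hz), h1 hz⟩)
  have hZX : Z₀ ≤ X := by
    rw [hXdef]
    exact ker_le_pre θ hZS hker _
  have hZQ : Z₀ ≤ Q := by
    rw [hQdef]
    exact le_sSup (show Z₀ ∈ {Q : Subgroup Ω | F.IsNormal Q} from isNormal_of_isCentral F hZ)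
  have hXn : F.IsNormal X := by
    apply isNormal_of_chain hS F hF.1 3 ![⊥, Z₀, X ⊓ Q, X] rfl rfl
    · rw [Fin.monotone_iff_le_succ]
      intro i
      fin_cases i
      · exact bot_le
      · exact le_inf hZX hZQ
      · exact inf_le_left
    · intro i
      fin_cases i
      · refine ⟨hZsc, ?_⟩
        show ⁅X, Z₀⁆ ≤ ⊥
        rw [Subgroup.commutator_le]
        intro a ha b hb
        rw [Subgroup.mem_bot, commutatorElement_eq_one_iff_mul_comm]
        exact (Subgroup.mem_centralizer_iff.1 (hZcent hb)) a (hXS ha)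
      · refine ⟨stronglyClosed_inf F hXsc hQsc, ?_⟩
        show ⁅X, X ⊓ Q⁆ ≤ Z₀
        rw [Subgroup.commutator_le]
        intro a ha b hb
        have hz := hXQ a ha b hb.2
        have hcomm := (Subgroup.mem_centralizer_iff.1 (hZcent hz)) b (hQ.1 hb.2)
        have h3 : ⁅a, b⁆ = b * (b⁻¹ * a * b * a⁻¹) * b⁻¹ := by
          rw [commutatorElement_def]
          group
        rw [h3, hcomm, mul_inv_cancel_right]
        exact hz
      · exact ⟨hXsc, h2⟩
  have hXQle : X ≤ Q := by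
    rw [hQdef]
    exact le_sSup (show X ∈ {Q : Subgroup Ω | F.IsNormal Q} from hXn)
  intro y hy
  have hyr : y ∈ θ.range := hr ▸ hy.1
  obtain ⟨s, rfl⟩ := hyr
  have hsX : (s : Ω) ∈ X := by
    rw [hXdef]
    exact (mem_pre θ _ _).2 ⟨s.2, hy⟩
  exact ⟨s, Subgroup.mem_subgroupOf.2 (hXQle hsX), rfl⟩

theorem isCentral_inf_center {G : Type*} [Group G] (S : Subgroup G) :
    (groupFusionSystem S).IsCentral (S ⊓ Subgroup.center G) := by
  refine ⟨inf_le_left, ?_⟩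
  rintro P φ ⟨hP, hφS, g, hg⟩
  have hcz : ∀ z ∈ S ⊓ Subgroup.center G, g * z * g⁻¹ = z := by
    intro z hz
    rw [(Subgroup.mem_center_iff.1 hz.2) g, mul_inv_cancel_right]
  have hle : P ⊔ (S ⊓ Subgroup.center G) ≤ S.comap (MulAut.conj g).toMonoidHom := by
    apply sup_le
    · intro x hx
      show g * x * g⁻¹ ∈ S
      rw [← hg ⟨x, hx⟩]
      exact hφS _
    · intro z hz
      show g * z * g⁻¹ ∈ S
      rw [hcz z hz]
      exact hz.1
  refine ⟨conjHom _ g, ⟨sup_le hP inf_le_left, fun w => hle w.2, g, fun _ => rfl⟩,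
    fun x => (hg x).symm, fun z => hcz z z.2⟩

/-- If the fusion system of `G` is constrained, so is that of `L / Z(L)` for each subnormal
subgroup `L`. -/
theorem constrained_quotient_center {G : Type*} [Group G] [Finite G] {p : ℕ} [Fact p.Prime]
    (S : Sylow p G) (hF : (groupFusionSystem (S : Subgroup G)).IsConstrained p)
    (L : Subgroup G) (hL : L.IsSubnormal) :
    (groupFusionSystem (((S : Subgroup G).subgroupOf L).map
      (QuotientGroup.mk' (Subgroup.center L)))).IsConstrained p := by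
  obtain ⟨⟨R, hR⟩, -⟩ := constrained_of_subnormal S hF hL
  have hc := constrained_subgroupOf S hF L hL
  have hR' : (R : Subgroup L) = (S : Subgroup G).subgroupOf L := by
    rw [hR, Subgroup.inf_subgroupOf_right]
  rw [← hR'] at hc ⊢
  have hfac := group_isFactorSystem R (Subgroup.center L)
  exact isConstrained_factor_central R.isPGroup' _ hc (isCentral_inf_center (R : Subgroup L))
    _ _ hfac

end Cfsg.Agent.Lib.Helper8.Constr2
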