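import Cfsg.Agent.Lib.Helper8.Normal2

set_option autoImplicit false

namespace Cfsg.Agent.Lib.Helper8.GroupNormal

open Cfsg
open Cfsg.Agent.Lib.Helper8.Fusion Cfsg.Agent.Lib.Helper8.GroupFusion Cfsg.Agent.Lib.Helper8.Sat
  Cfsg.Agent.Lib.Helper8.Sat2 Cfsg.Agent.Lib.Helper8.Alperin Cfsg.Agent.Lib.Helper8.Alperin2
  Cfsg.Agent.Lib.Helper8.Normal Cfsg.Agent.Lib.Helper8.Chain Cfsg.Agent.Lib.Helper8.Chain2
  Cfsg.Agent.Lib.Helper8.Normal2

open scoped commutatorElement

theorem core_eq_self_of_isNormal {Ω : Type*} [Group Ω] {S : Subgroup Ω} (F : FusionSystem S)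
    (h : F.IsNormal S) : F.core = S :=
  le_antisymm (sSup_le (fun _ hQ => hQ.1)) (le_sSup h)

/-- If `S` is normal in the fusion system of `G` on `S` then `N_G(S)` controls fusion. -/
theorem normalizer_controls_of_isNormal {G : Type*} [Group G] {S : Subgroup G}
    (h : (groupFusionSystem S).IsNormal S) (P : Subgroup G) (φ : P →* G)
    (hφ : φ ∈ (groupFusionSystem S).Hom P) :
    ∃ g ∈ Subgroup.normalizer (S : Set G), ∀ x : P, φ x = g * (x : G) * g⁻¹ := by
  obtain ⟨ψ, hψ, hψP, hψS⟩ := h.2 P φ hφ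
  obtain ⟨-, hval, g, hg⟩ := hψ
  refine ⟨g, ?_, fun x => ?_⟩
  · apply mem_normalizer_of_conj_mem
    · intro y hy
      have h1 := hval ⟨y, (le_sup_right : S ≤ P ⊔ S) hy⟩
      rw [hg] at h1
      exact h1
    · intro y hy
      obtain ⟨a, ha, hay⟩ := hψS.ge hy
      rw [hg] at hay
      have haS : (a : G) ∈ S := ha
      have h2 : g⁻¹ * y * g = (a : G) := by rw [← hay]; group
      rw [h2]
      exact haS
  · rw [← hψP, hg]
    rfl

theorem class_two_controls {G : Type*} [Group G] [Finite G] (p : ℕ) [Fact p.Prime]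
    (S : Sylow p G)
    (hcl : ⁅(S : Subgroup G), (S : Subgroup G)⁆ ≤
      (S : Subgroup G) ⊓ Subgroup.centralizer ((S : Subgroup G) : Set G))
    (hZ : Cfsg.IsStronglyClosed
      ((S : Subgroup G) ⊓ Subgroup.centralizer ((S : Subgroup G) : Set G)) (S : Subgroup G)) :
    (∀ (P : Subgroup G) (φ : P →* G), φ ∈ (groupFusionSystem (S : Subgroup G)).Hom P →
      ∃ g ∈ Subgroup.normalizer ((S : Subgroup G) : Set G), ∀ x : P, φ x = g * (x : G) * g⁻¹) ∧
      (groupFusionSystem (S : Subgroup G)).core = S := by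
  have hS : IsPGroup p (S : Subgroup G) := S.isPGroup'
  have hF := isSaturated_groupFusionSystem S
  have hZsc : (groupFusionSystem (S : Subgroup G)).StronglyClosed
      ((S : Subgroup G) ⊓ Subgroup.centralizer ((S : Subgroup G) : Set G)) := by
    refine ⟨inf_le_left, fun R hR φ hφ x => ?_⟩
    obtain ⟨-, hval, g, hg⟩ := hφ
    have h1 := hZ.2 x (hR x.2) g (by rw [← hg]; exact hval x)
    rw [hg]
    exact h1
  have hnorm : (groupFusionSystem (S : Subgroup G)).IsNormal (S : Subgroup G) := by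
    apply isNormal_of_chain hS _ hF 2
      ![⊥, (S : Subgroup G) ⊓ Subgroup.centralizer ((S : Subgroup G) : Set G), (S : Subgroup G)]
      rfl rfl
    · rw [Fin.monotone_iff_le_succ]
      intro i
      fin_cases i
      · exact bot_le
      · exact inf_le_left
    · intro i
      fin_cases i
      · refine ⟨hZsc, ?_⟩
        show ⁅(S : Subgroup G),
          (S : Subgroup G) ⊓ Subgroup.centralizer ((S : Subgroup G) : Set G)⁆ ≤ ⊥
        rw [Subgroup.commutator_le]
        intro a ha b hb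
        rw [Subgroup.mem_bot, commutatorElement_eq_one_iff_mul_comm]
        exact Subgroup.mem_centralizer_iff.mp hb.2 a ha
      · exact ⟨stronglyClosed_self _, hcl⟩
  exact ⟨normalizer_controls_of_isNormal hnorm, core_eq_self_of_isNormal _ hnorm⟩

end Cfsg.Agent.Lib.Helper8.GroupNormal
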