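import Cfsg.Agent.Lib.Helper8.ClassicAlperin2

set_option autoImplicit false
set_option linter.unusedSectionVars false

namespace Cfsg.Agent.Lib.Helper8.Gruen

open Cfsg.Agent.Lib.Helper8.ClassicAlperin Cfsg.Agent.Lib.Helper8.ClassicAlperin2
open scoped commutatorElement

variable {G : Type*} [Group G] [Finite G] {p : ℕ} [Fact p.Prime]

theorem comm_le_commutator (H K : Subgroup G) : ⁅H, K⁆ ≤ commutator G := by
  rw [commutator_def]
  exact Subgroup.commutator_mono le_top le_top

/-- Grün's first theorem. -/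
theorem gruen (P : Sylow p G) : (P : Subgroup G) ⊓ commutator G =
    ((P : Subgroup G) ⊓ ⁅Subgroup.normalizer ((P : Subgroup G) : Set G),
      Subgroup.normalizer ((P : Subgroup G) : Set G)⁆) ⊔
      ⨆ z : G, (P : Subgroup G) ⊓
        (⁅(P : Subgroup G), (P : Subgroup G)⁆).map (MulAut.conj z).toMonoidHom := by
  apply le_antisymm
  · rw [focal_eq_Kfoc]
    have hK : Kfoc P ≤ (P : Subgroup G) := (Kfoc_le P).trans inf_le_left
    have hPN : ⁅(P : Subgroup G), Subgroup.normalizer ((P : Subgroup G) : Set G)⁆ ≤ Kfoc P := by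
      unfold Kfoc
      exact le_sup_left
    unfold Kfoc
    refine sup_le ?_ ?_
    · exact le_sup_of_le_left (le_inf (hPN.trans hK)
        (Subgroup.commutator_mono Subgroup.le_normalizer le_rfl))
    · refine iSup_le (fun Q => iSup_le (fun ht => iSup_le (fun x => iSup_le (fun hx => ?_))))
      have hle : ⁅(P : Subgroup G) ⊓ (Q : Subgroup G), Subgroup.zpowers x⁆ ≤ (P : Subgroup G) :=
        (step_le_Kfoc P Q x ⟨hx.1, ht.1, ht.2⟩ hx.2).trans hK
      obtain ⟨k, hk⟩ := hx.2
      have hzp : IsPGroup p (Subgroup.zpowers x) :=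
        IsPGroup.of_card (n := k) (by rw [Nat.card_zpowers, hk])
      have hDp : IsPGroup p ((P : Subgroup G) ⊓ (Q : Subgroup G) : Subgroup G) :=
        P.2.to_le inf_le_left
      have hsup : IsPGroup p
          (((P : Subgroup G) ⊓ (Q : Subgroup G)) ⊔ Subgroup.zpowers x : Subgroup G) :=
        IsPGroup.to_sup_of_normal_left' hDp hzp (Subgroup.zpowers_le.mpr hx.1)
      obtain ⟨T, hT⟩ := hsup.exists_le_sylow
      obtain ⟨z, hz⟩ := MulAction.exists_smul_eq G P T
      refine le_sup_of_le_right (le_iSup_of_le z (le_inf hle ?_))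
      rw [Subgroup.map_commutator]
      have hPT : (P : Subgroup G).map (MulAut.conj z).toMonoidHom = (T : Subgroup G) := by
        rw [← hz]
        rfl
      rw [hPT]
      exact Subgroup.commutator_mono (le_sup_left.trans hT) (le_sup_right.trans hT)
  · refine sup_le (inf_le_inf_left _ (comm_le_commutator _ _))
      (iSup_le (fun z => inf_le_inf_left _ ?_))
    rw [Subgroup.map_commutator]
    exact comm_le_commutator _ _

end Cfsg.Agent.Lib.Helper8.Gruen
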