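import Mathlib
import Cfsg.Prelude.Def_ConjugacyFunctors

set_option autoImplicit false
set_option linter.unusedVariables false
set_option linter.unusedSectionVars false
set_option linter.unusedTactic false
set_option linter.unreachableTactic false
set_option linter.style.haveILetI false
set_option maxHeartbeats 400000

universe u

namespace Cfsg.Agent.Lib.Helper8.KInf

open Cfsg

theorem le_normalizer_iff_conj {G : Type u} [Group G] (H K : Subgroup G) :
    K ≤ Subgroup.normalizer (H : Set G) ↔ ∀ g ∈ K, ∀ y ∈ H, g * y * g⁻¹ ∈ H := by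
  constructor
  · intro h g hg y hy
    exact (Subgroup.mem_normalizer_iff.mp (h hg) y).mp hy
  · intro hK g hg
    rw [Subgroup.mem_normalizer_iff]
    intro y
    constructor
    · exact hK g hg y
    · intro hy
      have h1 := hK g⁻¹ (K.inv_mem hg) _ hy
      have h2 : g⁻¹ * (g * y * g⁻¹) * g⁻¹⁻¹ = y := by group
      rw [h2] at h1
      exact h1

theorem map_center_rel {H P : Type u} [Group H] [Group P] (f : H →* P)
    (hf : Function.Injective f) (B : Subgroup H) :
    (B ⊓ Subgroup.centralizer (B : Set H)).map f =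
      B.map f ⊓ Subgroup.centralizer ((B.map f : Subgroup P) : Set P) := by
  ext x
  constructor
  · intro hx
    obtain ⟨b, hb, rfl⟩ := Subgroup.mem_map.mp hx
    obtain ⟨hbB, hbC⟩ := Subgroup.mem_inf.mp hb
    refine Subgroup.mem_inf.mpr ⟨Subgroup.mem_map_of_mem f hbB, ?_⟩
    rw [Subgroup.mem_centralizer_iff]
    intro y hy
    have hy' : y ∈ B.map f := hy
    obtain ⟨c, hc, rfl⟩ := Subgroup.mem_map.mp hy'
    have h0 := Subgroup.mem_centralizer_iff.mp hbC c hc
    rw [← map_mul, ← map_mul, h0]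
  · intro hx
    obtain ⟨hxB, hxC⟩ := Subgroup.mem_inf.mp hx
    obtain ⟨b, hb, rfl⟩ := Subgroup.mem_map.mp hxB
    refine Subgroup.mem_map.mpr ⟨b, Subgroup.mem_inf.mpr ⟨hb, ?_⟩, rfl⟩
    rw [Subgroup.mem_centralizer_iff]
    intro c hc
    have hc' : c ∈ B := hc
    apply hf
    rw [map_mul, map_mul]
    exact Subgroup.mem_centralizer_iff.mp hxC (f c) (Subgroup.mem_map_of_mem f hc')

theorem ct_iff {P : Type u} [Group P] (B : Subgroup P) :
    B ∈ classTwoSubgroups P ↔ ⁅B, B⁆ ≤ B ⊓ Subgroup.centralizer (B : Set P) := by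
  constructor
  · intro h
    have h' : ⁅B, B⁆ ≤ Subgroup.centralizer (B : Set P) := h
    refine le_inf ?_ h'
    rw [Subgroup.commutator_le]
    intro a ha b hb
    rw [commutatorElement_def]
    exact B.mul_mem (B.mul_mem (B.mul_mem ha hb) (B.inv_mem ha)) (B.inv_mem hb)
  · intro h
    show ⁅B, B⁆ ≤ Subgroup.centralizer (B : Set P)
    exact h.trans inf_le_right

theorem ct_map {H P : Type u} [Group H] [Group P] (f : H →* P) (hf : Function.Injective f)
    (B : Subgroup H) : B ∈ classTwoSubgroups H ↔ B.map f ∈ classTwoSubgroups P := by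
  rw [ct_iff, ct_iff, ← map_center_rel f hf, ← Subgroup.map_commutator,
    Subgroup.map_le_map_iff_of_injective hf]

theorem c6_map {H P : Type u} [Group H] [Group P] (f : H →* P) (hf : Function.Injective f)
    (B A : Subgroup H) :
    ⁅B, A⁆ ≤ B ⊓ Subgroup.centralizer (B : Set H) ↔
      ⁅B.map f, A.map f⁆ ≤
        B.map f ⊓ Subgroup.centralizer ((B.map f : Subgroup P) : Set P) := by
  rw [← map_center_rel f hf, ← Subgroup.map_commutator,
    Subgroup.map_le_map_iff_of_injective hf]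

theorem c4_map {H P : Type u} [Group H] [Group P] (f : H →* P) (hf : Function.Injective f)
    (B A : Subgroup H) :
    ⁅B, ⁅A, A⁆⁆ = ⊥ ↔ ⁅B.map f, ⁅A.map f, A.map f⁆⁆ = ⊥ := by
  rw [← Subgroup.map_commutator, ← Subgroup.map_commutator,
    Subgroup.map_eq_bot_iff_of_injective _ hf]

theorem c5_map {H P : Type u} [Group H] [Group P] (f : H →* P) (hf : Function.Injective f)
    (B A : Subgroup H) :
    ⁅⁅B ⊓ Subgroup.centralizer (B : Set H), A⁆, A⁆ = ⊥ ↔
      ⁅⁅B.map f ⊓ Subgroup.centralizer ((B.map f : Subgroup P) : Set P), A.map f⁆,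
        A.map f⁆ = ⊥ := by
  rw [← map_center_rel f hf, ← Subgroup.map_commutator, ← Subgroup.map_commutator,
    Subgroup.map_eq_bot_iff_of_injective _ hf]

theorem n_map {H P : Type u} [Group H] [Group P] (f : H →* P) (hf : Function.Injective f)
    (R B : Subgroup H) :
    R ≤ Subgroup.normalizer (B : Set H) ↔
      R.map f ≤ Subgroup.normalizer ((B.map f : Subgroup P) : Set P) := by
  rw [le_normalizer_iff_conj, le_normalizer_iff_conj]
  constructor
  · intro h g hg y hy
    obtain ⟨r, hr, rfl⟩ := Subgroup.mem_map.mp hg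
    obtain ⟨b, hb, rfl⟩ := Subgroup.mem_map.mp hy
    have h0 := h r hr b hb
    rw [← map_mul, ← map_inv, ← map_mul]
    exact Subgroup.mem_map_of_mem f h0
  · intro h r hr b hb
    have h0 := h (f r) (Subgroup.mem_map_of_mem f hr) (f b) (Subgroup.mem_map_of_mem f hb)
    rw [← map_mul, ← map_inv, ← map_mul] at h0
    exact (Subgroup.mem_map_iff_mem hf).mp h0

theorem upper_map {H P : Type u} [Group H] [Group P] (f : H →* P) (hf : Function.Injective f)
    (R B : Subgroup H) :
    B ∈ kUpperStarFamily R ↔ B.map f ∈ kUpperStarFamily (R.map f) := by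
  show (B ∈ classTwoSubgroups H ∧ ⁅B, R⁆ ≤ B ⊓ Subgroup.centralizer (B : Set H)) ↔
    (B.map f ∈ classTwoSubgroups P ∧
      ⁅B.map f, R.map f⁆ ≤ B.map f ⊓ Subgroup.centralizer ((B.map f : Subgroup P) : Set P))
  exact and_congr (ct_map f hf B) (c6_map f hf B R)

theorem lower_map {H P : Type u} [Group H] [Group P] (f : H →* P) (hf : Function.Injective f)
    (R B : Subgroup H) :
    B ∈ kLowerStarFamily R ↔ B.map f ∈ kLowerStarFamily (R.map f) := by
  show (B ∈ classTwoSubgroups H ∧ R ≤ Subgroup.normalizer (B : Set H) ∧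
      ∀ A ∈ classTwoSubgroups H, A ≤ R → B ≤ Subgroup.normalizer (A : Set H) →
        ⁅B, ⁅A, A⁆⁆ = ⊥ → ⁅⁅B ⊓ Subgroup.centralizer (B : Set H), A⁆, A⁆ = ⊥ →
        ⁅B, A⁆ ≤ B ⊓ Subgroup.centralizer (B : Set H)) ↔
    (B.map f ∈ classTwoSubgroups P ∧
      R.map f ≤ Subgroup.normalizer ((B.map f : Subgroup P) : Set P) ∧
      ∀ A ∈ classTwoSubgroups P, A ≤ R.map f →
        B.map f ≤ Subgroup.normalizer (A : Set P) →
        ⁅B.map f, ⁅A, A⁆⁆ = ⊥ →
        ⁅⁅B.map f ⊓ Subgroup.centralizer ((B.map f : Subgroup P) : Set P), A⁆, A⁆ = ⊥ →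
        ⁅B.map f, A⁆ ≤ B.map f ⊓ Subgroup.centralizer ((B.map f : Subgroup P) : Set P))
  refine and_congr (ct_map f hf B) (and_congr (n_map f hf R B) ?_)
  constructor
  · intro h A hA hAR hBA h1 h2
    have hArange : A ≤ f.range := hAR.trans (Subgroup.map_le_range f R)
    obtain ⟨A', rfl⟩ : ∃ A' : Subgroup H, A = A'.map f :=
      ⟨A.comap f, (Subgroup.map_comap_eq_self hArange).symm⟩
    exact (c6_map f hf B A').mp (h A' ((ct_map f hf A').mpr hA)
      ((Subgroup.map_le_map_iff_of_injective hf).mp hAR) ((n_map f hf B A').mpr hBA)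
      ((c4_map f hf B A').mpr h1) ((c5_map f hf B A').mpr h2))
  · intro h A' hA' hAR hBA h1 h2
    exact (c6_map f hf B A').mpr (h (A'.map f) ((ct_map f hf A').mp hA')
      (Subgroup.map_mono hAR) ((n_map f hf B A').mp hBA)
      ((c4_map f hf B A').mp h1) ((c5_map f hf B A').mp h2))

theorem map_sSup_fam {H P : Type u} [Group H] [Group P] (f : H →* P)
    (F' : Set (Subgroup H)) (F0 : Set (Subgroup P))
    (hiff : ∀ B' : Subgroup H, B' ∈ F' ↔ B'.map f ∈ F0) :
    (sSup F').map f = sSup {B | B ∈ F0 ∧ B ≤ f.range} := by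
  apply le_antisymm
  · rw [Subgroup.map_le_iff_le_comap]
    apply sSup_le
    intro B' hB'
    rw [← Subgroup.map_le_iff_le_comap]
    exact le_sSup ⟨(hiff B').mp hB', Subgroup.map_le_range f B'⟩
  · apply sSup_le
    rintro B ⟨hB, hBr⟩
    have hBeq : (B.comap f).map f = B := Subgroup.map_comap_eq_self hBr
    have hmem : B.comap f ∈ F' := by
      rw [hiff, hBeq]
      exact hB
    calc B = (B.comap f).map f := hBeq.symm
      _ ≤ (sSup F').map f := Subgroup.map_mono (le_sSup hmem)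

theorem upper_anti {P : Type u} [Group P] {R R' : Subgroup P} (h : R ≤ R') :
    kUpperStarFamily R' ⊆ kUpperStarFamily R := by
  rintro B ⟨h1, h2⟩
  exact ⟨h1, (Subgroup.commutator_mono le_rfl h).trans h2⟩

theorem lower_anti {P : Type u} [Group P] {R R' : Subgroup P} (h : R ≤ R') :
    kLowerStarFamily R' ⊆ kLowerStarFamily R := by
  rintro B ⟨h1, h2, h3⟩
  exact ⟨h1, h.trans h2, fun A hA hAR => h3 A hA (hAR.trans h)⟩

theorem main_hom {H P : Type u} [Group H] [Group P] (f : H →* P) (hf : Function.Injective f)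
    (hQ : ∀ n : ℕ, kSeqEven P n ≤ f.range ∧ kSeqOdd P (n + 1) ≤ f.range) :
    (kInfLower H).map f = kInfLower P ∧ (kInfUpper H).map f = kInfUpper P := by
  have hE : ∀ n, (kSeqEven H n).map f =
      sSup {B | B ∈ kLowerStarFamily ((kSeqOdd H n).map f) ∧ B ≤ f.range} := fun n =>
    map_sSup_fam f (kLowerStarFamily (kSeqOdd H n)) (kLowerStarFamily ((kSeqOdd H n).map f))
      (fun B' => lower_map f hf (kSeqOdd H n) B')
  have hA : ∀ n, (kSeqOdd H (n + 1)).map f =
      sSup {B | B ∈ kUpperStarFamily ((kSeqEven H n).map f) ∧ B ≤ f.range} := fun n =>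
    map_sSup_fam f (kUpperStarFamily (kSeqEven H n)) (kUpperStarFamily ((kSeqEven H n).map f))
      (fun B' => upper_map f hf (kSeqEven H n) B')
  have ha0 : (kSeqOdd H 0).map f = f.range := (MonoidHom.range_eq_map f).symm
  have s1 : ∀ n, (kSeqOdd H n).map f ≤ kSeqOdd P n →
      kSeqEven P n ≤ (kSeqEven H n).map f := by
    intro n h
    rw [hE n]
    show sSup (kLowerStarFamily (kSeqOdd P n)) ≤ _
    apply sSup_le
    intro B hB
    apply le_sSup
    exact ⟨lower_anti h hB, (le_sSup hB : B ≤ kSeqEven P n).trans (hQ n).1⟩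
  have s2 : ∀ n, kSeqEven P n ≤ (kSeqEven H n).map f →
      (kSeqOdd H (n + 1)).map f ≤ kSeqOdd P (n + 1) := by
    intro n h
    rw [hA n]
    apply sSup_le
    rintro B ⟨hB, hBr⟩
    exact (le_sSup (upper_anti h hB) : B ≤ sSup (kUpperStarFamily (kSeqEven P n)))
  have s3 : ∀ n, kSeqOdd P (n + 1) ≤ (kSeqOdd H n).map f →
      (kSeqEven H n).map f ≤ kSeqEven P (n + 1) := by
    intro n h
    rw [hE n]
    apply sSup_le
    rintro B ⟨hB, hBr⟩
    exact (le_sSup (lower_anti h hB) : B ≤ sSup (kLowerStarFamily (kSeqOdd P (n + 1))))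
  have s4 : ∀ n, (kSeqEven H n).map f ≤ kSeqEven P (n + 1) →
      kSeqOdd P (n + 1 + 1) ≤ (kSeqOdd H (n + 1)).map f := by
    intro n h
    rw [hA n]
    show sSup (kUpperStarFamily (kSeqEven P (n + 1))) ≤ _
    apply sSup_le
    intro B hB
    apply le_sSup
    exact ⟨upper_anti h hB, (le_sSup hB : B ≤ kSeqOdd P (n + 1 + 1)).trans (hQ (n + 1)).2⟩
  have hi : ∀ n, (kSeqOdd H n).map f ≤ kSeqOdd P n ∧
      kSeqEven P n ≤ (kSeqEven H n).map f := by
    intro n
    induction n with
    | zero =>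
      have h0 : (kSeqOdd H 0).map f ≤ kSeqOdd P 0 := by
        show _ ≤ (⊤ : Subgroup P)
        exact le_top
      exact ⟨h0, s1 0 h0⟩
    | succ n ih =>
      have h1 := s2 n ih.2
      exact ⟨h1, s1 (n + 1) h1⟩
  have hii : ∀ n, kSeqOdd P (n + 1) ≤ (kSeqOdd H n).map f ∧
      (kSeqEven H n).map f ≤ kSeqEven P (n + 1) := by
    intro n
    induction n with
    | zero =>
      have h0 : kSeqOdd P (0 + 1) ≤ (kSeqOdd H 0).map f := by
        rw [ha0]
        exact (hQ 0).2
      exact ⟨h0, s3 0 h0⟩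
    | succ n ih =>
      have h1 := s4 n ih.2
      exact ⟨h1, s3 (n + 1) h1⟩
  constructor
  · show (⨆ n, kSeqEven H n).map f = ⨆ n, kSeqEven P n
    rw [Subgroup.map_iSup]
    apply le_antisymm
    · exact iSup_le fun n => (hii n).2.trans (le_iSup (fun n => kSeqEven P n) (n + 1))
    · exact iSup_le fun n => (hi n).2.trans (le_iSup (fun n => (kSeqEven H n).map f) n)
  · show (⨅ n, kSeqOdd H n).map f = ⨅ n, kSeqOdd P n
    rw [Subgroup.map_iInf f hf]
    apply le_antisymm
    · exact le_iInf fun n => (iInf_le (fun n => (kSeqOdd H n).map f) n).trans (hi n).1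
    · exact le_iInf fun n => (iInf_le (fun n => kSeqOdd P n) (n + 1)).trans (hii n).1

theorem main {P : Type u} [Group P] (Q : Subgroup P)
    (hQ : ∀ n : ℕ, kSeqEven P n ≤ Q ∧ kSeqOdd P (n + 1) ≤ Q) :
    (kInfLower ↥Q).map Q.subtype = kInfLower P ∧
      (kInfUpper ↥Q).map Q.subtype = kInfUpper P := by
  apply main_hom Q.subtype (Subgroup.subtype_injective Q)
  rw [Subgroup.range_subtype]
  exact hQ

end Cfsg.Agent.Lib.Helper8.KInf
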