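import Mathlib.GroupTheory.Nilpotent
import Mathlib.GroupTheory.QuotientGroup.Basic

set_option autoImplicit false

namespace Cfsg.Agent.Lib.Helper8.NilClass

open scoped commutatorElement

/-- In a non-abelian nilpotent group the normal closure of an abelian subgroup has smaller
nilpotency class. -/
theorem nilpotencyClass_normalClosure_lt {P : Type*} [Group P] [Group.IsNilpotent P]
    (hna : ¬ IsMulCommutative P) {E : Subgroup P} (hE : IsMulCommutative ↥E) :
    Group.nilpotencyClass ↥(Subgroup.normalClosure (E : Set P)) < Group.nilpotencyClass P := by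
  set γ2 : Subgroup P := (⊤ : Subgroup P).lowerCentralSeries 1 with hγ2
  set γ3 : Subgroup P := (⊤ : Subgroup P).lowerCentralSeries 2 with hγ3
  have hγ2n : γ2.Normal := Subgroup.lowerCentralSeries_normal ⊤ 1
  have hγ3n : γ3.Normal := Subgroup.lowerCentralSeries_normal ⊤ 2
  have hγ2def : γ2 = ⁅(⊤ : Subgroup P), (⊤ : Subgroup P)⁆ := rfl
  have hγ3def : γ3 = ⁅γ2, (⊤ : Subgroup P)⁆ := rfl
  -- `M = E γ₂` is normal and contains the normal closure
  have hMn : (E ⊔ γ2).Normal := by
    constructor
    intro m hm g
    have h1 : g * m * g⁻¹ = ⁅g, m⁆ * m := by rw [commutatorElement_def]; group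
    rw [h1]
    exact mul_mem (le_sup_right (a := E)
      (hγ2def ▸ Subgroup.commutator_mem_commutator (Subgroup.mem_top g) (Subgroup.mem_top m))) hm
  have hNM : Subgroup.normalClosure (E : Set P) ≤ E ⊔ γ2 :=
    Subgroup.normalClosure_le_normal (fun x hx => le_sup_left (b := γ2) hx)
  -- `[M, M] ≤ γ₃`
  have hMM : ⁅E ⊔ γ2, E ⊔ γ2⁆ ≤ γ3 := by
    rw [Subgroup.commutator_le]
    intro x hx y hy
    obtain ⟨e, he, d, hd, rfl⟩ := Subgroup.mem_sup_of_normal_right.1 hx
    obtain ⟨e', he', d', hd', rfl⟩ := Subgroup.mem_sup_of_normal_right.1 hy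
    have hcentral : ∀ d ∈ γ2, ∀ g : P,
        Commute ((QuotientGroup.mk' γ3) d) ((QuotientGroup.mk' γ3) g) := by
      intro d hd g
      rw [← commutatorElement_eq_one_iff_commute, ← map_commutatorElement]
      exact (QuotientGroup.eq_one_iff _).2
        (hγ3def ▸ Subgroup.commutator_mem_commutator hd (Subgroup.mem_top g))
    have hee : Commute ((QuotientGroup.mk' γ3) e) ((QuotientGroup.mk' γ3) e') := by
      have h1 : e * e' = e' * e := by
        have := hE.is_comm.comm (⟨e, he⟩ : E) ⟨e', he'⟩
        exact congrArg Subtype.val this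
      have h2 := congrArg (QuotientGroup.mk' γ3) h1
      rw [map_mul, map_mul] at h2
      exact h2
    have hcomm : Commute ((QuotientGroup.mk' γ3) (e * d)) ((QuotientGroup.mk' γ3) (e' * d')) := by
      rw [map_mul, map_mul]
      exact Commute.mul_left (Commute.mul_right hee (hcentral d' hd' e).symm)
        (Commute.mul_right (hcentral d hd e') (hcentral d hd d'))
    rw [← commutatorElement_eq_one_iff_commute, ← map_commutatorElement] at hcomm
    exact (QuotientGroup.eq_one_iff _).1 hcomm
  -- the lower central series of the normal closure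
  have hlcs : ∀ k : ℕ, (Subgroup.normalClosure (E : Set P)).lowerCentralSeries (k + 1)
      ≤ (⊤ : Subgroup P).lowerCentralSeries (k + 2) := by
    intro k
    induction k with
    | zero =>
      exact (Subgroup.commutator_mono hNM hNM).trans hMM
    | succ k ih =>
      rw [Subgroup.lowerCentralSeries_succ, Subgroup.lowerCentralSeries_succ _ (k + 1 + 1)]
      exact Subgroup.commutator_mono ih le_top
  -- the class of `P` is at least two
  have hc2 : 2 ≤ Group.nilpotencyClass P := by
    by_contra hcon
    push Not at hcon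
    exact hna (Group.IsNilpotent.nilpotencyClass_le_one_iff.1 (by omega))
  obtain ⟨c, hc⟩ : ∃ c, Group.nilpotencyClass P = c + 2 := ⟨Group.nilpotencyClass P - 2, by omega⟩
  have hbot : (Subgroup.normalClosure (E : Set P)).lowerCentralSeries (c + 1) = ⊥ := by
    rw [eq_bot_iff]
    refine (hlcs c).trans ?_
    rw [← hc, Subgroup.lowerCentralSeries_nilpotencyClass]
  have hle : Group.nilpotencyClass ↥(Subgroup.normalClosure (E : Set P)) ≤ c + 1 := by
    rw [← Subgroup.lowerCentralSeries_eq_bot_iff_nilpotencyClass_le, ← Subgroup.map_subtype_inj,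
      Subgroup.map_bot, Subgroup.top_subtype_lowerCentralSeries]
    exact hbot
  omega

end Cfsg.Agent.Lib.Helper8.NilClass
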