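import Cfsg.Agent.Lib.Helper1.Frob
import Cfsg.Prelude.Def_Transfer

set_option autoImplicit false
set_option linter.unusedSectionVars false

namespace Cfsg.Agent.Lib.Helper8.NpcLocal

universe u

variable {G : Type u} [Group G] [Finite G] {p : ℕ} [Fact p.Prime]

theorem centralizes_of_quadratic (S : Sylow p G) (T : Subgroup G)
    (hTn : (S : Subgroup G) ≤ Subgroup.normalizer (T : Set G))
    (hC : (S : Subgroup G) ⊓ Subgroup.centralizer (T : Set G) ≤ T)
    (g : G) (hgC : g ∈ Subgroup.centralizer (T : Set G)) (hgo : (orderOf g).Coprime p)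
    (q : G) (hq : q ∈ (S : Subgroup G)) (hgq : g * q * g⁻¹ ∈ (S : Subgroup G)) :
    g * q * g⁻¹ = q := by
  have hcS : g * q * g⁻¹ * q⁻¹ ∈ (S : Subgroup G) := mul_mem hgq (inv_mem hq)
  have hcC : g * q * g⁻¹ * q⁻¹ ∈ Subgroup.centralizer (T : Set G) := by
    have h1 : q * g⁻¹ * q⁻¹ ∈ Subgroup.centralizer (T : Set G) :=
      Cfsg.Agent.Lib.Helper1.Frob.centralizer_conj_mem (hTn hq) (inv_mem hgC)
    have e : g * q * g⁻¹ * q⁻¹ = g * (q * g⁻¹ * q⁻¹) := by group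
    rw [e]
    exact mul_mem hgC h1
  have hcT : g * q * g⁻¹ * q⁻¹ ∈ T := hC ⟨hcS, hcC⟩
  have hcomm : (g * q * g⁻¹ * q⁻¹) * g = g * (g * q * g⁻¹ * q⁻¹) :=
    Subgroup.mem_centralizer_iff.mp hgC _ hcT
  have hit : ∀ n : ℕ, g ^ n * q * (g ^ n)⁻¹ = (g * q * g⁻¹ * q⁻¹) ^ n * q := by
    intro n
    induction n with
    | zero => simp
    | succ n ih =>
      have hcn : g * (g * q * g⁻¹ * q⁻¹) ^ n = (g * q * g⁻¹ * q⁻¹) ^ n * g :=
        ((Commute.pow_right (show Commute g (g * q * g⁻¹ * q⁻¹) from hcomm.symm) n)).eq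
      calc g ^ (n + 1) * q * (g ^ (n + 1))⁻¹ = g * (g ^ n * q * (g ^ n)⁻¹) * g⁻¹ := by
            rw [pow_succ']
            group
        _ = g * ((g * q * g⁻¹ * q⁻¹) ^ n * q) * g⁻¹ := by rw [ih]
        _ = (g * (g * q * g⁻¹ * q⁻¹) ^ n) * q * g⁻¹ := by group
        _ = ((g * q * g⁻¹ * q⁻¹) ^ n * g) * q * g⁻¹ := by rw [hcn]
        _ = (g * q * g⁻¹ * q⁻¹) ^ n * (g * q * g⁻¹ * q⁻¹) * q := by group
        _ = (g * q * g⁻¹ * q⁻¹) ^ (n + 1) * q := by rw [pow_succ]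
  have h1 := hit (orderOf g)
  rw [pow_orderOf_eq_one] at h1
  have h2 : (g * q * g⁻¹ * q⁻¹) ^ orderOf g = 1 := by
    have h3 : q = (g * q * g⁻¹ * q⁻¹) ^ orderOf g * q := by simpa using h1
    exact mul_right_cancel (b := q) (by rw [one_mul]; exact h3.symm)
  obtain ⟨k, hk⟩ := S.2 ⟨g * q * g⁻¹ * q⁻¹, hcS⟩
  have h4 : (g * q * g⁻¹ * q⁻¹) ^ p ^ k = 1 := by simpa using congrArg Subtype.val hk
  have h5 : orderOf (g * q * g⁻¹ * q⁻¹) ∣ Nat.gcd (orderOf g) (p ^ k) :=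
    Nat.dvd_gcd (orderOf_dvd_of_pow_eq_one h2) (orderOf_dvd_of_pow_eq_one h4)
  rw [Nat.Coprime.pow_right k hgo, Nat.dvd_one, orderOf_eq_one_iff] at h5
  calc g * q * g⁻¹ = (g * q * g⁻¹ * q⁻¹) * q := by group
    _ = q := by rw [h5, one_mul]

theorem npc_normalizer (S : Sylow p G) (T : Subgroup G)
    (hTn : (S : Subgroup G) ≤ Subgroup.normalizer (T : Set G))
    (hC : (S : Subgroup G) ⊓ Subgroup.centralizer (T : Set G) ≤ T)
    (hN : ∀ g ∈ Subgroup.normalizer (T : Set G), (orderOf g).Coprime p →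
      g ∈ Subgroup.centralizer (T : Set G)) :
    Cfsg.HasNormalPComplement p ↥(Subgroup.normalizer (T : Set G)) := by
  obtain ⟨N, hNn, hNc⟩ := (Cfsg.Agent.Lib.Helper1.Frob.frobenius_iff (S.subtype hTn)).mpr (by
    intro Q hQ g hg hgo
    rw [Subgroup.mem_centralizer_iff]
    intro q hq
    have hqS : (q : G) ∈ (S : Subgroup G) := by
      have h1 := hQ hq
      rw [Sylow.coe_subtype, Subgroup.mem_subgroupOf] at h1
      exact h1
    have hgo' : (orderOf (g : G)).Coprime p := by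
      rw [Subgroup.orderOf_coe]
      exact hgo
    have hgC : (g : G) ∈ Subgroup.centralizer (T : Set G) := hN g g.2 hgo'
    have hgq : g * q * g⁻¹ ∈ Q := (Subgroup.mem_normalizer_iff.mp hg q).mp hq
    have hgqS : (g : G) * q * (g : G)⁻¹ ∈ (S : Subgroup G) := by
      have h1 := hQ hgq
      rw [Sylow.coe_subtype, Subgroup.mem_subgroupOf] at h1
      exact h1
    have h := centralizes_of_quadratic S T hTn hC g hgC hgo' q hqS hgqS
    apply Subtype.ext
    show (q : G) * g = g * q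
    calc (q : G) * g = ((g : G) * q * (g : G)⁻¹) * g := by rw [h]
      _ = g * q := by group)
  exact ⟨S.subtype hTn, N, hNn, hNc⟩

end Cfsg.Agent.Lib.Helper8.NpcLocal
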