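import Cfsg.Agent.Lib.Helper8.Alperin2
import Cfsg.Prelude.Def_RootSubgroups

set_option autoImplicit false

namespace Cfsg.Agent.Lib.Helper8.OddTransp

open Cfsg
open Cfsg.Agent.Lib.Helper8.Alperin2
open scoped commutatorElement

variable {G : Type*} [Group G]

theorem eq_one_of_odd_of_mem_pCore {q : G} (hq : q ∈ pCore 2 G) (hodd : Odd (orderOf q)) :
    q = 1 := by
  have : Fact (Nat.Prime 2) := ⟨Nat.prime_two⟩
  obtain ⟨k, hk⟩ := (IsPGroup.iff_orderOf.1 (pCore_isPGroup' 2 G)) ⟨q, hq⟩
  rw [Subgroup.orderOf_mk] at hk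
  cases k with
  | zero => rw [pow_zero] at hk; exact orderOf_eq_one_iff.1 hk
  | succ k =>
    exfalso
    rw [hk] at hodd
    exact (Nat.not_odd_iff_even.2 (Nat.even_pow.2 ⟨even_two, Nat.succ_ne_zero k⟩)) hodd

theorem mul_self_of_mem {D : Set G} (hD : IsRootInvolutionSet D) {d : G} (hd : d ∈ D) :
    d * d = 1 := by
  have := pow_orderOf_eq_one d
  rwa [hD.orderOf_eq d hd, sq] at this

theorem inv_of_mem {D : Set G} (hD : IsRootInvolutionSet D) {d : G} (hd : d ∈ D) :
    d⁻¹ = d := inv_eq_of_mul_eq_one_left (mul_self_of_mem hD hd)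

theorem mk_eq_one {x : G} (hx : x ∈ pCore 2 G) :
    (QuotientGroup.mk' (pCore 2 G)) x = 1 := by
  have := pCore_normal' 2 G
  exact (QuotientGroup.eq_one_iff x).2 hx

/-- A member of `D` commutes with its conjugates under `O₂(G)`. -/
theorem comm_conj {D : Set G} (hD : IsOddTranspositionSet D) {a x : G} (ha : a ∈ D)
    (hx : x ∈ pCore 2 G) : a * (x * a * x⁻¹) = (x * a * x⁻¹) * a := by
  have hn := pCore_normal' 2 G
  have ha' : x * a * x⁻¹ ∈ D := hD.1.conj_mem a ha x
  rcases hD.1.pair a ha _ ha' with h | h | h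
  · exact h
  · have hq : a * (x * a * x⁻¹) ∈ pCore 2 G := by
      rw [← QuotientGroup.eq_one_iff, ← QuotientGroup.mk'_apply]
      simp only [map_mul, map_inv, mk_eq_one hx, one_mul, mul_one, inv_one]
      rw [← map_mul, mul_self_of_mem hD.1 ha, map_one]
    have h1 := eq_one_of_odd_of_mem_pCore hq h
    have h2 : x * a * x⁻¹ = a⁻¹ := eq_inv_of_mul_eq_one_right h1
    rw [h1, h2, inv_mul_cancel]
  · exact absurd h.1 (hD.2 a ha _ ha')

/-- A member of `D` commuting with `a` commutes with the conjugates of `a` under `O₂(G)`. -/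
theorem comm_conj' {D : Set G} (hD : IsOddTranspositionSet D) {a e x : G} (ha : a ∈ D)
    (he : e ∈ D) (hea : e * a = a * e) (hx : x ∈ pCore 2 G) :
    e * (x * a * x⁻¹) = (x * a * x⁻¹) * e := by
  have hn := pCore_normal' 2 G
  have ha' : x * a * x⁻¹ ∈ D := hD.1.conj_mem a ha x
  rcases hD.1.pair e he _ ha' with h | h | h
  · exact h
  · have hq : (e * (x * a * x⁻¹)) ^ 2 ∈ pCore 2 G := by
      rw [← QuotientGroup.eq_one_iff, ← QuotientGroup.mk'_apply]
      simp only [map_pow, map_mul, map_inv, mk_eq_one hx, one_mul, mul_one, inv_one]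
      rw [← map_mul, ← map_pow]
      have : (e * a) ^ 2 = 1 := by
        rw [sq]
        calc e * a * (e * a) = e * (a * e) * a := by group
          _ = e * (e * a) * a := by rw [hea]
          _ = (e * e) * (a * a) := by group
          _ = 1 := by rw [mul_self_of_mem hD.1 he, mul_self_of_mem hD.1 ha, one_mul]
      rw [this, map_one]
    have hodd2 : Odd (orderOf ((e * (x * a * x⁻¹)) ^ 2)) :=
      Odd.of_dvd_nat h (orderOf_pow_dvd 2)
    have h1 := eq_one_of_odd_of_mem_pCore hq hodd2
    have h2 : orderOf (e * (x * a * x⁻¹)) ∣ 2 := orderOf_dvd_of_pow_eq_one h1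
    have h3 : orderOf (e * (x * a * x⁻¹)) = 1 := by
      rcases (Nat.dvd_prime Nat.prime_two).1 h2 with h4 | h4
      · exact h4
      · rw [h4] at h
        exact absurd h (by decide)
    have h4 : e * (x * a * x⁻¹) = 1 := orderOf_eq_one_iff.1 h3
    have h5 : x * a * x⁻¹ = e⁻¹ := eq_inv_of_mul_eq_one_right h4
    rw [h4, h5, inv_mul_cancel]
  · exact absurd h.1 (hD.2 e he _ ha')

theorem mem_zpowers_involution {a y : G} (ha : a * a = 1) (hy : y ∈ Subgroup.zpowers a) :
    y = 1 ∨ y = a := by
  obtain ⟨k, rfl⟩ := hy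
  have h2 : a ^ (2 : ℤ) = 1 := by
    have : a ^ (2 : ℤ) = a * a := by
      rw [show (2 : ℤ) = ((2 : ℕ) : ℤ) from rfl, zpow_natCast, sq]
    rw [this, ha]
  have hk : k = 2 * (k / 2) + k % 2 := (Int.mul_ediv_add_emod k 2).symm
  have h3 : a ^ k = a ^ (k % 2) := by
    conv_lhs => rw [hk]
    rw [zpow_add, zpow_mul, h2, one_zpow, one_mul]
  rcases Int.emod_two_eq_zero_or_one k with h | h
  · left
    show a ^ k = 1
    rw [h3, h, zpow_zero]
  · right
    show a ^ k = a
    rw [h3, h, zpow_one]

/-- S5049, first part. -/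
theorem part_one {D : Set G} (hD : IsOddTranspositionSet D) {a : G} (ha : a ∈ D) :
    ∀ e ∈ commutingMembers D a, ∀ q ∈ ⁅pCore 2 G, Subgroup.zpowers a⁆, e * q = q * e := by
  rintro e ⟨he, hea⟩ q hq
  have hle : ⁅pCore 2 G, Subgroup.zpowers a⁆ ≤ Subgroup.centralizer {e} := by
    rw [Subgroup.commutator_le]
    intro x hx y hy
    rw [Subgroup.mem_centralizer_iff]
    intro h hh
    rw [Set.mem_singleton_iff] at hh
    subst hh
    rcases mem_zpowers_involution (mul_self_of_mem hD.1 ha) hy with rfl | rfl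
    · simp
    · have h1 := comm_conj' hD ha he hea hx
      have hea' : h * y⁻¹ = y⁻¹ * h := by
        rw [inv_of_mem hD.1 ha]; exact hea
      rw [commutatorElement_def]
      calc h * (x * y * x⁻¹ * y⁻¹) = (h * (x * y * x⁻¹)) * y⁻¹ := by group
        _ = (x * y * x⁻¹) * h * y⁻¹ := by rw [h1]
        _ = (x * y * x⁻¹) * (h * y⁻¹) := by group
        _ = (x * y * x⁻¹) * (y⁻¹ * h) := by rw [hea']
        _ = x * y * x⁻¹ * y⁻¹ * h := by group
  have := hle hq
  rw [Subgroup.mem_centralizer_iff] at this
  exact this e rfl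

/-- S5049, second part. -/
theorem part_two {D : Set G} (hD : IsOddTranspositionSet D) {a : G} (ha : a ∈ D) :
    ∀ b ∈ oddPartners D a,
      pCore 2 G ⊓ Subgroup.centralizer {a * b}
        = pCore 2 G ⊓ Subgroup.centralizer {a} ⊓ Subgroup.centralizer {b} := by
  rintro b ⟨hb, hba, hodd⟩
  have hn := pCore_normal' 2 G
  have haa := mul_self_of_mem hD.1 ha
  have hbb := mul_self_of_mem hD.1 hb
  have hainv := inv_of_mem hD.1 ha
  have hbinv := inv_of_mem hD.1 hb
  ext x
  simp only [Subgroup.mem_inf, Subgroup.mem_centralizer_iff, Set.mem_singleton_iff,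
    forall_eq]
  constructor
  · rintro ⟨hx, hxt⟩
    -- `a' = x a x⁻¹`, `q = a a'`
    have ha'0 : x * a * x⁻¹ ∈ D := hD.1.conj_mem a ha x
    have hcomm0 := comm_conj hD ha hx
    have hq0 : a * (x * a * x⁻¹) ∈ pCore 2 G := by
      rw [← QuotientGroup.eq_one_iff, ← QuotientGroup.mk'_apply]
      simp only [map_mul, map_inv, mk_eq_one hx, one_mul, mul_one, inv_one]
      rw [← map_mul, haa, map_one]
    obtain ⟨a', ha'def⟩ : ∃ a', a' = x * a * x⁻¹ := ⟨_, rfl⟩
    rw [← ha'def] at ha'0 hcomm0 hq0
    obtain ⟨q, hqdef⟩ : ∃ q, q = a * a' := ⟨_, rfl⟩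
    rw [← hqdef] at hq0
    obtain ⟨t, htdef⟩ : ∃ t, t = a * b := ⟨_, rfl⟩
    rw [← htdef] at hxt hodd
    have ha'a' := mul_self_of_mem hD.1 ha'0
    have hqq : q * q = 1 := by
      calc q * q = a * (a' * a) * a' := by rw [hqdef]; group
        _ = a * (a * a') * a' := by rw [hcomm0]
        _ = (a * a) * (a' * a') := by group
        _ = 1 := by rw [haa, ha'a', one_mul]
    have hqa : q * a = a * q := by
      calc q * a = a * (a' * a) := by rw [hqdef]; group
        _ = a * (a * a') := by rw [hcomm0]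
        _ = a * q := by rw [hqdef]
    have hbt : b = a * t := by rw [htdef, ← mul_assoc, haa, one_mul]
    have hat : a * t = t⁻¹ * a := by
      rw [← hbt, htdef, mul_inv_rev, mul_assoc, inv_mul_cancel, mul_one, hbinv]
    have hat' : a * t⁻¹ = t * a := by
      calc a * t⁻¹ = t * (t⁻¹ * a) * t⁻¹ := by group
        _ = t * (a * t) * t⁻¹ := by rw [hat]
        _ = t * a := by group
    have hc : Commute x t := hxt.symm
    have ha't : a' * t = t⁻¹ * a' := by
      calc a' * t = x * a * (x⁻¹ * t) := by rw [ha'def]; group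
        _ = x * a * (t * x⁻¹) := by rw [hc.inv_left.eq]
        _ = x * (a * t) * x⁻¹ := by group
        _ = x * (t⁻¹ * a) * x⁻¹ := by rw [hat]
        _ = (x * t⁻¹) * a * x⁻¹ := by group
        _ = (t⁻¹ * x) * a * x⁻¹ := by rw [hc.inv_right.eq]
        _ = t⁻¹ * a' := by rw [ha'def]; group
    have hqt : q * t = t * q := by
      calc q * t = a * (a' * t) := by rw [hqdef]; group
        _ = a * (t⁻¹ * a') := by rw [ha't]
        _ = (a * t⁻¹) * a' := by group
        _ = (t * a) * a' := by rw [hat']
        _ = t * q := by rw [hqdef]; group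
    have hqb : q * b = b * q := by
      calc q * b = (q * a) * t := by rw [hbt]; group
        _ = (a * q) * t := by rw [hqa]
        _ = a * (q * t) := by group
        _ = a * (t * q) := by rw [hqt]
        _ = b * q := by rw [hbt]; group
    have ha'b : a' * b = t * q := by
      have h1 : a' = a * q := by rw [hqdef, ← mul_assoc, haa, one_mul]
      calc a' * b = a * (q * b) := by rw [h1]; group
        _ = a * (b * q) := by rw [hqb]
        _ = t * q := by rw [htdef]; group
    have hq1 : q = 1 := by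
      rcases hD.1.pair a' ha'0 b hb with h | h | h
      · exfalso
        have h1 : (t * q) * (t * q) = 1 := by
          rw [← ha'b]
          calc a' * b * (a' * b) = a' * (b * a') * b := by group
            _ = a' * (a' * b) * b := by rw [h]
            _ = (a' * a') * (b * b) := by group
            _ = 1 := by rw [ha'a', hbb, one_mul]
        have h2 : t * t = 1 := by
          calc t * t = t * t * (q * q) := by rw [hqq, mul_one]
            _ = t * (t * q) * q := by group
            _ = t * (q * t) * q := by rw [hqt]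
            _ = (t * q) * (t * q) := by group
            _ = 1 := h1
        have h3 : orderOf t ∣ 2 := orderOf_dvd_of_pow_eq_one (by rw [sq]; exact h2)
        have h4 : orderOf t = 1 := by
          rcases (Nat.dvd_prime Nat.prime_two).1 h3 with h5 | h5
          · exact h5
          · rw [h5] at hodd
            exact absurd hodd (by decide)
        have h5 : t = 1 := orderOf_eq_one_iff.1 h4
        rw [htdef] at h5
        have h6 : b = a⁻¹ := eq_inv_of_mul_eq_one_right h5
        rw [hainv] at h6
        exact hba h6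
      · rw [ha'b] at h
        have h1 : (t * q) ^ orderOf (t * q) = 1 := pow_orderOf_eq_one _
        have hctq : Commute t q := hqt.symm
        rw [hctq.mul_pow] at h1
        obtain ⟨j, hj⟩ := h
        have h2 : q ^ orderOf (t * q) = q := by
          rw [hj, pow_succ, pow_mul, sq, hqq, one_pow, one_mul]
        rw [h2] at h1
        have h3 : q = (t ^ orderOf (t * q))⁻¹ := eq_inv_of_mul_eq_one_right h1
        apply eq_one_of_odd_of_mem_pCore hq0
        rw [h3, orderOf_inv]
        exact Odd.of_dvd_nat hodd (orderOf_pow_dvd _)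
      · exact absurd h.1 (hD.2 a' ha'0 b hb)
    have h1 : a * a' = 1 := by rw [← hqdef, hq1]
    have h2 : a' = a := by
      have := eq_inv_of_mul_eq_one_right h1
      rw [hainv] at this
      exact this
    have hxa : a * x = x * a := by
      have h3 : x * a * x⁻¹ = a := by rw [← ha'def, h2]
      calc a * x = (x * a * x⁻¹) * x := by rw [h3]
        _ = x * a := by group
    refine ⟨⟨hx, hxa⟩, ?_⟩
    calc b * x = a * (t * x) := by rw [hbt]; group
      _ = a * (x * t) := by rw [hxt]
      _ = (a * x) * t := by group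
      _ = (x * a) * t := by rw [hxa]
      _ = x * b := by rw [hbt]; group
  · rintro ⟨⟨hx, hxa⟩, hxb⟩
    refine ⟨hx, ?_⟩
    calc a * b * x = a * (b * x) := by group
      _ = a * (x * b) := by rw [hxb]
      _ = (a * x) * b := by group
      _ = (x * a) * b := by rw [hxa]
      _ = x * (a * b) := by group

end Cfsg.Agent.Lib.Helper8.OddTransp
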