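import Cfsg.Agent.Lib.Helper8.StrongInv
import Cfsg.Agent.Lib.Helper8.Transport
import Cfsg.Agent.Lib.Helper8.Normal2
import Cfsg.Agent.Lib.Helper8.Centric

set_option autoImplicit false

namespace Cfsg.Agent.Lib.Helper8.PrimeIdx

open Cfsg Cfsg.FusionSystem Cfsg.Agent.Lib.Helper8.Fusion Cfsg.Agent.Lib.Helper8.FactorSys
  Cfsg.Agent.Lib.Helper8.Sat Cfsg.Agent.Lib.Helper8.Sat2 Cfsg.Agent.Lib.Helper8.Alperin2
  Cfsg.Agent.Lib.Helper8.GroupSub Cfsg.Agent.Lib.Helper8.Morph Cfsg.Agent.Lib.Helper8.Hyp2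
  Cfsg.Agent.Lib.Helper8.StrongInv Cfsg.Agent.Lib.Helper8.Transport
  Cfsg.Agent.Lib.Helper8.Normal2 Cfsg.Agent.Lib.Helper8.Centric
  Cfsg.Agent.Lib.Helper8.GroupFusion

variable {Ω : Type*} [Group Ω] {S : Subgroup Ω}

/-- Invariance of `E` under the automizer of `T` in `F`. -/
def AutInv (F : FusionSystem S) {T : Subgroup Ω} (E : FusionSystem T) : Prop :=
  ∀ (P : Subgroup Ω) (hPT : P ≤ T) (φ : P →* Ω), φ ∈ E.Hom P → ∀ α : MulAut T,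
    α ∈ F.autGroup T →
    ∃ χ ∈ E.Hom ((P.subgroupOf T).map (T.subtype.comp α.toMonoidHom)),
      ∀ (x : P) (hφx : φ x ∈ T)
        (hαx : ((α ⟨x, hPT x.2⟩ : T) : Ω) ∈ (P.subgroupOf T).map (T.subtype.comp α.toMonoidHom)),
        χ ⟨(α ⟨x, hPT x.2⟩ : T), hαx⟩ = ((α ⟨φ x, hφx⟩ : T) : Ω)

theorem fr_comp' (F : FusionSystem S) {T : Subgroup Ω} (E : FusionSystem T)
    (hT : F.StronglyClosed T) (hSI : AutInv F E) {P Q : Subgroup Ω} {φ : P →* Ω} {ψ : Q →* Ω}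
    (hφ : φ ∈ frSet F E P) (hψ : ψ ∈ frSet F E Q) (h : ∀ x : P, φ x ∈ Q) :
    ψ.comp (φ.codRestrict Q h) ∈ frSet F E P := by
  obtain ⟨hφF, α, hα, φ₀, hφ₀, hφeq⟩ := hφ
  obtain ⟨hψF, β, hβ, ψ₀, hψ₀, hψeq⟩ := hψ
  refine ⟨F.comp_mem hφF hψF h, β * α, Subgroup.mul_mem _ hβ hα, ?_⟩
  have hαinv : α⁻¹ ∈ F.autGroup T := Subgroup.inv_mem _ hα
  obtain ⟨χ, hχ, hχeq⟩ := hSI (Q ⊓ T) inf_le_right ψ₀ hψ₀ α⁻¹ hαinv
  have hφ₀T : ∀ x, φ₀ x ∈ T := (E.le_of_mem hφ₀).2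
  have hψ₀T : ∀ y, ψ₀ y ∈ T := (E.le_of_mem hψ₀).2
  have hyQT : ∀ x : ↥(P ⊓ T), φ ⟨x, x.2.1⟩ ∈ Q ⊓ T := fun x =>
    ⟨h _, by rw [hφeq x (hφ₀T x)]; exact Subtype.property _⟩
  have hφ₀eq : ∀ x : ↥(P ⊓ T),
      φ₀ x = ((α⁻¹ ⟨φ ⟨x, x.2.1⟩, (hyQT x).2⟩ : T) : Ω) := by
    intro x
    have h1 : (⟨φ ⟨x, x.2.1⟩, (hyQT x).2⟩ : T) = α ⟨φ₀ x, hφ₀T x⟩ :=
      Subtype.ext (hφeq x (hφ₀T x))
    rw [h1, MulAut.inv_apply_self]
  have hmem : ∀ x : ↥(P ⊓ T),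
      φ₀ x ∈ ((Q ⊓ T).subgroupOf T).map (T.subtype.comp α⁻¹.toMonoidHom) := by
    intro x
    refine ⟨⟨φ ⟨x, x.2.1⟩, (hyQT x).2⟩, Subgroup.mem_subgroupOf.2 (hyQT x), ?_⟩
    exact (hφ₀eq x).symm
  refine ⟨χ.comp (φ₀.codRestrict _ hmem), E.comp_mem hφ₀ hχ hmem, fun x hx => ?_⟩
  obtain ⟨y, hy⟩ : ∃ y : ↥(Q ⊓ T), y = ⟨φ ⟨x, x.2.1⟩, hyQT x⟩ := ⟨_, rfl⟩
  have hαx : ((α⁻¹ ⟨(y : Ω), y.2.2⟩ : T) : Ω) ∈
      ((Q ⊓ T).subgroupOf T).map (T.subtype.comp α⁻¹.toMonoidHom) :=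
    ⟨⟨y, y.2.2⟩, Subgroup.mem_subgroupOf.2 y.2, rfl⟩
  have h1 := hχeq y (hψ₀T y) hαx
  have h2 : (φ₀.codRestrict _ hmem) x =
      ⟨((α⁻¹ ⟨(y : Ω), y.2.2⟩ : T) : Ω), hαx⟩ := by
    apply Subtype.ext
    show φ₀ x = ((α⁻¹ ⟨(y : Ω), y.2.2⟩ : T) : Ω)
    rw [hφ₀eq x]
    subst hy
    rfl
  have h3 : (⟨(χ.comp (φ₀.codRestrict _ hmem)) x, hx⟩ : T) = α⁻¹ ⟨ψ₀ y, hψ₀T y⟩ := by
    apply Subtype.ext
    show χ ((φ₀.codRestrict _ hmem) x) = _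
    rw [h2, h1]
  rw [h3]
  show ψ ⟨φ ⟨x, x.2.1⟩, h _⟩ = ((β (α (α⁻¹ ⟨ψ₀ y, hψ₀T y⟩)) : T) : Ω)
  rw [MulAut.apply_inv_self]
  have h4 := hψeq y (hψ₀T y)
  rw [← h4]
  subst hy
  rfl

theorem fr_inv' (F : FusionSystem S) {T : Subgroup Ω} (E : FusionSystem T)
    (hT : F.StronglyClosed T) (hSI : AutInv F E) {P : Subgroup Ω} {φ : P →* Ω}
    (hφ : φ ∈ frSet F E P) :
    ∃ ψ ∈ frSet F E φ.range, ∀ x : P, ψ ⟨φ x, ⟨x, rfl⟩⟩ = (x : Ω) := by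
  obtain ⟨hφF, α, hα, φ₀, hφ₀, hφeq⟩ := hφ
  obtain ⟨ψ, hψ, hψinv⟩ := F.inv_mem hφF
  refine ⟨ψ, ⟨hψ, α⁻¹, Subgroup.inv_mem _ hα, ?_⟩, hψinv⟩
  have hφ₀T : ∀ x, φ₀ x ∈ T := (E.le_of_mem hφ₀).2
  obtain ⟨ρ, hρ, hρinv⟩ := E.inv_mem hφ₀
  have hrT : φ₀.range ≤ T := (E.le_of_mem hρ).1
  obtain ⟨χ, hχ, hχeq⟩ := hSI φ₀.range hrT ρ hρ α hα
  have hrep : ∀ y ∈ φ.range ⊓ T, ∃ x : ↥(P ⊓ T), y = ((α ⟨φ₀ x, hφ₀T x⟩ : T) : Ω) := by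
    rintro y ⟨⟨x₁, rfl⟩, hyT⟩
    have hx₁T : (x₁ : Ω) ∈ T := mem_of_map_mem_sc F hT hφF x₁ hyT
    exact ⟨⟨x₁, x₁.2, hx₁T⟩, hφeq ⟨x₁, x₁.2, hx₁T⟩ (hφ₀T _)⟩
  have hle : φ.range ⊓ T ≤ (φ₀.range.subgroupOf T).map (T.subtype.comp α.toMonoidHom) := by
    intro y hy
    obtain ⟨x, rfl⟩ := hrep y hy
    exact ⟨⟨φ₀ x, hφ₀T x⟩, Subgroup.mem_subgroupOf.2 ⟨x, rfl⟩, rfl⟩
  refine ⟨χ.comp (Subgroup.inclusion hle), restrict_mem E hle hχ, fun y hy' => ?_⟩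
  obtain ⟨x, hx⟩ := hrep y y.2
  have hyφ : (y : Ω) = φ ⟨x, x.2.1⟩ := hx.trans (hφeq x (hφ₀T x)).symm
  have h1 : ψ ⟨(y : Ω), y.2.1⟩ = (x : Ω) := by
    have h2 : (⟨(y : Ω), y.2.1⟩ : φ.range) = ⟨φ ⟨x, x.2.1⟩, ⟨_, rfl⟩⟩ := Subtype.ext hyφ
    rw [h2, hψinv]
  rw [h1]
  have hz : φ₀ x ∈ φ₀.range := ⟨x, rfl⟩
  have hαz : ((α ⟨φ₀ x, hrT hz⟩ : T) : Ω) ∈
      (φ₀.range.subgroupOf T).map (T.subtype.comp α.toMonoidHom) :=
    ⟨⟨φ₀ x, hrT hz⟩, Subgroup.mem_subgroupOf.2 hz, rfl⟩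
  have h3 := hχeq ⟨φ₀ x, hz⟩ ((E.le_of_mem hρ).2 _) hαz
  have h4 : ρ ⟨φ₀ x, hz⟩ = (x : Ω) := hρinv x
  have h5 : Subgroup.inclusion hle y = ⟨((α ⟨φ₀ x, hrT hz⟩ : T) : Ω), hαz⟩ := Subtype.ext hx
  have h6 : (⟨(χ.comp (Subgroup.inclusion hle)) y, hy'⟩ : T) = α ⟨(x : Ω), x.2.2⟩ := by
    apply Subtype.ext
    show χ (Subgroup.inclusion hle y) = _
    rw [h5, h3]
    exact congrArg (fun t : T => ((α t : T) : Ω)) (Subtype.ext h4)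
  rw [h6, MulAut.inv_apply_self]

/-- The auxiliary fusion system used to prove the Frattini condition. -/
def frSystem' (F : FusionSystem S) {T : Subgroup Ω} (E : FusionSystem T)
    (hT : F.StronglyClosed T) (hSI : AutInv F E) : FusionSystem S where
  Hom P := frSet F E P
  le_of_mem h := F.le_of_mem h.1
  injective_of_mem h := F.injective_of_mem h.1
  conj_mem := fun hP hg => fr_conj F E hT hP hg
  comp_mem := fun h1 h2 h => fr_comp' F E hT hSI h1 h2 h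
  inv_mem := fun h => fr_inv' F E hT hSI h


/-! ### The core of a subsystem under the automizer of `S` -/

theorem mapSub_mul (α β : MulAut S) (P : Subgroup Ω) :
    mapSub (β * α) P = mapSub β (mapSub α P) := by
  ext y
  constructor
  · rintro ⟨t, ht, rfl⟩
    exact ⟨α t, Subgroup.mem_subgroupOf.2 ⟨t, ht, rfl⟩, rfl⟩
  · rintro ⟨u, hu, rfl⟩
    obtain ⟨t, ht, htu⟩ := Subgroup.mem_subgroupOf.1 hu
    have h1 : α t = u := Subtype.ext htu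
    exact ⟨t, ht, by rw [← h1]; rfl⟩

/-- The maps of `E` all of whose transports under `Aut_F(S)` are maps of `E`. -/
def coreSet (F E : FusionSystem S) (P : Subgroup Ω) : Set (P →* Ω) :=
  {φ | φ ∈ E.Hom P ∧ ∀ α : MulAut S, α ∈ F.autGroup S →
    ∃ χ ∈ E.Hom (mapSub α P), Rel α φ χ}

theorem core_conj (F E : FusionSystem S) {P : Subgroup Ω} {g : Ω} (hP : P ≤ S) (hg : g ∈ S) :
    conjHom P g ∈ coreSet F E P := by
  refine ⟨E.conj_mem hP hg, fun α _ => ?_⟩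
  refine ⟨conjHom (mapSub α P) ((α ⟨g, hg⟩ : S) : Ω),
    E.conj_mem (mapSub_le α P) (α ⟨g, hg⟩).2, ?_⟩
  intro x hx hφ hx'
  exact (coe_conj α hg hx hφ).symm

theorem rel_maps (E : FusionSystem S) {P : Subgroup Ω} {φ : P →* Ω} (hφ : φ ∈ E.Hom P)
    {α : MulAut S} {χ : ↥(mapSub α P) →* Ω} (hr : Rel α φ χ) (y : ↥(mapSub α P)) :
    ∃ (x : P) (hx : (x : Ω) ∈ S) (hφx : φ x ∈ S), (y : Ω) = ((α ⟨x, hx⟩ : S) : Ω) ∧
      χ y = ((α ⟨φ x, hφx⟩ : S) : Ω) := by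
  obtain ⟨x, hx, hxP, hxy⟩ := mem_mapSub.mp y.2
  have hφS : φ ⟨x, hxP⟩ ∈ S := (E.le_of_mem hφ).2 _
  refine ⟨⟨x, hxP⟩, hx, hφS, hxy.symm, ?_⟩
  have hmem : ((α ⟨x, hx⟩ : S) : Ω) ∈ mapSub α P := hxy ▸ y.2
  have hy : y = ⟨((α ⟨x, hx⟩ : S) : Ω), hmem⟩ := Subtype.ext hxy.symm
  rw [hy]
  exact hr ⟨x, hxP⟩ hx hφS hmem

theorem core_comp (F E : FusionSystem S) {P Q : Subgroup Ω} {φ : P →* Ω} {ψ : Q →* Ω}
    (hφ : φ ∈ coreSet F E P) (hψ : ψ ∈ coreSet F E Q) (h : ∀ x : P, φ x ∈ Q) :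
    ψ.comp (φ.codRestrict Q h) ∈ coreSet F E P := by
  refine ⟨E.comp_mem hφ.1 hψ.1 h, fun α hα => ?_⟩
  obtain ⟨χ₁, hχ₁, hr₁⟩ := hφ.2 α hα
  obtain ⟨χ₂, hχ₂, hr₂⟩ := hψ.2 α hα
  have hPS : P ≤ S := (E.le_of_mem hφ.1).1
  have hφS : ∀ x, φ x ∈ S := (E.le_of_mem hφ.1).2
  have hmaps : ∀ y : ↥(mapSub α P), χ₁ y ∈ mapSub α Q := by
    intro y
    obtain ⟨x, hx, hφx, -, hχy⟩ := rel_maps E hφ.1 hr₁ y
    rw [hχy]
    exact mem_mapSub.mpr ⟨φ x, hφx, h x, rfl⟩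
  refine ⟨χ₂.comp (χ₁.codRestrict _ hmaps), E.comp_mem hχ₁ hχ₂ hmaps, ?_⟩
  intro x hx hφ' hx'
  have h1 := hr₁ x hx (hφS x) hx'
  have hmem : ((α ⟨φ x, hφS x⟩ : S) : Ω) ∈ mapSub α Q :=
    mem_mapSub.mpr ⟨φ x, hφS x, h x, rfl⟩
  have h2 := hr₂ ⟨φ x, h x⟩ (hφS x) hφ' hmem
  have h3 : (χ₁.codRestrict _ hmaps) ⟨((α ⟨x, hx⟩ : S) : Ω), hx'⟩ =
      ⟨((α ⟨φ x, hφS x⟩ : S) : Ω), hmem⟩ := Subtype.ext h1
  show χ₂ ((χ₁.codRestrict _ hmaps) ⟨((α ⟨x, hx⟩ : S) : Ω), hx'⟩) = _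
  rw [h3]
  exact h2

theorem core_inv (F E : FusionSystem S) {P : Subgroup Ω} {φ : P →* Ω}
    (hφ : φ ∈ coreSet F E P) :
    ∃ ψ ∈ coreSet F E φ.range, ∀ x : P, ψ ⟨φ x, ⟨x, rfl⟩⟩ = (x : Ω) := by
  obtain ⟨ψ, hψ, hψinv⟩ := E.inv_mem hφ.1
  refine ⟨ψ, ⟨hψ, fun α hα => ?_⟩, hψinv⟩
  obtain ⟨χ₁, hχ₁, hr₁⟩ := hφ.2 α hα
  have hPS : P ≤ S := (E.le_of_mem hφ.1).1
  have hφS : ∀ x, φ x ∈ S := (E.le_of_mem hφ.1).2
  have hαP : ∀ x : P, ((α ⟨x, hPS x.2⟩ : S) : Ω) ∈ mapSub α P := fun x =>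
    mem_mapSub.mpr ⟨x, hPS x.2, x.2, rfl⟩
  have hrange : χ₁.range = mapSub α φ.range := by
    ext y
    constructor
    · rintro ⟨z, rfl⟩
      obtain ⟨x, hx, hφx, -, hχy⟩ := rel_maps E hφ.1 hr₁ z
      rw [hχy]
      exact mem_mapSub.mpr ⟨φ x, hφx, ⟨x, rfl⟩, rfl⟩
    · intro hy
      obtain ⟨w, hw, ⟨x, rfl⟩, hwy⟩ := mem_mapSub.mp hy
      refine ⟨⟨((α ⟨x, hPS x.2⟩ : S) : Ω), hαP x⟩, ?_⟩
      rw [hr₁ x (hPS x.2) hw (hαP x)]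
      exact hwy
  obtain ⟨ρ, hρ, -, hρinv⟩ := exists_inv E hχ₁ hrange
  refine ⟨ρ, hρ, ?_⟩
  rintro ⟨_, ⟨x, rfl⟩⟩ hy hψy hy'
  have h1 := hr₁ x (hPS x.2) hy (hαP x)
  have h2 := hρinv ⟨((α ⟨x, hPS x.2⟩ : S) : Ω), hαP x⟩ (h1 ▸ hy')
  have h3 : (⟨((α ⟨φ x, hy⟩ : S) : Ω), hy'⟩ : ↥(mapSub α φ.range)) =
      ⟨χ₁ ⟨((α ⟨x, hPS x.2⟩ : S) : Ω), hαP x⟩, h1 ▸ hy'⟩ := Subtype.ext h1.symm
  show ρ ⟨((α ⟨φ x, hy⟩ : S) : Ω), hy'⟩ = ((α ⟨ψ ⟨φ x, ⟨x, rfl⟩⟩, hψy⟩ : S) : Ω)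
  rw [h3, h2]
  exact congrArg (fun t : S => ((α t : S) : Ω)) (Subtype.ext (hψinv x).symm)

/-- The core of `E` under the automizer of `S` in `F`. -/
def coreSystem (F E : FusionSystem S) : FusionSystem S where
  Hom P := coreSet F E P
  le_of_mem h := E.le_of_mem h.1
  injective_of_mem h := E.injective_of_mem h.1
  conj_mem := fun hP hg => core_conj F E hP hg
  comp_mem := fun h1 h2 h => core_comp F E h1 h2 h
  inv_mem := fun h => core_inv F E h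

theorem autInv_coreSystem (F E : FusionSystem S) : AutInv F (coreSystem F E) := by
  intro P hPS φ hφ β hβ
  obtain ⟨χ, hχ, hr⟩ := hφ.2 β hβ
  refine ⟨χ, ⟨hχ, fun α hα => ?_⟩, fun x hφx hβx => hr x (hPS x.2) hφx hβx⟩
  obtain ⟨χ', hχ', hr'⟩ := hφ.2 (α * β) (Subgroup.mul_mem _ hα hβ)
  have heq : mapSub α (mapSub β P) = mapSub (α * β) P := (mapSub_mul β α P).symm
  refine ⟨χ'.comp (Subgroup.inclusion heq.le), hom_cast E heq hχ', ?_⟩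
  intro y hy hχy hy'
  obtain ⟨x, hx, hφx, hyx, hχyx⟩ := rel_maps E hφ.1 hr y
  have hmem : (((α * β) ⟨x, hx⟩ : S) : Ω) ∈ mapSub (α * β) P :=
    mem_mapSub.mpr ⟨x, hx, x.2, rfl⟩
  have h1 := hr' x hx hφx hmem
  have h2 : (⟨(y : Ω), hy⟩ : S) = β ⟨x, hx⟩ := Subtype.ext hyx
  have h3 : Subgroup.inclusion heq.le ⟨((α ⟨(y : Ω), hy⟩ : S) : Ω), hy'⟩ =
      ⟨(((α * β) ⟨x, hx⟩ : S) : Ω), hmem⟩ := by
    apply Subtype.ext
    show ((α ⟨(y : Ω), hy⟩ : S) : Ω) = ((α (β ⟨x, hx⟩) : S) : Ω)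
    rw [h2]
  show χ' (Subgroup.inclusion heq.le ⟨((α ⟨(y : Ω), hy⟩ : S) : Ω), hy'⟩) = _
  rw [h3, h1]
  have h4 : (⟨χ y, hχy⟩ : S) = β ⟨φ x, hφx⟩ := Subtype.ext hχyx
  exact congrArg (fun t : S => ((α t : S) : Ω)) h4.symm

/-- On `F`-centric subgroups the `p`-elements of the automizers of `F` lie in those of `E`. -/
def HP (F E : FusionSystem S) (p : ℕ) : Prop :=
  ∀ P : Subgroup Ω, F.IsCentric P → ∀ γ : MulAut P, γ ∈ F.autGroup P →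
    (∃ k : ℕ, orderOf γ = p ^ k) → γ ∈ E.autGroup P

theorem hp_coreSystem (F E : FusionSystem S) {p : ℕ} (h : HP F E p) :
    HP F (coreSystem F E) p := by
  intro P hc γ hγ hk
  have hPS : P ≤ S := hc.1
  rw [mem_autGroup_iff _ hPS]
  refine ⟨(mem_autGroup_iff E hPS γ).1 (h P hc γ hγ hk), fun α hα => ?_⟩
  obtain ⟨ψ, hψdef⟩ : ∃ ψ : P →* Ω,
      ψ = (S.subtype.comp α.toMonoidHom).comp (Subgroup.inclusion hPS) := ⟨_, rfl⟩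
  have hψ : ψ ∈ F.Hom P := by
    rw [hψdef]
    exact restrict_mem F hPS ((mem_autGroup_iff F le_rfl α).1 hα)
  have hψr : ψ.range = mapSub α P := by
    rw [hψdef]
    ext y
    constructor
    · rintro ⟨x, rfl⟩
      exact mem_mapSub.mpr ⟨x, hPS x.2, x.2, rfl⟩
    · intro hy
      obtain ⟨x, hx, hxP, hxy⟩ := mem_mapSub.mp hy
      exact ⟨⟨x, hxP⟩, hxy⟩
  obtain ⟨e, he⟩ : ∃ e : P ≃* ↥(mapSub α P), e = isoOfHom ψ (F.injective_of_mem hψ) hψr :=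
    ⟨_, rfl⟩
  have heψ : ∀ x : P, ((e x : ↥(mapSub α P)) : Ω) = ((α ⟨x, hPS x.2⟩ : S) : Ω) := fun x => by
    rw [he, isoOfHom_coe, hψdef]
    rfl
  have hγ'F : MulAut.congr e γ ∈ F.autGroup (mapSub α P) := by
    rw [he]
    exact congr_mem_autGroup F hψ hψr hγ
  have hcent : F.IsCentric (mapSub α P) :=
    ⟨mapSub_le α P, fun Q hQ => hc.2 Q (isConj_trans F ⟨ψ, hψ, hψr⟩ hQ)⟩
  have hord : ∃ k : ℕ, orderOf (MulAut.congr e γ) = p ^ k := by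
    obtain ⟨k, hk⟩ := hk
    refine ⟨k, ?_⟩
    rw [← hk]
    exact orderOf_injective (MulAut.congr e).toMonoidHom (MulAut.congr e).injective γ
  have hγ'E := h _ hcent _ hγ'F hord
  refine ⟨_, (mem_autGroup_iff E (mapSub_le α P) _).1 hγ'E, ?_⟩
  intro x hx hφ hx'
  have h1 : (⟨((α ⟨x, hx⟩ : S) : Ω), hx'⟩ : ↥(mapSub α P)) = e x := Subtype.ext (heψ x).symm
  show ((MulAut.congr e γ ⟨((α ⟨x, hx⟩ : S) : Ω), hx'⟩ : ↥(mapSub α P)) : Ω) = _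
  rw [h1]
  show ((e (γ (e.symm (e x))) : ↥(mapSub α P)) : Ω) = _
  rw [MulEquiv.symm_apply_apply, heψ]
  rfl

/-- Under invariance and the hypothesis on centric subgroups, every map of a saturated `F` is a
map of `E` followed by an element of the automizer of `S`. -/
theorem le_frSystem' [Finite S] {p : ℕ} [Fact p.Prime] (hS : IsPGroup p S)
    (F : FusionSystem S) (hF : F.IsSaturated p) (E : FusionSystem S)
    (hInv : AutInv F E) (h : HP F E p) :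
    F ≤ frSystem' F E (stronglyClosed_self F) hInv := by
  apply le_of_autGroup_le' hS F hF
  intro R hRn hRc hbig
  have hRS : R ≤ S := hRn.1
  by_cases hRS' : R = S
  · intro κ hκ
    rw [mem_autGroup_iff _ hRS]
    refine ⟨(mem_autGroup_iff F hRS κ).1 hκ, ?_⟩
    clear hbig hRc hRn
    subst hRS'
    exact ⟨κ, hκ, (R ⊓ R).subtype, id_mem E inf_le_right, fun x h => rfl⟩
  have hlt : R < S := lt_of_le_of_ne hRS hRS'
  have hfinR : Finite R := finite_of_le hRS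
  obtain ⟨K, hK⟩ : ∃ K : Subgroup (F.autGroup R),
      K = Subgroup.normalClosure {γ : F.autGroup R | ∃ k : ℕ, orderOf γ = p ^ k} := ⟨_, rfl⟩
  have hKn : K.Normal := by
    rw [hK]
    exact Subgroup.normalClosure_normal
  have hC : ∀ γ : F.autGroup R, γ ∈ K →
      (γ : MulAut R) ∈ (frSystem' F E (stronglyClosed_self F) hInv).autGroup R := by
    intro γ hγK
    have hle : K ≤ ((frSystem' F E (stronglyClosed_self F) hInv).autGroup R).comap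
        (F.autGroup R).subtype := by
      rw [hK]
      unfold Subgroup.normalClosure
      rw [Subgroup.closure_le]
      intro c hc
      obtain ⟨a, ⟨k, hk⟩, hac⟩ := Group.mem_conjugatesOfSet_iff.1 hc
      obtain ⟨d, hd⟩ := isConj_iff.1 hac
      have hsc : SemiconjBy d a c := by
        unfold SemiconjBy
        rw [← hd]
        group
      have hord : orderOf (c : MulAut R) = p ^ k := by
        rw [Subgroup.orderOf_coe, ← hk]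
        exact (hsc.orderOf_eq).symm
      have hcE : (c : MulAut R) ∈ E.autGroup R := h R hRc c c.2 ⟨k, hord⟩
      show (c : MulAut R) ∈ (frSystem' F E (stronglyClosed_self F) hInv).autGroup R
      rw [mem_autGroup_iff _ hRS]
      exact ⟨(mem_autGroup_iff F hRS c).1 c.2, 1, Subgroup.one_mem _,
        (R.subtype.comp (c : MulAut R).toMonoidHom).comp (Subgroup.inclusion inf_le_left),
        restrict_mem E inf_le_left ((mem_autGroup_iff E hRS _).1 hcE), fun x h => rfl⟩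
    exact hle hγK
  have hFA := isFullyCentralized_and_isFullyAutomized hS F hF hRn
  obtain ⟨-, R₀, hR₀⟩ := hFA.2
  have hrec := isReceptive_of_isFullyCentralized hS F hF hFA.1
  have hR₀K : (R₀ : Subgroup (F.autGroup R)) ≤ K := by
    intro γ hγ
    rw [hK]
    apply Subgroup.subset_normalClosure
    obtain ⟨k, hk⟩ := (IsPGroup.iff_orderOf.1 R₀.isPGroup') ⟨γ, hγ⟩
    exact ⟨k, by rw [← hk]; exact (Subgroup.orderOf_mk γ hγ).symm⟩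
  obtain ⟨Q₀, hQ₀⟩ := sylow_inf_of_normal R₀ K
  have hfr := Sylow.normalizer_sup_eq_top Q₀
  rw [hQ₀, Subgroup.subgroupOf_map_subtype, inf_of_le_left inf_le_right] at hfr
  intro α hα
  have hmem : (⟨α, hα⟩ : F.autGroup R) ∈
      Subgroup.normalizer ((((R₀ : Subgroup (F.autGroup R)) ⊓ K :
        Subgroup (F.autGroup R)) : Set (F.autGroup R))) ⊔ K := by
    rw [hfr]
    exact Subgroup.mem_top _
  obtain ⟨n, hn, b, hb, hnb⟩ := Subgroup.mem_sup_of_normal_right.mp hmem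
  have hbE : (b : MulAut R) ∈ (frSystem' F E (stronglyClosed_self F) hInv).autGroup R := hC b hb
  have hnE : (n : MulAut R) ∈ (frSystem' F E (stronglyClosed_self F) hInv).autGroup R := by
    obtain ⟨φ₁, hφ₁def⟩ : ∃ φ₁ : R →* Ω, φ₁ = R.subtype.comp (n : MulAut R).toMonoidHom :=
      ⟨_, rfl⟩
    have hφ₁ : φ₁ ∈ F.Hom R := by rw [hφ₁def]; exact (mem_autGroup_iff F hRS n).1 n.2
    have hφ₁r : φ₁.range = R := by rw [hφ₁def]; exact range_subtype_comp_aut _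
    obtain ⟨ψb, hψb, hext⟩ := hrec.2 R φ₁ hφ₁ hφ₁r
    have hNT : FusionSystem.normalizerIn S R ≤ FusionSystem.extender S R φ₁ := by
      intro g hg
      apply Subgroup.subset_closure
      refine ⟨hg.1, hg.2, ?_⟩
      obtain ⟨γ, hγdef⟩ : ∃ γ : MulAut R, γ = R.normalizerMonoidHom ⟨g, hg.2⟩ := ⟨_, rfl⟩
      have hγx : ∀ x : R, ((γ x : R) : Ω) = g * x * g⁻¹ := fun x => by rw [hγdef]; rfl
      have hγS : γ ∈ autInducedBy S R := mem_autInducedBy_iff.mpr ⟨g, hg.1, hγx⟩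
      have hγA : γ ∈ F.autGroup R := autInducedBy_le_autGroup F hRS hγS
      have hγR₀ : (⟨γ, hγA⟩ : F.autGroup R) ∈ (R₀ : Subgroup (F.autGroup R)) := by
        rw [hR₀]
        exact hγS
      have hγQ : (⟨γ, hγA⟩ : F.autGroup R) ∈ (R₀ : Subgroup (F.autGroup R)) ⊓ K :=
        ⟨hγR₀, hR₀K hγR₀⟩
      have h2 := (Subgroup.mem_normalizer_iff.mp hn ⟨γ, hγA⟩).mp hγQ
      have h3 : n * ⟨γ, hγA⟩ * n⁻¹ ∈ (R₀ : Subgroup (F.autGroup R)) := h2.1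
      rw [hR₀] at h3
      obtain ⟨h, hhS, hh⟩ := mem_autInducedBy_iff.mp h3
      refine ⟨h, hhS, fun x hx => ?_⟩
      have h1 := hh ((n : MulAut R) x)
      have h2 : (⟨g * x * g⁻¹, hx⟩ : R) = γ x := Subtype.ext (hγx x).symm
      rw [hφ₁def]
      show (((n : MulAut R) ⟨g * x * g⁻¹, hx⟩ : R) : Ω) = h * (((n : MulAut R) x : R) : Ω) * h⁻¹
      rw [h2, ← h1]
      simp [MulAut.mul_apply]
    have hRR₂ : R ≤ FusionSystem.normalizerIn S R := le_normalizerIn_self hRS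
    have hR₂S : FusionSystem.normalizerIn S R ≤ S := inf_le_left
    have hlt₂ : Nat.card R < Nat.card (FusionSystem.normalizerIn S R) :=
      card_lt_card_normalizerIn hS hlt
    have hψ₂ := restrict_mem F hNT hψb
    have hψ₂G := hbig _ hR₂S hlt₂ _ hψ₂
    rw [mem_autGroup_iff _ hRS, ← hφ₁def]
    refine hom_congr (frSystem' F E (stronglyClosed_self F) hInv)
      (restrict_mem (frSystem' F E (stronglyClosed_self F) hInv) hRR₂ hψ₂G) (fun x => ?_)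
    exact (hext x x.2 _).symm
  have h6 : α = (n : MulAut R) * (b : MulAut R) := (congrArg Subtype.val hnb).symm
  rw [h6]
  exact Subgroup.mul_mem _ hnE hbE

/-- Decomposition of the maps of `F`. -/
theorem exists_decomp [Finite S] {p : ℕ} [Fact p.Prime] (hS : IsPGroup p S)
    (F : FusionSystem S) (hF : F.IsSaturated p) (E : FusionSystem S) (h : HP F E p)
    (P : Subgroup Ω) (φ : P →* Ω) (hφ : φ ∈ F.Hom P) :
    ∃ α ∈ F.autGroup S, ∃ φ₀ ∈ E.Hom P,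
      ∀ (x : P) (hx : φ₀ x ∈ S), φ x = ((α ⟨φ₀ x, hx⟩ : S) : Ω) := by
  have hle := le_frSystem' hS F hF (coreSystem F E) (autInv_coreSystem F E)
    (hp_coreSystem F E h)
  obtain ⟨-, α, hα, φ₀, hφ₀, heq⟩ := hle P hφ
  have hPS : P ≤ S := (F.le_of_mem hφ).1
  have hle' : P ≤ P ⊓ S := le_inf le_rfl hPS
  exact ⟨α, hα, φ₀.comp (Subgroup.inclusion hle'), restrict_mem E hle' hφ₀.1,
    fun x hx => heq (Subgroup.inclusion hle' x) hx⟩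

theorem isCentric_iff [Finite S] {p : ℕ} [Fact p.Prime] (hS : IsPGroup p S)
    (F : FusionSystem S) (hF : F.IsSaturated p) (E : FusionSystem S)
    (hEF : E.IsSubsystemOf F) (h : HP F E p) (P : Subgroup Ω) :
    E.IsCentric P ↔ F.IsCentric P := by
  constructor
  · rintro ⟨hPS, hc⟩
    refine ⟨hPS, ?_⟩
    rintro Q ⟨φ, hφ, rfl⟩
    obtain ⟨α, hα, φ₀, hφ₀, heq⟩ := exists_decomp hS F hF E h P φ hφ
    have h0 := hc φ₀.range ⟨φ₀, hφ₀, rfl⟩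
    have hφ₀S : ∀ x, φ₀ x ∈ S := (E.le_of_mem hφ₀).2
    rintro z ⟨hzS, hzC⟩
    have hw : ((α⁻¹ ⟨z, hzS⟩ : S) : Ω) ∈ FusionSystem.centralizerIn S φ₀.range := by
      refine ⟨(α⁻¹ ⟨z, hzS⟩).2, Subgroup.mem_centralizer_iff.2 ?_⟩
      rintro _ ⟨x, rfl⟩
      have h1 : φ x * z = z * φ x := Subgroup.mem_centralizer_iff.1 hzC (φ x) ⟨x, rfl⟩
      rw [heq x (hφ₀S x)] at h1
      have h2 : α ⟨φ₀ x, hφ₀S x⟩ * ⟨z, hzS⟩ = ⟨z, hzS⟩ * α ⟨φ₀ x, hφ₀S x⟩ := Subtype.ext h1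
      have h3 := congrArg (fun t : S => α⁻¹ t) h2
      simp only [map_mul, MulAut.inv_apply_self] at h3
      exact congrArg (fun t : S => (t : Ω)) h3
    obtain ⟨x, hx⟩ := h0 hw
    refine ⟨x, ?_⟩
    rw [heq x (hφ₀S x)]
    have h4 : (⟨φ₀ x, hφ₀S x⟩ : S) = α⁻¹ ⟨z, hzS⟩ := Subtype.ext hx
    rw [h4, MulAut.apply_inv_self]
  · rintro ⟨hPS, hc⟩
    exact ⟨hPS, fun Q ⟨φ, hφ, hr⟩ => hc Q ⟨φ, hEF P hφ, hr⟩⟩

theorem pElement_mem [Finite S] {p : ℕ} [Fact p.Prime] (hS : IsPGroup p S)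
    (F : FusionSystem S) (hF : F.IsSaturated p) (E : FusionSystem S) (h : HP F E p)
    {P : Subgroup Ω} (hP : P ≤ S) {γ : MulAut P} (hγ : γ ∈ F.autGroup P) {k : ℕ}
    (hk : orderOf γ = p ^ k) : γ ∈ E.autGroup P := by
  obtain ⟨P', hconj, hP'n⟩ := exists_fullyNormalized_conj F hP
  have hFA := (isFullyCentralized_and_isFullyAutomized hS F hF hP'n).2
  have hpow : γ ^ p ^ k = 1 := by rw [← hk]; exact pow_orderOf_eq_one γ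
  obtain ⟨ψ', hψ', hψ'r, s, hsS, hs⟩ := exists_hom_conj_of_pElement F hconj hFA hγ hpow
  obtain ⟨α, hα, ψ₀, hψ₀, heq⟩ := exists_decomp hS F hF E h P ψ' hψ'
  have hψ₀S : ∀ x, ψ₀ x ∈ S := (E.le_of_mem hψ₀).2
  obtain ⟨t, ht⟩ : ∃ t : S, t = α⁻¹ ⟨s, hsS⟩ := ⟨_, rfl⟩
  have hkey : ∀ y : P, ψ₀ (γ y) = t * ψ₀ y * (t : Ω)⁻¹ := by
    intro y
    have h1 := hs y
    rw [heq (γ y) (hψ₀S _), heq y (hψ₀S _)] at h1
    have h2 : α ⟨ψ₀ (γ y), hψ₀S _⟩ = ⟨s, hsS⟩ * α ⟨ψ₀ y, hψ₀S _⟩ * ⟨s, hsS⟩⁻¹ :=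
      Subtype.ext h1
    have h3 := congrArg (fun u : S => α⁻¹ u) h2
    simp only [map_mul, map_inv, MulAut.inv_apply_self] at h3
    rw [ht]
    exact congrArg (fun u : S => (u : Ω)) h3
  obtain ⟨ρ, hρ, -, hρinv⟩ := exists_inv E hψ₀ rfl
  have hrS : ψ₀.range ≤ S := range_le_of_mem E hψ₀
  have hc : conjHom ψ₀.range (t : Ω) ∈ E.Hom ψ₀.range := E.conj_mem hrS t.2
  obtain ⟨θ₁, hθ₁def⟩ : ∃ θ₁ : P →* Ω, θ₁ = ψ₀.comp γ.toMonoidHom := ⟨_, rfl⟩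
  have hθ₁ : θ₁ ∈ E.Hom P := by
    refine comp_mem' E hψ₀ hc (fun x => ⟨x, rfl⟩) (fun x => ?_)
    rw [hθ₁def]
    exact hkey x
  have hθ₁r : ∀ x, θ₁ x ∈ ψ₀.range := fun x => by
    rw [hθ₁def]
    exact ⟨γ x, rfl⟩
  rw [mem_autGroup_iff E hP]
  refine comp_mem' E hθ₁ hρ hθ₁r (fun x => ?_)
  have h3 : (⟨θ₁ x, hθ₁r x⟩ : ψ₀.range) = ⟨ψ₀ (γ x), ⟨γ x, rfl⟩⟩ := by
    subst hθ₁def
    rfl
  rw [h3]
  exact (hρinv (γ x) ⟨γ x, rfl⟩).symm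

/-- A subsystem over `S` containing the `p`-elements of the automizers of the centric subgroups
has index prime to `p`. -/
theorem main [Finite S] (p : ℕ) [Fact p.Prime] (hS : IsPGroup p S) (F : FusionSystem S)
    (hF : F.IsSaturated p) (E : FusionSystem S) (hEF : E.IsSubsystemOf F)
    (h : ∀ P : Subgroup Ω, F.IsCentric P →
      (Subgroup.closure {α : ↥(F.autGroup P) | ∃ k : ℕ, orderOf α = p ^ k}).map
        (F.autGroup P).subtype ≤ E.autGroup P) :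
    E.HasPrimeToPIndexIn F p ∧
      (∀ (P : Subgroup Ω) (φ : P →* Ω), φ ∈ F.Hom P → ∃ α ∈ F.autGroup S, ∃ φ₀ ∈ E.Hom P,
        ∀ (x : P) (hx : φ₀ x ∈ S), φ x = ((α ⟨φ₀ x, hx⟩ : S) : Ω)) ∧
      ∀ P : Subgroup Ω, E.IsCentric P ↔ F.IsCentric P := by
  have hHP : HP F E p := by
    rintro P hc γ hγ ⟨k, hk⟩
    exact h P hc ⟨⟨γ, hγ⟩, Subgroup.subset_closure
      ⟨k, by rw [Subgroup.orderOf_mk]; exact hk⟩, rfl⟩
  refine ⟨⟨hEF, fun P hP => ?_⟩, exists_decomp hS F hF E hHP, isCentric_iff hS F hF E hEF hHP⟩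
  rw [Subgroup.map_le_iff_le_comap, Subgroup.closure_le]
  rintro γ ⟨k, hk⟩
  exact pElement_mem hS F hF E hHP hP γ.2 (k := k) ((Subgroup.orderOf_coe γ).trans hk)

end Cfsg.Agent.Lib.Helper8.PrimeIdx
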