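import Cfsg.Agent.Lib.Helper8.Abelian2

set_option autoImplicit false

namespace Cfsg.Agent.Lib.Helper8.Rigid

open Cfsg
open Cfsg.Agent.Lib.Helper8.Fusion Cfsg.Agent.Lib.Helper8.GroupFusion Cfsg.Agent.Lib.Helper8.Sat
  Cfsg.Agent.Lib.Helper8.Sat2 Cfsg.Agent.Lib.Helper8.Alperin Cfsg.Agent.Lib.Helper8.Alperin2
  Cfsg.Agent.Lib.Helper8.Abelian2

/-- Averaging over cosets: a crossed homomorphism into a finite abelian group of order prime to
the index of a subgroup on which it vanishes is principal. -/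
theorem crossed_hom_principal {G : Type*} [Group G] [Finite G] (H : Subgroup G) {A : Type*}
    [CommGroup A] [Finite A] (cj : G → (A →* A)) (τ : G → A)
    (hτmul : ∀ g h, τ (g * h) = τ g * cj g (τ h)) (hτH : ∀ t ∈ H, τ t = 1)
    (hcop : (Nat.card A).Coprime H.index) : ∃ b : A, ∀ h : G, τ h = b * (cj h b)⁻¹ := by
  have hτcos : ∀ g, ∀ t ∈ H, τ (g * t) = τ g := by
    intro g t ht
    rw [hτmul, hτH t ht, map_one, mul_one]
  have : Fintype (G ⧸ H) := Fintype.ofFinite _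
  obtain ⟨a, hadef⟩ : ∃ a : A, a = ∏ q : G ⧸ H, τ q.out := ⟨_, rfl⟩
  have hidx : H.index = Fintype.card (G ⧸ H) := by
    rw [Subgroup.index, Nat.card_eq_fintype_card]
  have hkey : ∀ h : G, a = τ h ^ H.index * cj h a := by
    intro h
    have h1 : ∏ q : G ⧸ H, τ (h * q.out) = a := by
      rw [hadef]
      have h2 : ∀ q : G ⧸ H, τ (h * q.out) = τ ((h • q).out) := by
        intro q
        have h3 : h • q = QuotientGroup.mk (h * q.out) := by
          conv_lhs => rw [← QuotientGroup.out_eq' q]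
          rfl
        obtain ⟨t, ht⟩ := QuotientGroup.mk_out_eq_mul H (h * q.out)
        rw [h3, ht, hτcos _ _ t.2]
      rw [Finset.prod_congr rfl (fun q _ => h2 q)]
      exact Fintype.prod_equiv (MulAction.toPerm h) _ _ (fun q => rfl)
    have h4 : ∏ q : G ⧸ H, τ (h * q.out) = τ h ^ H.index * cj h a := by
      rw [Finset.prod_congr rfl (fun q _ => hτmul h q.out), Finset.prod_mul_distrib,
        Finset.prod_const, Finset.card_univ, ← map_prod, ← hadef, hidx]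
    exact h1.symm.trans h4
  obtain ⟨b, hb⟩ : ∃ b : A, b ^ H.index = a :=
    ⟨(powCoprime hcop).symm a, (powCoprime hcop).apply_symm_apply a⟩
  refine ⟨b, fun h => ?_⟩
  apply (powCoprime hcop).injective
  show τ h ^ H.index = (b * (cj h b)⁻¹) ^ H.index
  rw [mul_pow, inv_pow, ← map_pow, hb, eq_mul_inv_iff_mul_eq]
  exact (hkey h).symm

/-- An automorphism of a finite group with self-centralizing `O_p` that fixes a Sylow
`p`-subgroup elementwise is conjugation by an element of `O_p`. -/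
theorem conj_of_fix_sylow {G : Type*} [Group G] [Finite G] {p : ℕ} [Fact p.Prime] (T : Sylow p G)
    (hcent : Subgroup.centralizer ((pCore p G : Subgroup G) : Set G) ≤ pCore p G)
    (ψ : G ≃* G) (hψ : ∀ t ∈ (T : Subgroup G), ψ t = t) :
    ∃ b : G, b ∈ pCore p G ∧ ∀ g : G, ψ g = b * g * b⁻¹ := by
  obtain ⟨O, hOdef⟩ : ∃ O : Subgroup G, O = pCore p G := ⟨_, rfl⟩
  rw [← hOdef] at hcent ⊢
  have hOn : O.Normal := hOdef ▸ pCore_normal' p G
  have hOp : IsPGroup p O := hOdef ▸ pCore_isPGroup' p G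
  have hOT : O ≤ T := hOdef ▸ pCore_le_sylow' T
  have hψO : ∀ x ∈ O, ψ x = x := fun x hx => hψ x (hOT hx)
  have hCn : (Subgroup.centralizer (O : Set G)).Normal := Subgroup.normal_centralizer
  obtain ⟨Z, hZdef⟩ : ∃ Z : Subgroup G, Z = O ⊓ Subgroup.centralizer (O : Set G) := ⟨_, rfl⟩
  have hZO : Z ≤ O := hZdef ▸ inf_le_left
  have hZc : Z ≤ Subgroup.centralizer (O : Set G) := hZdef ▸ inf_le_right
  have hab : ∀ x ∈ Z, ∀ y ∈ Z, x * y = y * x := fun x hx y hy =>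
    Subgroup.mem_centralizer_iff.mp (hZc hy) x (hZO hx)
  have hZn : Z.Normal := hZdef ▸ Subgroup.normal_inf_normal _ _
  have hτmem : ∀ g, ψ g * g⁻¹ ∈ Z := by
    intro g
    have h1 : g⁻¹ * ψ g ∈ Subgroup.centralizer (O : Set G) := by
      rw [Subgroup.mem_centralizer_iff]
      intro x hx
      have h2 : ψ (g * x * g⁻¹) = g * x * g⁻¹ := hψO _ (hOn.conj_mem x hx g)
      rw [map_mul, map_mul, map_inv, hψO x hx] at h2
      calc x * (g⁻¹ * ψ g) = g⁻¹ * (g * x * g⁻¹) * ψ g := by group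
        _ = g⁻¹ * (ψ g * x * (ψ g)⁻¹) * ψ g := by rw [h2]
        _ = g⁻¹ * ψ g * x := by group
    have h3 : ψ g * g⁻¹ = g * (g⁻¹ * ψ g) * g⁻¹ := by group
    have h4 : ψ g * g⁻¹ ∈ Subgroup.centralizer (O : Set G) := by
      rw [h3]
      exact hCn.conj_mem _ h1 g
    rw [hZdef]
    exact ⟨hcent h4, h4⟩
  obtain ⟨τ, hτ⟩ : ∃ τ : G → ↥Z, ∀ g, ((τ g : ↥Z) : G) = ψ g * g⁻¹ :=
    ⟨fun g => ⟨ψ g * g⁻¹, hτmem g⟩, fun g => rfl⟩
  obtain ⟨cj, hcj⟩ : ∃ cj : G → (↥Z →* ↥Z), ∀ g z, ((cj g z : ↥Z) : G) = g * z * g⁻¹ :=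
    ⟨fun g => ((MulAut.conj g).toMonoidHom.comp Z.subtype).codRestrict Z
      (fun z => hZn.conj_mem z z.2 g), fun g z => rfl⟩
  have hτmul : ∀ g h, τ (g * h) = τ g * cj g (τ h) := by
    intro g h
    apply Subtype.ext
    show ((τ (g * h) : ↥Z) : G) = ((τ g : ↥Z) : G) * ((cj g (τ h) : ↥Z) : G)
    rw [hτ, hτ, hcj, hτ, map_mul]
    group
  have hτT : ∀ t ∈ (T : Subgroup G), τ t = 1 := fun t ht => Subtype.ext (by
    show ((τ t : ↥Z) : G) = 1
    rw [hτ, hψ t ht, mul_inv_cancel])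
  have hZp : IsPGroup p ↥Z := hOp.to_le hZO
  have hcop : (Nat.card ↥Z).Coprime (T : Subgroup G).index := by
    obtain ⟨k, hk⟩ := IsPGroup.iff_card.mp hZp
    rw [hk]
    apply Nat.Coprime.pow_left
    rw [Nat.Prime.coprime_iff_not_dvd Fact.out]
    exact T.not_dvd_index
  obtain ⟨b, hb⟩ := @crossed_hom_principal G _ _ (T : Subgroup G) ↥Z (commGroupOfAbelian Z hab) _
    cj τ hτmul hτT hcop
  refine ⟨b, hZO b.2, fun g => ?_⟩
  have h1 : ((τ g : ↥Z) : G) = (b : G) * ((cj g b : ↥Z) : G)⁻¹ :=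
    congrArg Subtype.val (hb g)
  rw [hτ, hcj] at h1
  calc ψ g = (ψ g * g⁻¹) * g := by group
    _ = (b : G) * (g * (b : G) * g⁻¹)⁻¹ * g := by rw [h1]
    _ = b * g * (b : G)⁻¹ := by group

/-- Rigidity of models. -/
theorem model_rigid {Ω : Type*} [Group Ω] {S : Subgroup Ω} [Finite S] (p : ℕ) [Fact p.Prime]
    (F : FusionSystem S) {G : Type*} [Group G] (ι : S →* G) (hG : F.IsModel p G ι) (ψ : G ≃* G)
    (hψ : ∀ x : S, ψ (ι x) = ι x) :
    ∃ z : S, z ∈ Subgroup.center S ∧ ∀ g : G, ψ g = ι z * g * (ι z)⁻¹ := by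
  obtain ⟨hfin, hι, ⟨T, hT⟩, hcent⟩ := hG
  have hψT : ∀ t ∈ (T : Subgroup G), ψ t = t := by
    intro t ht
    rw [hT] at ht
    obtain ⟨s, rfl⟩ := ht
    exact hψ s
  obtain ⟨b, hb, hψb⟩ := conj_of_fix_sylow T hcent ψ hψT
  have hbT : b ∈ ι.range := hT ▸ pCore_le_sylow' T hb
  obtain ⟨z, rfl⟩ := hbT
  refine ⟨z, ?_, hψb⟩
  rw [Subgroup.mem_center_iff]
  intro s
  apply hι.1
  have h1 := hψb (ι s)
  rw [hψ s] at h1
  rw [map_mul, map_mul]
  calc ι s * ι z = (ι z * ι s * (ι z)⁻¹) * ι z := by rw [← h1]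
    _ = ι z * ι s := by group

end Cfsg.Agent.Lib.Helper8.Rigid
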