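import Cfsg.Agent.Lib.Helper8.RootSub

set_option autoImplicit false

namespace Cfsg.Agent.Lib.Helper8.RootLine

open Cfsg
open Cfsg.Agent.Lib.Helper8.RankOne Cfsg.Agent.Lib.Helper8.RootSub
open scoped commutatorElement

variable {G : Type*} [Group G]

theorem commutatorCase_symm {S : Set (Subgroup G)} {A B : Subgroup G}
    (h : RootCommutatorCase S A B) : RootCommutatorCase S B A := by
  obtain ⟨h1, h2, h3, h4⟩ := h
  have e : ⁅B, A⁆ = ⁅A, B⁆ := Subgroup.commutator_comm B A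
  refine ⟨e ▸ h1, ?_, ?_, ?_⟩
  · intro c hc x hx
    rw [e] at hc
    rw [sup_comm] at hx
    exact h2 c hc x hx
  · intro b hb hb1
    rw [e, ← h4 b hb hb1, ← Subgroup.closure_inv]
    congr 1
    ext y
    rw [Set.mem_inv]
    constructor
    · rintro ⟨a, ha, hy⟩
      refine ⟨a, ha, ?_⟩
      have hy' : b * a * b⁻¹ * a⁻¹ = y⁻¹ := hy
      show a * b * a⁻¹ * b⁻¹ = y
      rw [← inv_inv y, ← hy']
      group
    · rintro ⟨a, ha, hy⟩
      refine ⟨a, ha, ?_⟩
      have hy' : a * b * a⁻¹ * b⁻¹ = y := hy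
      show b * a * b⁻¹ * a⁻¹ = y⁻¹
      rw [← hy']
      group
  · intro a ha ha1
    rw [e, ← h3 a ha ha1, ← Subgroup.closure_inv]
    congr 1
    ext y
    rw [Set.mem_inv]
    constructor
    · rintro ⟨b, hb, hy⟩
      refine ⟨b, hb, ?_⟩
      have hy' : b * a * b⁻¹ * a⁻¹ = y⁻¹ := hy
      show a * b * a⁻¹ * b⁻¹ = y
      rw [← inv_inv y, ← hy']
      group
    · rintro ⟨b, hb, hy⟩
      refine ⟨b, hb, ?_⟩
      have hy' : a * b * a⁻¹ * b⁻¹ = y := hy
      show b * a * b⁻¹ * a⁻¹ = y⁻¹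
      rw [← hy']
      group

theorem exists_ne_one_of_ne_bot {A : Subgroup G} (h : A ≠ ⊥) : ∃ a ∈ A, a ≠ 1 := by
  by_contra hcon
  push Not at hcon
  exact h ((Subgroup.eq_bot_iff_forall A).2 hcon)

/-- If `⁅A, B⁆` is a member of `S` then the pair `(A, B)` is in the commutator case. -/
theorem commutatorCase_of_mem {S : Set (Subgroup G)} (hS : IsRootSubgroupSet S)
    {A B : Subgroup G} (hA : A ∈ S) (hB : B ∈ S) (hC : ⁅A, B⁆ ∈ S) :
    RootCommutatorCase S A B := by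
  rcases hS.pair A hA B hB with h | h | h
  · exact absurd h (hS.ne_bot _ hC)
  · exfalso
    obtain ⟨a, ha, ha1⟩ := exists_ne_one_of_ne_bot (hS.ne_bot A hA)
    rcases hS.pair ⁅A, B⁆ hC A hA with h1 | h1 | h1
    · -- the commutator subgroup centralizes `A`, hence `B`
      obtain ⟨x, hx, hBx⟩ := right_mem_unipotent h
      have hnorm : A ⊔ B ≤ Subgroup.normalizer ((⁅A, B⁆ : Subgroup G) : Set G) :=
        sup_le (Subgroup.normalizer_commutator_ge_left A B)
          (Subgroup.normalizer_commutator_ge_right A B)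
      have hCB : ∀ c ∈ ⁅A, B⁆, ∀ b ∈ B, c * b = b * c := by
        intro c hc b hb
        rw [hBx] at hb
        obtain ⟨a', ha', rfl⟩ := hb
        have hc' : x⁻¹ * c * x ∈ ⁅A, B⁆ :=
          ((Subgroup.mem_normalizer_iff'').1 (hnorm hx) c).1 hc
        have h2 : (x⁻¹ * c * x) * a' = a' * (x⁻¹ * c * x) :=
          comm_of_commutator_eq_bot h1 hc' ha'
        show c * (x * a' * x⁻¹) = x * a' * x⁻¹ * c
        calc c * (x * a' * x⁻¹) = x * ((x⁻¹ * c * x) * a') * x⁻¹ := by group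
          _ = x * (a' * (x⁻¹ * c * x)) * x⁻¹ := by rw [h2]
          _ = x * a' * x⁻¹ * c := by group
      refine false_of_commutators_commute h (hS.commutative B hB) ha ha1 (fun b hb b' hb' => ?_)
      have h3 : ⁅a, b⁆ ∈ ⁅A, B⁆ := Subgroup.commutator_mem_commutator ha hb
      rw [commutatorElement_def] at h3
      exact hCB _ h3 b' hb'
    · have h2 : a ∈ A ⊓ Subgroup.normalizer ((⁅A, B⁆ : Subgroup G) : Set G) :=
        ⟨ha, Subgroup.normalizer_commutator_ge_left A B ha⟩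
      rw [inf_normalizer_eq_bot' h1, Subgroup.mem_bot] at h2
      exact ha1 h2
    · exact not_commutatorCase_of_le hS hC hA hB h (Subgroup.commutator_le_sup A B) h1
  · exact h

section CommCase

variable {S : Set (Subgroup G)} {A B : Subgroup G}

theorem inf_commutator_eq_bot (hS : IsRootSubgroupSet S)
    (hA : ¬ IsIsolatedIn (FAdj S) S A) (hAS : A ∈ S) (hcc : RootCommutatorCase S A B) :
    A ⊓ ⁅A, B⁆ = ⊥ := by
  rcases inf_eq_bot_or_eq hS hA hAS ⁅A, B⁆ hcc.1 with h | h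
  · exact h
  · exfalso
    apply hS.ne_bot _ hcc.1
    rw [Subgroup.commutator_eq_bot_iff_le_centralizer]
    intro a ha
    rw [Subgroup.mem_centralizer_iff]
    intro b hb
    exact (hcc.2.1 a (h.le ha) b (Subgroup.mem_sup_right hb)).symm

theorem comm_ne (hS : IsRootSubgroupSet S)
    (hA : ¬ IsIsolatedIn (FAdj S) S A) (hAS : A ∈ S) (hcc : RootCommutatorCase S A B)
    {a b : G} (ha : a ∈ A) (ha1 : a ≠ 1) (hb : b ∈ B) (hb1 : b ≠ 1) : a * b ≠ b * a := by
  intro hab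
  have hmem : a ∈ A ⊓ conjBy A b := by
    refine Subgroup.mem_inf.2 ⟨ha, mem_conjBy.2 ?_⟩
    have : b⁻¹ * a * b = a := by rw [mul_assoc, hab, ← mul_assoc, inv_mul_cancel, one_mul]
    rw [this]
    exact ha
  rcases inf_eq_bot_or_eq hS hA hAS (conjBy A b) (hS.conj_mem A hAS b) with h | h
  · rw [h, Subgroup.mem_bot] at hmem
    exact ha1 hmem
  · have hbot := inf_commutator_eq_bot hS hA hAS hcc
    have hall : ∀ a' ∈ A, a' * b * a'⁻¹ * b⁻¹ = 1 := by
      intro a' ha'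
      have h1 : a' * b * a'⁻¹ * b⁻¹ ∈ A := by
        have h0 : b * a'⁻¹ * b⁻¹ ∈ A := h.ge (conj_mem_conjBy (inv_mem ha'))
        have e : a' * b * a'⁻¹ * b⁻¹ = a' * (b * a'⁻¹ * b⁻¹) := by group
        rw [e]
        exact mul_mem ha' h0
      have h2 : a' * b * a'⁻¹ * b⁻¹ ∈ ⁅A, B⁆ := by
        have := Subgroup.commutator_mem_commutator ha' hb
        rwa [commutatorElement_def] at this
      have h3 : a' * b * a'⁻¹ * b⁻¹ ∈ A ⊓ ⁅A, B⁆ := ⟨h1, h2⟩
      rw [hbot, Subgroup.mem_bot] at h3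
      exact h3
    apply hS.ne_bot _ hcc.1
    rw [← hcc.2.2.2 b hb hb1, Subgroup.closure_eq_bot_iff]
    rintro _ ⟨a', ha', rfl⟩
    exact hall a' ha'

/-- The commutator isomorphism `B ≃ ⁅A, B⁆` attached to a non-identity element of `A`. -/
theorem exists_iso (hS : IsRootSubgroupSet S)
    (hA : ¬ IsIsolatedIn (FAdj S) S A) (hAS : A ∈ S) (hcc : RootCommutatorCase S A B)
    {a : G} (ha : a ∈ A) (ha1 : a ≠ 1) :
    ∃ φ : ↥B ≃* ↥⁅A, B⁆, ∀ b : ↥B, (φ b : G) = a⁻¹ * (b : G)⁻¹ * a * b := by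
  have hmem : ∀ b ∈ B, a⁻¹ * b⁻¹ * a * b ∈ ⁅A, B⁆ := by
    intro b hb
    have := Subgroup.commutator_mem_commutator (inv_mem ha) (inv_mem hb)
    rwa [commutatorElement_def, inv_inv, inv_inv] at this
  have hcent := hcc.2.1
  let ψ : ↥B →* ↥⁅A, B⁆ :=
    { toFun := fun b => ⟨a⁻¹ * (b : G)⁻¹ * a * b, hmem b b.2⟩
      map_one' := by
        apply Subtype.ext
        show a⁻¹ * (1 : G)⁻¹ * a * 1 = 1
        group
      map_mul' := by
        intro b b'
        apply Subtype.ext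
        show a⁻¹ * ((b : G) * b')⁻¹ * a * (b * b')
          = (a⁻¹ * (b : G)⁻¹ * a * b) * (a⁻¹ * (b' : G)⁻¹ * a * b')
        have h1 := hcent _ (hmem b b.2) (b' : G) (Subgroup.mem_sup_right b'.2)
        calc a⁻¹ * ((b : G) * b')⁻¹ * a * (b * b')
            = a⁻¹ * (b' : G)⁻¹ * a * ((a⁻¹ * (b : G)⁻¹ * a * b) * b') := by group
          _ = a⁻¹ * (b' : G)⁻¹ * a * (b' * (a⁻¹ * (b : G)⁻¹ * a * b)) := by rw [h1]
          _ = (a⁻¹ * (b' : G)⁻¹ * a * b') * (a⁻¹ * (b : G)⁻¹ * a * b) := by group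
          _ = (a⁻¹ * (b : G)⁻¹ * a * b) * (a⁻¹ * (b' : G)⁻¹ * a * b') :=
            hcent _ (hmem b' b'.2) _ (Subgroup.commutator_le_sup A B (hmem b b.2)) }
  have hψ : ∀ b : ↥B, (ψ b : G) = a⁻¹ * (b : G)⁻¹ * a * b := fun _ => rfl
  have hinj : Function.Injective ψ := by
    rw [injective_iff_map_eq_one]
    intro b hb
    by_contra hb1
    have h1 : a⁻¹ * (b : G)⁻¹ * a * b = 1 := by rw [← hψ, hb]; rfl
    have h2 : a * (b : G) = b * a := by
      calc a * (b : G) = b * a * (a⁻¹ * (b : G)⁻¹ * a * b) := by group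
        _ = b * a := by rw [h1, mul_one]
    exact comm_ne hS hA hAS hcc ha ha1 b.2 (fun h => hb1 (Subtype.ext h)) h2
  have hsurj : Function.Surjective ψ := by
    intro y
    have hy : (y : G) ∈ ψ.range.map (⁅A, B⁆ : Subgroup G).subtype := by
      have hle : Subgroup.closure ((fun b : G => a⁻¹ * b * a⁻¹⁻¹ * b⁻¹) '' (B : Set G))
          ≤ ψ.range.map (⁅A, B⁆ : Subgroup G).subtype := by
        rw [Subgroup.closure_le]
        rintro _ ⟨b, hb, rfl⟩
        refine ⟨ψ ⟨b⁻¹, inv_mem hb⟩, ⟨_, rfl⟩, ?_⟩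
        show a⁻¹ * (b⁻¹)⁻¹ * a * b⁻¹ = a⁻¹ * b * a⁻¹⁻¹ * b⁻¹
        rw [inv_inv, inv_inv]
      have hy0 : (y : G) ∈ Subgroup.closure
          ((fun b : G => a⁻¹ * b * a⁻¹⁻¹ * b⁻¹) '' (B : Set G)) := by
        rw [hcc.2.2.1 a⁻¹ (inv_mem ha) (inv_ne_one.2 ha1)]
        exact y.2
      exact hle hy0
    obtain ⟨_, ⟨b, rfl⟩, hb⟩ := hy
    exact ⟨b, Subtype.ext hb⟩
  exact ⟨MulEquiv.ofBijective ψ ⟨hinj, hsurj⟩, fun b => rfl⟩

end CommCase

/-- Elements of the join of two elementwise commuting subgroups are products. -/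
theorem mem_sup_of_commute {A C : Subgroup G} (h : ∀ a ∈ A, ∀ c ∈ C, a * c = c * a) {x : G}
    (hx : x ∈ A ⊔ C) : ∃ a ∈ A, ∃ c ∈ C, x = a * c := by
  let K : Subgroup G :=
    { carrier := {x | ∃ a ∈ A, ∃ c ∈ C, x = a * c}
      mul_mem' := by
        rintro _ _ ⟨a, ha, c, hc, rfl⟩ ⟨a', ha', c', hc', rfl⟩
        refine ⟨a * a', mul_mem ha ha', c * c', mul_mem hc hc', ?_⟩
        have := h a' ha' c hc
        calc a * c * (a' * c') = a * (c * a') * c' := by group
          _ = a * (a' * c) * c' := by rw [this]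
          _ = a * a' * (c * c') := by group
      one_mem' := ⟨1, one_mem _, 1, one_mem _, (mul_one 1).symm⟩
      inv_mem' := by
        rintro _ ⟨a, ha, c, hc, rfl⟩
        refine ⟨a⁻¹, inv_mem ha, c⁻¹, inv_mem hc, ?_⟩
        rw [h a ha c hc, mul_inv_rev] }
  have hle : A ⊔ C ≤ K :=
    sup_le (fun a ha => ⟨a, ha, 1, one_mem _, (mul_one a).symm⟩)
      (fun c hc => ⟨1, one_mem _, c, hc, (one_mul c).symm⟩)
  exact hle hx

/-- S5029. -/
theorem line_structure {S : Set (Subgroup G)} (hS : IsRootSubgroupSet S)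
    {A B : Subgroup G} (hA : ¬ IsIsolatedIn (FAdj S) S A) (hAS : A ∈ S) (hB : B ∈ S)
    (hC : ⁅A, B⁆ ∈ S) :
    membersIn S (A ⊔ ⁅A, B⁆) = (fun b : G => conjBy A b) '' (B : Set G) ∪ {⁅A, B⁆} ∧
    IsSubgroupPartition (A ⊔ ⁅A, B⁆) (membersIn S (A ⊔ ⁅A, B⁆)) ∧
    A ∈ linePartners S ⁅A, B⁆ ∧
    ∀ a ∈ A, a ≠ 1 → ∃ φ : ↥B ≃* ↥⁅A, B⁆, ∀ b : ↥B, (φ b : G) = a⁻¹ * (b : G)⁻¹ * a * b := by
  have hcc := commutatorCase_of_mem hS hAS hB hC
  have hbot := inf_commutator_eq_bot hS hA hAS hcc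
  have hAC : ∀ a ∈ A, ∀ c ∈ ⁅A, B⁆, a * c = c * a :=
    fun a ha c hc => (hcc.2.1 c hc a (Subgroup.mem_sup_left ha)).symm
  -- covering
  have hcov : ∀ x ∈ A ⊔ ⁅A, B⁆, x ≠ 1 → x ∈ ⁅A, B⁆ ∨ ∃ b ∈ B, x ∈ conjBy A b := by
    intro x hx hx1
    obtain ⟨a, ha, c, hc, rfl⟩ := mem_sup_of_commute hAC hx
    by_cases ha1 : a = 1
    · left
      rw [ha1, one_mul]
      exact hc
    · right
      obtain ⟨φ, hφ⟩ := exists_iso hS hA hAS hcc ha ha1
      obtain ⟨b', hb'⟩ : ∃ b' : ↥B, (φ b' : G) = c :=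
        ⟨φ.symm ⟨c, hc⟩, by rw [MulEquiv.apply_symm_apply]⟩
      rw [hφ] at hb'
      refine ⟨(b' : G)⁻¹, inv_mem b'.2, ?_⟩
      have h2 : a * c = (b' : G)⁻¹ * a * ((b' : G)⁻¹)⁻¹ := by
        rw [← hb']
        group
      rw [h2]
      exact conj_mem_conjBy ha
  have hconj_le : ∀ b ∈ B, conjBy A b ≤ A ⊔ ⁅A, B⁆ := by
    rintro b hb _ ⟨a, ha, rfl⟩
    show b * a * b⁻¹ ∈ A ⊔ ⁅A, B⁆
    have h1 := Subgroup.commutator_mem_commutator (inv_mem ha) hb
    rw [commutatorElement_def, inv_inv] at h1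
    have e : b * a * b⁻¹ = a * (a⁻¹ * b * a * b⁻¹) := by group
    rw [e]
    exact mul_mem (Subgroup.mem_sup_left ha) (Subgroup.mem_sup_right h1)
  have hconjC : ∀ b ∈ B, conjBy A b ⊓ ⁅A, B⁆ = ⊥ := by
    intro b hb
    rw [eq_bot_iff]
    rintro x ⟨hx1, hx2⟩
    rw [Subgroup.mem_bot]
    have h1 : b⁻¹ * x * b ∈ A := mem_conjBy.1 hx1
    have h2 : x * b = b * x := hcc.2.1 x hx2 b (Subgroup.mem_sup_right hb)
    have h3 : b⁻¹ * x * b = x := by rw [mul_assoc, h2, ← mul_assoc, inv_mul_cancel, one_mul]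
    rw [h3] at h1
    have h4 : x ∈ A ⊓ ⁅A, B⁆ := ⟨h1, hx2⟩
    rwa [hbot, Subgroup.mem_bot] at h4
  have hconj2 : ∀ b ∈ B, ∀ b' ∈ B, conjBy A b ≠ conjBy A b' →
      conjBy A b ⊓ conjBy A b' = ⊥ := by
    intro b hb b' hb' hne
    rcases inf_eq_bot_or_eq hS hA hAS (conjBy A (b⁻¹ * b')) (hS.conj_mem A hAS _) with h | h
    · rw [eq_bot_iff]
      rintro x ⟨hx1, hx2⟩
      rw [Subgroup.mem_bot]
      have h1 : b⁻¹ * x * b ∈ A := mem_conjBy.1 hx1
      have h2 : b⁻¹ * x * b ∈ conjBy A (b⁻¹ * b') := by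
        rw [mem_conjBy]
        have h0 := mem_conjBy.1 hx2
        have e : (b⁻¹ * b')⁻¹ * (b⁻¹ * x * b) * (b⁻¹ * b') = b'⁻¹ * x * b' := by group
        rw [e]
        exact h0
      have h3 : b⁻¹ * x * b ∈ A ⊓ conjBy A (b⁻¹ * b') := ⟨h1, h2⟩
      rw [h, Subgroup.mem_bot] at h3
      calc x = b * (b⁻¹ * x * b) * b⁻¹ := by group
        _ = 1 := by rw [h3]; group
    · exfalso
      apply hne
      have h1 := congrArg (fun X => conjBy X b) h
      simp only [conjBy_conjBy, mul_inv_cancel_left] at h1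
      exact h1
  -- the members of `S` inside `A ⁅A, B⁆`
  have hmemT : ∀ D ∈ S, D ≤ A ⊔ ⁅A, B⁆ → D = ⁅A, B⁆ ∨ ∃ b ∈ B, D = conjBy A b := by
    intro D hDS hDle
    by_cases hex : ∃ b ∈ B, D = conjBy A b
    · exact Or.inr hex
    left
    have hDC : D ≤ ⁅A, B⁆ := by
      intro d hd
      by_cases hd1 : d = 1
      · rw [hd1]
        exact one_mem _
      rcases hcov d (hDle hd) hd1 with h | ⟨b, hb, hdb⟩
      · exact h
      · exfalso
        apply hex
        refine ⟨b, hb, ?_⟩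
        have h1 : b⁻¹ * d * b ∈ A := mem_conjBy.1 hdb
        have h2 : b⁻¹ * d * b ∈ conjBy D b⁻¹ := by
          have := conj_mem_conjBy (g := b⁻¹) hd
          rwa [inv_inv] at this
        rcases inf_eq_bot_or_eq hS hA hAS (conjBy D b⁻¹) (hS.conj_mem D hDS b⁻¹) with h | h
        · exfalso
          have h3 : b⁻¹ * d * b ∈ A ⊓ conjBy D b⁻¹ := ⟨h1, h2⟩
          rw [h, Subgroup.mem_bot] at h3
          apply hd1
          calc d = b * (b⁻¹ * d * b) * b⁻¹ := by group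
            _ = 1 := by rw [h3]; group
        · rw [h, conjBy_conjBy, mul_inv_cancel, conjBy_one]
    obtain ⟨E, hES, hAE⟩ := exists_partner hAS hA
    obtain ⟨d, hd, hd1⟩ := exists_ne_one_of_ne_bot (hS.ne_bot D hDS)
    rcases hS.pair D hDS E hES with h | h | h
    · exfalso
      obtain ⟨a, ha, ha1⟩ := exists_ne_one_of_ne_bot (hS.ne_bot A hAS)
      have hz : d ∈ Subgroup.centralizer ((A ⊔ E : Subgroup G) : Set G) := by
        have hle : A ⊔ E ≤ Subgroup.centralizer ({d} : Set G) := by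
          apply sup_le
          · intro a' ha'
            rw [Subgroup.mem_centralizer_iff]
            intro y hy
            rw [Set.mem_singleton_iff] at hy
            subst hy
            exact (hAC a' ha' y (hDC hd)).symm
          · intro e he
            rw [Subgroup.mem_centralizer_iff]
            intro y hy
            rw [Set.mem_singleton_iff] at hy
            subst hy
            exact comm_of_commutator_eq_bot h hd he
        rw [Subgroup.mem_centralizer_iff]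
        intro y hy
        exact ((Subgroup.mem_centralizer_iff.1 (hle hy)) d rfl).symm
      apply central_mul_not_root hS hAS ⟨hES, hAE⟩ hz hd1 a ha ha1
      have hda : d * a ∈ A ⊔ ⁅A, B⁆ :=
        mul_mem (Subgroup.mem_sup_right (hDC hd)) (Subgroup.mem_sup_left ha)
      have haC : a ∉ ⁅A, B⁆ := by
        intro haC
        have : a ∈ A ⊓ ⁅A, B⁆ := ⟨ha, haC⟩
        rw [hbot, Subgroup.mem_bot] at this
        exact ha1 this
      have hda1 : d * a ≠ 1 := by
        intro h1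
        apply haC
        have : a = d⁻¹ := eq_inv_of_mul_eq_one_right h1
        rw [this]
        exact inv_mem (hDC hd)
      rcases hcov (d * a) hda hda1 with h' | ⟨b, hb, h'⟩
      · exfalso
        apply haC
        have : a = d⁻¹ * (d * a) := by group
        rw [this]
        exact mul_mem (inv_mem (hDC hd)) h'
      · exact ⟨hda1, conjBy A b, hS.conj_mem A hAS b, h'⟩
    · have hDni : ¬ IsIsolatedIn (FAdj S) S D := fun hi => (hi.2 E).1 ⟨hDS, hES, h⟩
      rcases inf_eq_bot_or_eq hS hDni hDS ⁅A, B⁆ hC with h' | h'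
      · exfalso
        rw [inf_eq_left.2 hDC] at h'
        exact hS.ne_bot D hDS h'
      · exact h'
    · rcases hS.pair ⁅A, B⁆ hC E hES with h' | h' | h'
      · exfalso
        apply hS.ne_bot _ h.1
        rw [eq_bot_iff, ← h']
        exact Subgroup.commutator_mono hDC le_rfl
      · exfalso
        exact not_commutatorCase_of_le hS hDS hES hC (RankOnePair_symm h')
          (hDC.trans le_sup_right) h
      · have heq : ⁅D, E⁆ = ⁅⁅A, B⁆, E⁆ := by
          rw [← h.2.2.1 d hd hd1, ← h'.2.2.1 d (hDC hd) hd1]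
        obtain ⟨e, he, he1⟩ := exists_ne_one_of_ne_bot (hS.ne_bot E hES)
        have hEni : ¬ IsIsolatedIn (FAdj S) S E := fun hi => (hi.2 A).2 ⟨hAS, hES, hAE⟩
        obtain ⟨φC, hφC⟩ := exists_iso hS hEni hES (commutatorCase_symm h') he he1
        obtain ⟨φD, hφD⟩ := exists_iso hS hEni hES (commutatorCase_symm h) he he1
        apply le_antisymm hDC
        intro c hc
        have h1 : (φC ⟨c, hc⟩ : G) ∈ ⁅E, D⁆ := by
          rw [Subgroup.commutator_comm E D, heq, Subgroup.commutator_comm ⁅A, B⁆ E]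
          exact (φC ⟨c, hc⟩).2
        obtain ⟨d', hd'⟩ := φD.surjective ⟨_, h1⟩
        have h2 : φC ⟨(d' : G), hDC d'.2⟩ = φC ⟨c, hc⟩ := by
          apply Subtype.ext
          have h3 : (φD d' : G) = (φC ⟨c, hc⟩ : G) := by rw [hd']
          rw [hφD] at h3
          rw [hφC ⟨(d' : G), hDC d'.2⟩]
          exact h3
        have h3 := congrArg Subtype.val (φC.injective h2)
        have h4 : (d' : G) = c := h3
        rw [← h4]
        exact d'.2
  have hpart : IsSubgroupPartition (A ⊔ ⁅A, B⁆) (membersIn S (A ⊔ ⁅A, B⁆)) := by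
    refine ⟨fun D hD => hD.2, ?_, ?_⟩
    · intro x hx hx1
      rcases hcov x hx hx1 with h | ⟨b, hb, h⟩
      · exact ⟨⁅A, B⁆, ⟨hC, le_sup_right⟩, h⟩
      · exact ⟨conjBy A b, ⟨hS.conj_mem A hAS b, hconj_le b hb⟩, h⟩
    · intro D hD D' hD' hne
      rcases hmemT D hD.1 hD.2 with h | ⟨b, hb, h⟩ <;>
        rcases hmemT D' hD'.1 hD'.2 with h' | ⟨b', hb', h'⟩
      · exact absurd (h.trans h'.symm) hne
      · rw [h, h', inf_comm]
        exact hconjC b' hb'
      · rw [h, h']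
        exact hconjC b hb
      · rw [h, h']
        exact hconj2 b hb b' hb' (by rw [← h, ← h']; exact hne)
  refine ⟨?_, hpart, ?_, fun a ha ha1 => exists_iso hS hA hAS hcc ha ha1⟩
  · ext D
    constructor
    · rintro ⟨hDS, hDle⟩
      rcases hmemT D hDS hDle with h | ⟨b, hb, h⟩
      · exact Or.inr h
      · exact Or.inl ⟨b, hb, h.symm⟩
    · rintro (⟨b, hb, rfl⟩ | h)
      · exact ⟨hS.conj_mem A hAS b, hconj_le b hb⟩
      · rw [Set.mem_singleton_iff] at h
        rw [h]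
        exact ⟨hC, le_sup_right⟩
  · refine ⟨⟨hAS, ?_, ?_⟩, ?_⟩
    · intro hAC'
      apply hS.ne_bot A hAS
      have : A ⊓ ⁅A, B⁆ = A := inf_eq_left.2 hAC'.le
      rw [← this, hbot]
    · rw [Subgroup.commutator_eq_bot_iff_le_centralizer]
      intro c hc
      rw [Subgroup.mem_centralizer_iff]
      intro a ha
      exact hAC a ha c hc
    · rw [sup_comm]
      exact hpart

end Cfsg.Agent.Lib.Helper8.RootLine
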