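import Cfsg.Agent.Lib.Helper8.RankOne

set_option autoImplicit false

namespace Cfsg.Agent.Lib.Helper8.RootSub

open Cfsg Cfsg.Agent.Lib.Helper8.RankOne
open scoped commutatorElement

variable {G : Type*} [Group G]

theorem comm_of_isMulCommutative {A : Subgroup G} (h : IsMulCommutative A) {a a' : G}
    (ha : a ∈ A) (ha' : a' ∈ A) : a * a' = a' * a :=
  congrArg Subtype.val (h.is_comm.comm ⟨a, ha⟩ ⟨a', ha'⟩)

theorem conjBy_eq_of_commute {C : Subgroup G} {x : G} (h : ∀ c ∈ C, x * c = c * x) :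
    conjBy C x = C :=
  conjBy_eq_of_mem_normalizer (Subgroup.centralizer_le_normalizer _
    (Subgroup.mem_centralizer_iff.2 (fun c hc => (h c hc).symm)))

theorem comm_of_commutator_eq_bot {A B : Subgroup G} (h : ⁅A, B⁆ = ⊥) {a b : G} (ha : a ∈ A)
    (hb : b ∈ B) : a * b = b * a := by
  have h1 : ⁅a, b⁆ ∈ ⁅A, B⁆ := Subgroup.commutator_mem_commutator ha hb
  rw [h, Subgroup.mem_bot, commutatorElement_def] at h1
  have e : a * b = (a * b * a⁻¹ * b⁻¹) * (b * a) := by group
  rw [e, h1, one_mul]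

/-- A member of `Ω(A, B)` other than `A` does not normalize `A`. -/
theorem not_le_normalizer {A B : Subgroup G} (h : IsRankOnePair A B) {C : Subgroup G}
    (hC : C ∈ unipotentSubgroups A B) (hCA : C ≠ A) :
    ¬ C ≤ Subgroup.normalizer (A : Set G) := by
  intro hle
  rcases unipotent_cases h hC with e | ⟨a, ha, e⟩
  · exact hCA e
  · have hB : B = conjBy C a⁻¹ := by
      rw [e, conjBy_conjBy, inv_mul_cancel, conjBy_one]
    have hBle : B ≤ Subgroup.normalizer (A : Set G) := by
      rw [hB]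
      exact conjBy_le hle (inv_mem (Subgroup.le_normalizer ha))
    obtain ⟨b, hb, hb1⟩ := ne_bot_right h
    have h2 : b ∈ B ⊓ Subgroup.normalizer (A : Set G) := ⟨hb, hBle hb⟩
    rw [inf_normalizer_eq_bot' h, Subgroup.mem_bot] at h2
    exact hb1 h2

/-- If all commutators `⁅x, c⁆`, `c ∈ C`, commute with `C` (abelian), and `x ∈ A` is a
non-identity element for a rank one pair `(A, C)`, we get a contradiction. -/
theorem false_of_commutators_commute {A C : Subgroup G} (h : IsRankOnePair A C)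
    (hCab : IsMulCommutative C) {x : G} (hx : x ∈ A) (hx1 : x ≠ 1)
    (hcomm : ∀ c ∈ C, ∀ c' ∈ C, (x * c * x⁻¹ * c⁻¹) * c' = c' * (x * c * x⁻¹ * c⁻¹)) : False := by
  have hmem : conjBy C x ∈ unipotentSubgroups C A := ⟨x, Subgroup.mem_sup_right hx, rfl⟩
  have hne : conjBy C x ≠ C := by
    intro e
    have h2 : x ∈ A ⊓ Subgroup.normalizer (C : Set G) := ⟨hx, mem_normalizer_of_conjBy_eq e⟩
    rw [inf_normalizer_eq_bot h, Subgroup.mem_bot] at h2
    exact hx1 h2
  apply not_le_normalizer (RankOnePair_symm h) hmem hne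
  rintro _ ⟨c, hc, rfl⟩
  apply Subgroup.centralizer_le_normalizer
  rw [Subgroup.mem_centralizer_iff]
  intro c' hc'
  show c' * (x * c * x⁻¹) = x * c * x⁻¹ * c'
  have hk := hcomm c hc c' hc'
  have hcc := comm_of_isMulCommutative hCab hc' hc
  calc c' * (x * c * x⁻¹) = (c' * (x * c * x⁻¹ * c⁻¹)) * c := by group
    _ = ((x * c * x⁻¹ * c⁻¹) * c') * c := by rw [hk]
    _ = (x * c * x⁻¹ * c⁻¹) * (c' * c) := by group
    _ = (x * c * x⁻¹ * c⁻¹) * (c * c') := by rw [hcc]
    _ = x * c * x⁻¹ * c' := by group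

theorem exists_partner {S : Set (Subgroup G)} {A : Subgroup G} (hAS : A ∈ S)
    (hA : ¬ IsIsolatedIn (FAdj S) S A) : ∃ C ∈ S, IsRankOnePair A C := by
  by_contra hcon
  apply hA
  exact ⟨hAS, fun B => ⟨fun h1 => hcon ⟨B, h1.2.1, h1.2.2⟩,
    fun h2 => hcon ⟨B, h2.1, RankOnePair_symm h2.2.2⟩⟩⟩

/-- S5028 -/
theorem inf_eq_bot_or_eq {S : Set (Subgroup G)} (hS : IsRootSubgroupSet S) {A : Subgroup G}
    (hA : ¬ IsIsolatedIn (FAdj S) S A) (hAS : A ∈ S) : ∀ B ∈ S, A ⊓ B = ⊥ ∨ A = B := by
  intro B hB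
  by_cases hAB : A = B
  · exact Or.inr hAB
  left
  obtain ⟨C, hCS, hAC⟩ := exists_partner hAS hA
  have hAab := hS.commutative A hAS
  have hCab := hS.commutative C hCS
  rw [eq_bot_iff]
  intro x hx
  have hxA : x ∈ A := hx.1
  have hxB : x ∈ B := hx.2
  by_contra hx1
  have hx1' : x ≠ 1 := fun e => hx1 (Subgroup.mem_bot.2 e)
  have hxN : x ∉ Subgroup.normalizer (C : Set G) := by
    intro hN
    have h2 : x ∈ A ⊓ Subgroup.normalizer (C : Set G) := ⟨hxA, hN⟩
    rw [inf_normalizer_eq_bot hAC, Subgroup.mem_bot] at h2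
    exact hx1' h2
  rcases hS.pair B hB C hCS with h1 | h1 | h1
  · apply hxN
    apply Subgroup.centralizer_le_normalizer
    rw [Subgroup.mem_centralizer_iff]
    intro c hc
    exact (comm_of_commutator_eq_bot h1 hxB hc).symm
  · obtain ⟨c₁, hc₁, -, he₁⟩ := h1.cond_left x hxB hx1'
    obtain ⟨c₂, hc₂, -, he₂⟩ := hAC.cond_left x hxA hx1'
    have hBA : B = conjBy A (c₁ * c₂⁻¹) := by
      have h3 : conjBy (conjBy B c₁⁻¹) c₁ = conjBy (conjBy A c₂⁻¹) c₁ := by rw [he₁, he₂]
      rw [conjBy_conjBy, conjBy_conjBy, mul_inv_cancel, conjBy_one] at h3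
      exact h3
    have hBm : B ∈ unipotentSubgroups A C :=
      ⟨c₁ * c₂⁻¹, mul_mem (Subgroup.mem_sup_right hc₁) (inv_mem (Subgroup.mem_sup_right hc₂)),
        hBA⟩
    rcases unipotent_cases hAC hBm with e | ⟨a₀, ha₀, e⟩
    · exact hAB e.symm
    · rw [e, mem_conjBy] at hxB
      have e2 : a₀⁻¹ * x * a₀ = x := by
        rw [mul_assoc, comm_of_isMulCommutative hAab hxA ha₀, ← mul_assoc, inv_mul_cancel,
          one_mul]
      rw [e2] at hxB
      exact hxN (Subgroup.le_normalizer hxB)
  · obtain ⟨hE, hcent, -, -⟩ := h1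
    refine false_of_commutators_commute hAC hCab hxA hx1' (fun c hc c' hc' => ?_)
    have h3 : ⁅x, c⁆ ∈ ⁅B, C⁆ := Subgroup.commutator_mem_commutator hxB hc
    rw [commutatorElement_def] at h3
    exact hcent _ h3 c' (Subgroup.mem_sup_right hc')

theorem comm_of_central_mul {z a b : G} (hz : z * b = b * z) (h : (z * a) * b = b * (z * a)) :
    a * b = b * a := by
  have h1 : z * (a * b) = z * (b * a) := by
    rw [← mul_assoc, h, ← mul_assoc, ← hz, mul_assoc]
  exact mul_left_cancel h1

/-- L1: if `z * a` commutes with `B` and `z` commutes with `B`, then `a = 1`. -/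
theorem L1 {A B : Subgroup G} (hAB : IsRankOnePair A B) {z a : G} (ha : a ∈ A)
    (hzB : ∀ b ∈ B, z * b = b * z) (h : ∀ b ∈ B, (z * a) * b = b * (z * a)) : a = 1 := by
  have h2 : a ∈ A ⊓ Subgroup.normalizer (B : Set G) := by
    refine ⟨ha, Subgroup.centralizer_le_normalizer _ ?_⟩
    rw [Subgroup.mem_centralizer_iff]
    intro b hb
    exact (comm_of_central_mul (hzB b hb) (h b hb)).symm
  rw [inf_normalizer_eq_bot hAB, Subgroup.mem_bot] at h2
  exact h2

/-- L2: if `(C, B)` is a rank one pair, `z * a ∈ C` nonidentity with `a ∈ A` nonidentity and `z`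
commuting with `B`, then `C` is a conjugate of `A` under `⟨A, B⟩`. -/
theorem L2 {A B C : Subgroup G} (hAB : IsRankOnePair A B) (hCB : IsRankOnePair C B) {z a : G}
    (ha : a ∈ A) (ha1 : a ≠ 1) (hc : z * a ∈ C) (hc1 : z * a ≠ 1)
    (hzB : ∀ b ∈ B, z * b = b * z) : C ∈ unipotentSubgroups A B := by
  obtain ⟨b₁, hb₁, -, he₁⟩ := hCB.cond_left (z * a) hc hc1
  obtain ⟨b, hb, -, he⟩ := hAB.cond_left a ha ha1
  have hzinv : ∀ b ∈ B, z⁻¹ * b = b * z⁻¹ := by
    intro b hb
    have h0 := hzB b hb
    calc z⁻¹ * b = z⁻¹ * (b * z) * z⁻¹ := by group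
      _ = z⁻¹ * (z * b) * z⁻¹ := by rw [h0]
      _ = b * z⁻¹ := by group
  have h1 : conjBy B (z * a)⁻¹ = conjBy B a⁻¹ := by
    rw [mul_inv_rev, ← conjBy_conjBy, conjBy_eq_of_commute hzinv]
  rw [h1, ← he] at he₁
  have h3 : conjBy (conjBy C b₁⁻¹) b₁ = conjBy (conjBy A b⁻¹) b₁ := by rw [he₁]
  rw [conjBy_conjBy, conjBy_conjBy, mul_inv_cancel, conjBy_one] at h3
  exact ⟨b₁ * b⁻¹, mul_mem (Subgroup.mem_sup_right hb₁) (inv_mem (Subgroup.mem_sup_right hb)),
    h3⟩

/-- L3: the commutator case for `(C, B)` is impossible when `z * a ∈ C` with `a ∈ A` nonidentity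
and `z` commuting with `a` and `B`. -/
theorem L3 {S : Set (Subgroup G)} {A B C : Subgroup G} (hAB : IsRankOnePair A B)
    (hBab : IsMulCommutative B) (hCB : RootCommutatorCase S C B) {z a : G}
    (ha : a ∈ A) (ha1 : a ≠ 1) (hc : z * a ∈ C) (hza : z * a = a * z)
    (hzB : ∀ b ∈ B, z * b = b * z) : False := by
  obtain ⟨-, hcent, -, -⟩ := hCB
  refine false_of_commutators_commute hAB hBab ha ha1 (fun b hb b' hb' => ?_)
  have h3 : ⁅z * a, b⁆ ∈ ⁅C, B⁆ := Subgroup.commutator_mem_commutator hc hb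
  rw [commutatorElement_def] at h3
  have e : z * a * b * (z * a)⁻¹ * b⁻¹ = a * b * a⁻¹ * b⁻¹ := by
    have hcz : Commute z (a * b * a⁻¹) :=
      ((show Commute z a from hza).mul_right (show Commute z b from hzB b hb)).mul_right
        (show Commute z a from hza).inv_right
    have e1 : z * a * b * (z * a)⁻¹ = z * (a * b * a⁻¹) * z⁻¹ := by group
    rw [e1, hcz.eq, mul_inv_cancel_right]
  rw [e] at h3
  exact hcent _ h3 b' (Subgroup.mem_sup_right hb')

/-- S5027 -/
theorem second_center_eq {S : Set (Subgroup G)} (hS : IsRootSubgroupSet S)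
    (hF : ∀ A ∈ S, ¬ IsIsolatedIn (FAdj S) S A) :
    Subgroup.upperCentralSeries G 2 = Subgroup.center G := by
  have hz : ∀ n ∈ Subgroup.upperCentralSeries G 2, ∀ x : G,
      n * x * n⁻¹ * x⁻¹ ∈ Subgroup.center G := by
    intro n hn x
    rw [← Subgroup.upperCentralSeries_one]
    exact (Subgroup.mem_upperCentralSeries_succ_iff.1 hn) x
  have hcomm : ∀ z ∈ Subgroup.center G, ∀ x : G, z * x = x * z := by
    intro z hz x
    exact ((Subgroup.mem_center_iff.1 hz) x).symm
  have hnorm : ∀ n ∈ Subgroup.upperCentralSeries G 2, ∀ A ∈ S, conjBy A n = A := by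
    intro n hn A hAS
    by_contra hne
    obtain ⟨B, hBS, hAB⟩ := exists_partner hAS (hF A hAS)
    have hBab := hS.commutative B hBS
    have hCS : conjBy A n ∈ S := hS.conj_mem A hAS n
    have hCle : conjBy A n ≤ Subgroup.normalizer (A : Set G) := by
      rintro _ ⟨a, ha, rfl⟩
      show n * a * n⁻¹ ∈ _
      have e1 : n * a * n⁻¹ = (n * a * n⁻¹ * a⁻¹) * a := by group
      rw [e1]
      exact mul_mem (Subgroup.center_le_normalizer _ (hz n hn a)) (Subgroup.le_normalizer ha)
    obtain ⟨a, ha, ha1⟩ := ne_bot_left hAB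
    have hzc := hz n hn a
    have e1 : (n * a * n⁻¹ * a⁻¹) * a = n * a * n⁻¹ := by group
    have hc : (n * a * n⁻¹ * a⁻¹) * a ∈ conjBy A n := by
      rw [e1]
      exact conj_mem_conjBy ha
    have hc1 : (n * a * n⁻¹ * a⁻¹) * a ≠ 1 := by
      rw [e1]
      intro e
      apply ha1
      have e2 : a = n⁻¹ * (n * a * n⁻¹) * n := by group
      rw [e2, e]
      group
    rcases hS.pair _ hCS B hBS with h1 | h1 | h1
    · exact ha1 (L1 hAB ha (fun b _ => hcomm _ hzc b)
        (fun b hb => comm_of_commutator_eq_bot h1 hc hb))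
    · exact not_le_normalizer hAB (L2 hAB h1 ha ha1 hc hc1 (fun b _ => hcomm _ hzc b)) hne hCle
    · exact L3 hAB hBab h1 ha ha1 hc (hcomm _ hzc a) (fun b _ => hcomm _ hzc b)
  apply le_antisymm
  · intro n hn
    have hle : (⨆ A ∈ S, A) ≤ Subgroup.centralizer {n} := by
      refine iSup₂_le (fun A hAS => ?_)
      intro a ha
      rw [Subgroup.mem_centralizer_iff]
      intro m hm
      rw [Set.mem_singleton_iff.1 hm]
      obtain ⟨B, hBS, hAB⟩ := exists_partner hAS (hF A hAS)
      have h1 : n * a * n⁻¹ * a⁻¹ ∈ A := by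
        have h0 : n * a * n⁻¹ ∈ conjBy A n := conj_mem_conjBy ha
        rw [hnorm n hn A hAS] at h0
        exact A.mul_mem h0 (A.inv_mem ha)
      have h4 : n * a * n⁻¹ * a⁻¹ ∈ A ⊓ Subgroup.normalizer (B : Set G) :=
        ⟨h1, Subgroup.center_le_normalizer _ (hz n hn a)⟩
      rw [inf_normalizer_eq_bot hAB, Subgroup.mem_bot] at h4
      have e : n * a = (n * a * n⁻¹ * a⁻¹) * (a * n) := by group
      rw [e, h4, one_mul]
    rw [hS.generates] at hle
    rw [Subgroup.mem_center_iff]
    intro g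
    exact (Subgroup.mem_centralizer_iff.1 (hle (Subgroup.mem_top g)) n rfl).symm
  · rw [← Subgroup.upperCentralSeries_one]
    exact Subgroup.upperCentralSeries_mono G (by norm_num)

/-- S5025 -/
theorem central_mul_not_root {S : Set (Subgroup G)} (hS : IsRootSubgroupSet S)
    {A B : Subgroup G} (hA : A ∈ S) (hB : B ∈ rankOnePartners S A) {z : G}
    (hz : z ∈ Subgroup.centralizer ((A ⊔ B : Subgroup G) : Set G)) (hz1 : z ≠ 1) :
    ∀ a ∈ A, a ≠ 1 → z * a ∉ rootElements S := by
  intro a ha ha1 hmem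
  obtain ⟨hc1, C, hCS, hc⟩ := hmem
  obtain ⟨hBS, hAB⟩ := hB
  have hAab := hS.commutative A hA
  have hBab := hS.commutative B hBS
  have hzc : ∀ y ∈ A ⊔ B, z * y = y * z := by
    intro y hy
    exact ((Subgroup.mem_centralizer_iff.1 hz) y hy).symm
  have hzA : ∀ a' ∈ A, z * a' = a' * z := fun a' ha' => hzc a' (Subgroup.mem_sup_left ha')
  have hzB : ∀ b ∈ B, z * b = b * z := fun b hb => hzc b (Subgroup.mem_sup_right hb)
  have hcA : ∀ a' ∈ A, (z * a) * a' = a' * (z * a) := by
    intro a' ha'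
    rw [mul_assoc, comm_of_isMulCommutative hAab ha ha', ← mul_assoc, hzA a' ha', mul_assoc]
  -- Step 1: C centralizes A
  have hCA : ∀ c' ∈ C, ∀ a' ∈ A, c' * a' = a' * c' := by
    rcases hS.pair C hCS A hA with h1 | h1 | h1
    · intro c' hc' a' ha'
      exact comm_of_commutator_eq_bot h1 hc' ha'
    · exfalso
      have h2 : z * a ∈ C ⊓ Subgroup.normalizer (A : Set G) := by
        refine ⟨hc, Subgroup.centralizer_le_normalizer _ ?_⟩
        rw [Subgroup.mem_centralizer_iff]
        intro a' ha'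
        exact (hcA a' ha').symm
      rw [inf_normalizer_eq_bot h1, Subgroup.mem_bot] at h2
      exact hc1 h2
    · exfalso
      obtain ⟨hE, -, hgen1, -⟩ := h1
      have h2 := hgen1 (z * a) hc hc1
      have h3 : Subgroup.closure ((fun a' : G => z * a * a' * (z * a)⁻¹ * a'⁻¹) '' (A : Set G)) = ⊥ := by
        rw [eq_bot_iff, Subgroup.closure_le]
        rintro _ ⟨a', ha', rfl⟩
        show z * a * a' * (z * a)⁻¹ * a'⁻¹ ∈ (⊥ : Subgroup G)
        rw [Subgroup.mem_bot, hcA a' ha']
        group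
      rw [h3] at h2
      exact hS.ne_bot _ hE h2.symm
  have hCle : C ≤ Subgroup.normalizer (A : Set G) := by
    intro c' hc'
    apply Subgroup.centralizer_le_normalizer
    rw [Subgroup.mem_centralizer_iff]
    intro a' ha'
    exact (hCA c' hc' a' ha').symm
  rcases hS.pair C hCS B hBS with h1 | h1 | h1
  · exact ha1 (L1 hAB ha hzB (fun b hb => comm_of_commutator_eq_bot h1 hc hb))
  · have hm := L2 hAB h1 ha ha1 hc hc1 hzB
    by_cases hCeq : C = A
    · rw [hCeq] at hc
      have hzA' : z ∈ A := by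
        have h0 := A.mul_mem hc (A.inv_mem ha)
        rwa [mul_inv_cancel_right] at h0
      have h2 : z ∈ A ⊓ Subgroup.normalizer (B : Set G) := by
        refine ⟨hzA', Subgroup.centralizer_le_normalizer _ ?_⟩
        rw [Subgroup.mem_centralizer_iff]
        intro b hb
        exact (hzB b hb).symm
      rw [inf_normalizer_eq_bot hAB, Subgroup.mem_bot] at h2
      exact hz1 h2
    · exact not_le_normalizer hAB hm hCeq hCle
  · exact L3 hAB hBab h1 ha ha1 hc (hzA a ha) hzB

theorem le_centralizer_zpowers_iff {E : Subgroup G} {x : G} :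
    E ≤ Subgroup.centralizer ((Subgroup.zpowers x : Subgroup G) : Set G) ↔
      ∀ e ∈ E, e * x = x * e := by
  constructor
  · intro h e he
    exact ((Subgroup.mem_centralizer_iff.1 (h he)) x (Subgroup.mem_zpowers x)).symm
  · intro h e he
    rw [Subgroup.mem_centralizer_iff]
    rintro _ ⟨k, rfl⟩
    exact ((show Commute e x from h e he).zpow_right k).eq.symm

/-- S5026 -/
theorem centralizing_mul {S : Set (Subgroup G)} (hS : IsRootSubgroupSet S)
    (hdeg : IsDegenerateRootSet S) {a b : G} (ha : a ∈ rootElements S) (hb : b ∈ rootElements S)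
    (hab : a * b = b * a) (hab1 : a * b ≠ 1) :
    centralizingMembers S (Subgroup.zpowers (a * b)) =
      centralizingMembers S (Subgroup.zpowers a) ∩ centralizingMembers S (Subgroup.zpowers b) := by
  obtain ⟨ha1, A, hAS, haA⟩ := ha
  obtain ⟨hb1, B, hBS, hbB⟩ := hb
  ext E
  constructor
  · rintro ⟨hES, hE⟩
    rw [le_centralizer_zpowers_iff] at hE
    have hEa : ∀ e ∈ E, e * a = a * e := by
      rcases hS.pair E hES A hAS with h1 | hEA | h1
      · intro e he
        exact comm_of_commutator_eq_bot h1 he haA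
      · rcases hS.pair E hES B hBS with h2 | hEB | h2
        · intro e he
          have h3 := comm_of_commutator_eq_bot h2 he hbB
          have h4 := hE e he
          -- e * a * b = a * b * e = a * e * b
          have h5 : e * a * b = a * e * b := by
            rw [mul_assoc, h4, mul_assoc, ← h3, ← mul_assoc]
          exact mul_right_cancel h5
        · exfalso
          have hEab := hS.commutative E hES
          have hBab := hS.commutative B hBS
          have h3 : conjBy E (a * b) = E :=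
            conjBy_eq_of_commute (fun e he => (hE e he).symm)
          have h4 : conjBy E b = conjBy E a⁻¹ := by
            have h0 : conjBy (conjBy E (a * b)) a⁻¹ = conjBy E a⁻¹ := by rw [h3]
            rw [conjBy_conjBy, inv_mul_cancel_left] at h0
            exact h0
          obtain ⟨e₁, he₁, -, hc₁⟩ := hEA.cond_right a haA ha1
          have hb1' : b⁻¹ ≠ 1 := fun e => hb1 (inv_eq_one.1 e)
          obtain ⟨e₂, he₂, -, hc₂⟩ := hEB.cond_right b⁻¹ (B.inv_mem hbB) hb1'
          rw [inv_inv] at hc₂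
          have hBA : B = conjBy A (e₂ * e₁⁻¹) := by
            have h0 : conjBy (conjBy B e₂⁻¹) e₂ = conjBy (conjBy A e₁⁻¹) e₂ := by
              rw [hc₂, hc₁, h4]
            rw [conjBy_conjBy, conjBy_conjBy, mul_inv_cancel, conjBy_one] at h0
            exact h0
          have hBm : B ∈ unipotentSubgroups A E :=
            ⟨e₂ * e₁⁻¹, mul_mem (Subgroup.mem_sup_right he₂)
              (inv_mem (Subgroup.mem_sup_right he₁)), hBA⟩
          by_cases hBeq : B = A
          · have h5 : a * b ∈ A ⊓ Subgroup.normalizer (E : Set G) := by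
              refine ⟨A.mul_mem haA (hBeq ▸ hbB), mem_normalizer_of_conjBy_eq h3⟩
            rw [inf_normalizer_eq_bot (RankOnePair_symm hEA), Subgroup.mem_bot] at h5
            exact hab1 h5
          · rcases hS.pair A hAS B hBS with h6 | hAB | h6
            · apply not_le_normalizer (RankOnePair_symm hEA) hBm hBeq
              intro b' hb'
              apply Subgroup.centralizer_le_normalizer
              rw [Subgroup.mem_centralizer_iff]
              intro a' ha'
              exact comm_of_commutator_eq_bot h6 ha' hb'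
            · obtain ⟨b', hb', -, hc⟩ := hAB.cond_left a haA ha1
              have h7 : conjBy (conjBy A b'⁻¹) b = conjBy (conjBy B a⁻¹) b := by rw [hc]
              rw [conjBy_conjBy, conjBy_conjBy] at h7
              have e1 : b * b'⁻¹ = b'⁻¹ * b :=
                comm_of_isMulCommutative hBab hbB (B.inv_mem hb')
              have e2 : b * a⁻¹ = a⁻¹ * b := by
                calc b * a⁻¹ = a⁻¹ * (a * b) * a⁻¹ := by group
                  _ = a⁻¹ * (b * a) * a⁻¹ := by rw [hab]
                  _ = a⁻¹ * b := by group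
              rw [e1, e2, ← conjBy_conjBy, ← conjBy_conjBy B, conjBy_of_mem hbB, ← hc] at h7
              have h8 : conjBy A b = A := by
                have h0 : conjBy (conjBy (conjBy A b) b'⁻¹) b' = conjBy (conjBy A b'⁻¹) b' := by
                  rw [h7]
                rw [conjBy_conjBy (conjBy A b), mul_inv_cancel, conjBy_one, conjBy_conjBy A,
                  mul_inv_cancel, conjBy_one] at h0
                exact h0
              have h9 : b ∈ B ⊓ Subgroup.normalizer (A : Set G) :=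
                ⟨hbB, mem_normalizer_of_conjBy_eq h8⟩
              rw [inf_normalizer_eq_bot' hAB, Subgroup.mem_bot] at h9
              exact hb1 h9
            · exact hdeg A hAS B hBS h6
        · exact absurd h2 (hdeg E hES B hBS)
      · exact absurd h1 (hdeg E hES A hAS)
    have hEb : ∀ e ∈ E, e * b = b * e := by
      intro e he
      have h4 := hE e he
      have h3 := hEa e he
      have h5 : a * (e * b) = a * (b * e) := by
        rw [← mul_assoc, ← h3, mul_assoc, h4, mul_assoc]
      exact mul_left_cancel h5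
    exact ⟨⟨hES, le_centralizer_zpowers_iff.2 hEa⟩, ⟨hES, le_centralizer_zpowers_iff.2 hEb⟩⟩
  · rintro ⟨⟨hES, hEa⟩, ⟨-, hEb⟩⟩
    rw [le_centralizer_zpowers_iff] at hEa hEb
    refine ⟨hES, le_centralizer_zpowers_iff.2 (fun e he => ?_)⟩
    rw [← mul_assoc, hEa e he, mul_assoc, hEb e he, mul_assoc]

theorem unipotent_symm {A B : Subgroup G} (h : IsRankOnePair A B) :
    unipotentSubgroups B A = unipotentSubgroups A B := by
  have key : ∀ {A B : Subgroup G}, IsRankOnePair A B →
      unipotentSubgroups B A ⊆ unipotentSubgroups A B := by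
    intro A B h E hE
    obtain ⟨x, hx, rfl⟩ := hE
    obtain ⟨y, hy, hB⟩ := right_mem_unipotent h
    rw [sup_comm] at hx
    refine ⟨x * y, mul_mem hx hy, ?_⟩
    rw [← conjBy_conjBy, ← hB]
  exact Set.Subset.antisymm (key h) (key (RankOnePair_symm h))

theorem right_mem_unipotent' {A B : Subgroup G} (h : IsRankOnePair A B) :
    B ∈ unipotentSubgroups A B := by
  have h1 := conjBy_right_mem h A.one_mem
  rwa [conjBy_one] at h1

theorem not_commutatorCase_of_le {S : Set (Subgroup G)} (hS : IsRootSubgroupSet S)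
    {A C D : Subgroup G} (hA : A ∈ S) (hC : C ∈ S) (hD : D ∈ S) (hCD : IsRankOnePair C D)
    (hle : A ≤ C ⊔ D) : ¬ RootCommutatorCase S A C := by
  rintro ⟨hE, hcent, -, -⟩
  have hCab := hS.commutative C hC
  have hnorm : ∀ a ∈ A, conjBy C a = C := by
    intro a ha
    by_contra hne
    have hmem : conjBy C a ∈ unipotentSubgroups C D := ⟨a, hle ha, rfl⟩
    apply not_le_normalizer hCD hmem hne
    rintro _ ⟨c, hc, rfl⟩
    apply Subgroup.centralizer_le_normalizer
    rw [Subgroup.mem_centralizer_iff]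
    intro c' hc'
    show c' * (a * c * a⁻¹) = a * c * a⁻¹ * c'
    have h3 : ⁅a, c⁆ ∈ ⁅A, C⁆ := Subgroup.commutator_mem_commutator ha hc
    rw [commutatorElement_def] at h3
    have hk := hcent _ h3 c' (Subgroup.mem_sup_right hc')
    have hcc := comm_of_isMulCommutative hCab hc' hc
    calc c' * (a * c * a⁻¹) = (c' * (a * c * a⁻¹ * c⁻¹)) * c := by group
      _ = ((a * c * a⁻¹ * c⁻¹) * c') * c := by rw [hk]
      _ = (a * c * a⁻¹ * c⁻¹) * (c' * c) := by group
      _ = (a * c * a⁻¹ * c⁻¹) * (c * c') := by rw [hcc]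
      _ = a * c * a⁻¹ * c' := by group
  have hle2 : ⁅A, C⁆ ≤ C := by
    rw [Subgroup.commutator_le]
    intro a ha c hc
    rw [commutatorElement_def]
    have h0 : a * c * a⁻¹ ∈ conjBy C a := conj_mem_conjBy hc
    rw [hnorm a ha] at h0
    exact C.mul_mem h0 (C.inv_mem hc)
  have hCni : ¬ IsIsolatedIn (FAdj S) S C := fun hiso => (hiso.2 D).1 ⟨hC, hD, hCD⟩
  rcases inf_eq_bot_or_eq hS hCni hC _ hE with h1 | h1
  · rw [inf_eq_right.2 hle2] at h1
    exact hS.ne_bot _ hE h1
  · have h2 : ⁅A, C⁆ = ⊥ := by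
      rw [Subgroup.commutator_eq_bot_iff_le_centralizer]
      intro a ha
      rw [Subgroup.mem_centralizer_iff]
      intro c hc
      have hc' : c ∈ ⁅A, C⁆ := by
        rw [← h1]
        exact hc
      exact hcent c hc' a (Subgroup.mem_sup_left ha)
    exact hS.ne_bot _ hE h2

/-- S5024 -/
theorem rank_one_le {S : Set (Subgroup G)} (hS : IsRootSubgroupSet S) {A B C D : Subgroup G}
    (hA : A ∈ S) (hC : C ∈ S) (hB : B ∈ rankOnePartners S A) (hD : D ∈ rankOnePartners S C)
    (hle : A ⊔ B ≤ C ⊔ D) :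
    A ⊔ B = C ⊔ D ∧ C ∈ unipotentSubgroups A B ∧ D ∈ unipotentSubgroups A B := by
  obtain ⟨hBS, hAB⟩ := hB
  obtain ⟨hDS, hCD⟩ := hD
  have claim : ∀ {A B : Subgroup G}, A ∈ S → IsRankOnePair A B → A ⊔ B ≤ C ⊔ D →
      A ∈ unipotentSubgroups C D := by
    intro A B hA hAB hle
    have hAle : A ≤ C ⊔ D := le_sup_left.trans hle
    have hBle : B ≤ C ⊔ D := le_sup_right.trans hle
    obtain ⟨a, ha, ha1⟩ := ne_bot_left hAB
    rcases hS.pair A hA C hC with h1 | h1 | h1
    · rcases hS.pair A hA D hDS with h2 | h2 | h2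
      · exfalso
        have hcen : C ⊔ D ≤ Subgroup.centralizer {a} := sup_le
          (fun c hc => Subgroup.mem_centralizer_iff.2 (fun m hm => by
            rw [Set.mem_singleton_iff.1 hm]
            exact comm_of_commutator_eq_bot h1 ha hc))
          (fun d hd => Subgroup.mem_centralizer_iff.2 (fun m hm => by
            rw [Set.mem_singleton_iff.1 hm]
            exact comm_of_commutator_eq_bot h2 ha hd))
        have h3 : a ∈ A ⊓ Subgroup.normalizer (B : Set G) := by
          refine ⟨ha, Subgroup.centralizer_le_normalizer _ ?_⟩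
          rw [Subgroup.mem_centralizer_iff]
          intro b hb
          exact (Subgroup.mem_centralizer_iff.1 (hcen (hBle hb)) a rfl).symm
        rw [inf_normalizer_eq_bot hAB, Subgroup.mem_bot] at h3
        exact ha1 h3
      · obtain ⟨d, hd, -, he⟩ := h2.cond_left a ha ha1
        have hAeq : A = conjBy D (d * a⁻¹) := by
          have h0 : conjBy (conjBy A d⁻¹) d = conjBy (conjBy D a⁻¹) d := by rw [he]
          rw [conjBy_conjBy, conjBy_conjBy, mul_inv_cancel, conjBy_one] at h0
          exact h0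
        rw [← unipotent_symm hCD]
        exact ⟨d * a⁻¹, mul_mem (Subgroup.mem_sup_left hd)
          (inv_mem (by rw [sup_comm]; exact hAle ha)), hAeq⟩
      · exact absurd h2 (not_commutatorCase_of_le hS hA hDS hC (RankOnePair_symm hCD)
          (by rw [sup_comm]; exact hAle))
    · obtain ⟨c, hc, -, he⟩ := h1.cond_left a ha ha1
      have hAeq : A = conjBy C (c * a⁻¹) := by
        have h0 : conjBy (conjBy A c⁻¹) c = conjBy (conjBy C a⁻¹) c := by rw [he]
        rw [conjBy_conjBy, conjBy_conjBy, mul_inv_cancel, conjBy_one] at h0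
        exact h0
      exact ⟨c * a⁻¹, mul_mem (Subgroup.mem_sup_left hc) (inv_mem (hAle ha)), hAeq⟩
    · exact absurd h1 (not_commutatorCase_of_le hS hA hC hDS hCD hAle)
  have hAm := claim hA hAB hle
  have hBm := claim hBS (RankOnePair_symm hAB) (by rw [sup_comm]; exact hle)
  obtain ⟨x, hx, hxA, hxB⟩ := (doubly_transitive hCD).2.1 C left_mem_unipotent D
    (right_mem_unipotent' hCD) A hAm B hBm hCD.ne hAB.ne
  have heq : A ⊔ B = C ⊔ D := by
    have h0 : conjBy (C ⊔ D) x = conjBy C x ⊔ conjBy D x := Subgroup.map_sup _ _ _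
    rw [← hxA, ← hxB, ← h0]
    exact conjBy_of_mem hx
  refine ⟨heq, ⟨x⁻¹, by rw [heq]; exact inv_mem hx, ?_⟩, ?_⟩
  · rw [← hxA, conjBy_conjBy, inv_mul_cancel, conjBy_one]
  · obtain ⟨y, hy, hBy⟩ := right_mem_unipotent hAB
    refine ⟨x⁻¹ * y, mul_mem (by rw [heq]; exact inv_mem hx) hy, ?_⟩
    have h1 : conjBy A (x⁻¹ * y) = conjBy B x⁻¹ := by
      rw [← conjBy_conjBy, ← hBy]
    rw [h1, ← hxB, conjBy_conjBy, inv_mul_cancel, conjBy_one]

theorem map_conjBy {H : Type*} [Group H] (f : G →* H) (A : Subgroup G) (g : G) :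
    (conjBy A g).map f = conjBy (A.map f) (f g) := by
  ext y
  constructor
  · rintro ⟨_, ⟨a, ha, rfl⟩, rfl⟩
    refine ⟨f a, ⟨a, ha, rfl⟩, ?_⟩
    show f g * f a * (f g)⁻¹ = f (g * a * g⁻¹)
    rw [map_mul, map_mul, map_inv]
  · rintro ⟨_, ⟨a, ha, rfl⟩, rfl⟩
    refine ⟨g * a * g⁻¹, ⟨a, ha, rfl⟩, ?_⟩
    show f (g * a * g⁻¹) = f g * f a * (f g)⁻¹
    rw [map_mul, map_mul, map_inv]

theorem map_eq_of_ker {H : Type*} [Group H] (f : G →* H) {A B : Subgroup G}
    (h : IsRankOnePair A B) {b : G} (hb : b ∈ B) (hb1 : b ≠ 1) (hfb : f b = 1) :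
    A.map f = B.map f := by
  have hne : conjBy A b ≠ A := by
    intro e
    have h2 : b ∈ B ⊓ Subgroup.normalizer (A : Set G) := ⟨hb, mem_normalizer_of_conjBy_eq e⟩
    rw [inf_normalizer_eq_bot' h, Subgroup.mem_bot] at h2
    exact hb1 h2
  have hmem : conjBy A b ∈ unipotentSubgroups A B := ⟨b, Subgroup.mem_sup_right hb, rfl⟩
  rcases unipotent_cases h hmem with e | ⟨a₁, ha₁, e⟩
  · exact absurd e hne
  · have h1 := congrArg (Subgroup.map f) e
    rw [map_conjBy, map_conjBy, hfb, conjBy_one] at h1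
    have h2 : conjBy (A.map f) (f a₁)⁻¹ = A.map f :=
      conjBy_of_mem (inv_mem (Subgroup.mem_map_of_mem f ha₁))
    have h3 : conjBy (A.map f) (f a₁)⁻¹ = B.map f := by
      rw [h1, conjBy_conjBy, inv_mul_cancel, conjBy_one]
    exact h2.symm.trans h3

/-- S5035 -/
theorem image_rootSet {H : Type*} [Group H] {S : Set (Subgroup G)} (hS : IsRootSubgroupSet S)
    (hc : IsConnectedFamily (FAdj S) S) (f : G →* H) (hf : Function.Surjective f) :
    (IsRootSubgroupSet ((fun A : Subgroup G => A.map f) '' S) ∧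
      IsConnectedFamily (FAdj ((fun A : Subgroup G => A.map f) '' S))
        ((fun A : Subgroup G => A.map f) '' S)) ∨
    ∃ A ∈ S, A.map f = ⊤ := by
  by_cases hex : ∃ A ∈ S, A.map f = ⊤
  · exact Or.inr hex
  left
  push Not at hex
  have hpair : ∀ A ∈ S, ∀ B ∈ S, IsRankOnePair A B →
      A.map f = B.map f ∨ IsRankOnePair (A.map f) (B.map f) := by
    intro A hA B hB hAB
    by_cases heq : A.map f = B.map f
    · exact Or.inl heq
    right
    refine ⟨heq, ?_, ?_, ?_, ?_⟩
    · have := hAB.nilpotent_left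
      exact Group.nilpotent_of_surjective (f.subgroupMap A) (f.subgroupMap_surjective A)
    · have := hAB.nilpotent_right
      exact Group.nilpotent_of_surjective (f.subgroupMap B) (f.subgroupMap_surjective B)
    · rintro _ ⟨a, ha, rfl⟩ ha1
      have ha1' : a ≠ 1 := fun e => ha1 (by rw [e, map_one])
      obtain ⟨b, hb, hb1, he⟩ := hAB.cond_left a ha ha1'
      refine ⟨f b, Subgroup.mem_map_of_mem f hb, ?_, ?_⟩
      · intro hfb
        exact heq (map_eq_of_ker f hAB hb hb1 hfb)
      · have h1 := congrArg (Subgroup.map f) he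
        rw [map_conjBy, map_conjBy, map_inv, map_inv] at h1
        exact h1
    · rintro _ ⟨b, hb, rfl⟩ hb1
      have hb1' : b ≠ 1 := fun e => hb1 (by rw [e, map_one])
      obtain ⟨a, ha, ha1, he⟩ := hAB.cond_right b hb hb1'
      refine ⟨f a, Subgroup.mem_map_of_mem f ha, ?_, ?_⟩
      · intro hfa
        exact heq (map_eq_of_ker f (RankOnePair_symm hAB) ha ha1 hfa).symm
      · have h1 := congrArg (Subgroup.map f) he
        rw [map_conjBy, map_conjBy, map_inv, map_inv] at h1
        exact h1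
  constructor
  · refine ⟨?_, ?_, ?_, ?_, ?_⟩
    · rintro _ ⟨A, hA, rfl⟩
      have hAab := hS.commutative A hA
      refine ⟨⟨?_⟩⟩
      rintro ⟨_, ⟨a, ha, rfl⟩⟩ ⟨_, ⟨a', ha', rfl⟩⟩
      apply Subtype.ext
      show f a * f a' = f a' * f a
      rw [← map_mul, ← map_mul, comm_of_isMulCommutative hAab ha ha']
    · rintro _ ⟨A, hA, rfl⟩ hbot
      have hAk : A ≤ f.ker := (Subgroup.map_eq_bot_iff A).1 hbot
      have hall : ∀ B : Subgroup G, Relation.ReflTransGen (FAdj S) A B → B ≤ f.ker := by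
        intro B hpath
        induction hpath with
        | refl => exact hAk
        | tail _ hstep ih =>
          obtain ⟨-, -, hbc⟩ := hstep
          obtain ⟨x, -, hx⟩ := right_mem_unipotent hbc
          rw [hx]
          rintro _ ⟨y, hy, rfl⟩
          exact f.normal_ker.conj_mem y (ih hy) x
      have htop : (⊤ : Subgroup G) ≤ f.ker := by
        rw [← hS.generates]
        exact iSup₂_le (fun B hB => hall B (hc A hA B hB))
      apply hex A hA
      rw [eq_top_iff]
      intro y _
      obtain ⟨x, rfl⟩ := hf y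
      have h1 : f x = 1 := htop (Subgroup.mem_top x)
      rw [h1]
      exact one_mem _
    · rw [iSup_image]
      have h1 := congrArg (Subgroup.map f) hS.generates
      simp only [Subgroup.map_iSup] at h1
      rw [h1, ← MonoidHom.range_eq_map, MonoidHom.range_eq_top.2 hf]
    · rintro _ ⟨A, hA, rfl⟩ g
      obtain ⟨x, rfl⟩ := hf g
      exact ⟨conjBy A x, hS.conj_mem A hA x, map_conjBy f A x⟩
    · rintro _ ⟨A, hA, rfl⟩ _ ⟨B, hB, rfl⟩
      show ⁅A.map f, B.map f⁆ = ⊥ ∨ IsRankOnePair (A.map f) (B.map f) ∨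
        RootCommutatorCase _ (A.map f) (B.map f)
      rcases hS.pair A hA B hB with h1 | h1 | h1
      · left
        rw [← Subgroup.map_commutator, h1, Subgroup.map_bot]
      · rcases hpair A hA B hB h1 with h2 | h2
        · left
          rw [← h2, ← Subgroup.map_commutator]
          have h3 : ⁅A, A⁆ = ⊥ := by
            rw [Subgroup.commutator_eq_bot_iff_le_centralizer]
            intro a ha
            rw [Subgroup.mem_centralizer_iff]
            intro a' ha'
            exact comm_of_isMulCommutative (hS.commutative A hA) ha' ha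
          rw [h3, Subgroup.map_bot]
        · exact Or.inr (Or.inl h2)
      · right
        right
        obtain ⟨hE, hcent, hg1, hg2⟩ := h1
        refine ⟨⟨⁅A, B⁆, hE, Subgroup.map_commutator A B f⟩, ?_, ?_, ?_⟩
        · intro c hc x hx
          rw [← Subgroup.map_commutator] at hc
          rw [← Subgroup.map_sup] at hx
          obtain ⟨c₀, hc₀, rfl⟩ := hc
          obtain ⟨x₀, hx₀, rfl⟩ := hx
          rw [← map_mul, ← map_mul, hcent c₀ hc₀ x₀ hx₀]
        · rintro _ ⟨a, ha, rfl⟩ ha1
          have ha1' : a ≠ 1 := fun e => ha1 (by rw [e, map_one])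
          have h := hg1 a ha ha1'
          rw [← Subgroup.map_commutator, ← h, MonoidHom.map_closure]
          congr 1
          ext y
          constructor
          · rintro ⟨_, ⟨b, hb, rfl⟩, rfl⟩
            exact ⟨_, ⟨b, hb, rfl⟩, by simp⟩
          · rintro ⟨_, ⟨b, hb, rfl⟩, rfl⟩
            exact ⟨f b, ⟨b, hb, rfl⟩, by simp⟩
        · rintro _ ⟨b, hb, rfl⟩ hb1
          have hb1' : b ≠ 1 := fun e => hb1 (by rw [e, map_one])
          have h := hg2 b hb hb1'
          rw [← Subgroup.map_commutator, ← h, MonoidHom.map_closure]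
          congr 1
          ext y
          constructor
          · rintro ⟨_, ⟨a, ha, rfl⟩, rfl⟩
            exact ⟨_, ⟨a, ha, rfl⟩, by simp⟩
          · rintro ⟨_, ⟨a, ha, rfl⟩, rfl⟩
            exact ⟨f a, ⟨a, ha, rfl⟩, by simp⟩
  · rintro _ ⟨A, hA, rfl⟩ _ ⟨B, hB, rfl⟩
    have hall : ∀ B : Subgroup G, Relation.ReflTransGen (FAdj S) A B →
        Relation.ReflTransGen (FAdj ((fun A : Subgroup G => A.map f) '' S)) (A.map f)
          (B.map f) := by
      intro B hpath
      induction hpath with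
      | refl => exact Relation.ReflTransGen.refl
      | tail _ hstep ih =>
        obtain ⟨hbS, hcS, hbc⟩ := hstep
        rcases hpair _ hbS _ hcS hbc with h2 | h2
        · rw [← h2]
          exact ih
        · exact Relation.ReflTransGen.tail ih ⟨⟨_, hbS, rfl⟩, ⟨_, hcS, rfl⟩, h2⟩
    exact hall B (hc A hA B hB)

end Cfsg.Agent.Lib.Helper8.RootSub
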