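import Cfsg.Agent.Lib.Helper8.PrimeIdx

set_option autoImplicit false

namespace Cfsg.Agent.Lib.Helper8.SimpCrit

open Cfsg Cfsg.FusionSystem Cfsg.Agent.Lib.Helper8.Fusion Cfsg.Agent.Lib.Helper8.FactorSys
  Cfsg.Agent.Lib.Helper8.Sat Cfsg.Agent.Lib.Helper8.Sat2 Cfsg.Agent.Lib.Helper8.Alperin2
  Cfsg.Agent.Lib.Helper8.GroupSub Cfsg.Agent.Lib.Helper8.Morph Cfsg.Agent.Lib.Helper8.Hyp2
  Cfsg.Agent.Lib.Helper8.StrongInv Cfsg.Agent.Lib.Helper8.Transport
  Cfsg.Agent.Lib.Helper8.Normal2 Cfsg.Agent.Lib.Helper8.Centric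
  Cfsg.Agent.Lib.Helper8.GroupFusion

variable {Ω : Type*} [Group Ω] {S : Subgroup Ω}

/-- In a strongly invariant subsystem over `S` the `p`-elements of the automizers of `F` are
automorphisms of the subsystem. -/
theorem pElement_mem_of_si [Finite S] {p : ℕ} [Fact p.Prime] (hS : IsPGroup p S)
    (F : FusionSystem S) (hF : F.IsSaturated p) (E : FusionSystem S) (hSI : SI F E)
    {P : Subgroup Ω} (hP : P ≤ S) {γ : MulAut P} (hγ : γ ∈ F.autGroup P) {k : ℕ}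
    (hk : γ ^ p ^ k = 1) : γ ∈ E.autGroup P := by
  obtain ⟨P', hconj, hP'n⟩ := exists_fullyNormalized_conj F hP
  have hFA := (isFullyCentralized_and_isFullyAutomized hS F hF hP'n).2
  obtain ⟨ψ, hψ, hψr, s, hsS, hs⟩ := exists_hom_conj_of_pElement F hconj hFA hγ hk
  have hP'S : P' ≤ S := hP'n.1
  obtain ⟨ρ, hρ, hρr, hρinv⟩ := exists_inv F hψ hψr
  have hψP' : ∀ y : P, ψ y ∈ P' := fun y => hψr ▸ ⟨y, rfl⟩
  have hcP' : ∀ x : P', conjHom P' s x ∈ P' := by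
    intro x
    obtain ⟨y, hy⟩ : (x : Ω) ∈ ψ.range := hψr ▸ x.2
    have h1 : conjHom P' s x = s * ψ y * s⁻¹ := by
      rw [hy]
      rfl
    rw [h1, ← hs y]
    exact hψP' _
  obtain ⟨χ, hχ, hχeq⟩ := hSI P' P' le_rfl hP'S (conjHom P' s) (E.conj_mem hP'S hsS) hcP' ρ hρ
  have hU : P = (P'.subgroupOf P').map ρ := by
    ext y
    constructor
    · intro hy
      refine ⟨⟨ψ ⟨y, hy⟩, hψP' _⟩, Subgroup.mem_subgroupOf.2 (hψP' _), ?_⟩
      exact hρinv ⟨y, hy⟩ _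
    · rintro ⟨w, -, rfl⟩
      rw [← hρr]
      exact ⟨w, rfl⟩
  rw [mem_autGroup_iff E hP]
  refine hom_congr E (hom_cast E hU hχ) (fun y => ?_)
  have hmem : ρ (Subgroup.inclusion (le_refl P') ⟨ψ y, hψP' y⟩) ∈ (P'.subgroupOf P').map ρ :=
    ⟨_, Subgroup.mem_subgroupOf.2 (hψP' y), rfl⟩
  have h1 := hχeq ⟨ψ y, hψP' y⟩ hmem
  have h2 : (Subgroup.inclusion hU.le y : ↥((P'.subgroupOf P').map ρ)) =
      ⟨ρ (Subgroup.inclusion (le_refl P') ⟨ψ y, hψP' y⟩), hmem⟩ := by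
    apply Subtype.ext
    exact (hρinv y _).symm
  show ((γ y : P) : Ω) = χ (Subgroup.inclusion hU.le y)
  rw [h2, h1]
  have h3 : (⟨conjHom P' s ⟨ψ y, hψP' y⟩, hcP' _⟩ : P') = ⟨ψ (γ y), hψP' _⟩ := by
    apply Subtype.ext
    exact (hs y).symm
  rw [h3]
  exact (hρinv (γ y) _).symm

/-- An automorphism of `S` in `F` whose restriction to a centric subgroup is a map of the
saturated subsystem `E` over `S` is an automorphism of `E`. -/
theorem aut_mem_of_restrict_mem [Finite S] {p : ℕ} [Fact p.Prime] (hS : IsPGroup p S)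
    (F : FusionSystem S) (hF : F.IsSaturated p) (E : FusionSystem S) (hE : E.IsSaturated p)
    (hEF : E.IsSubsystemOf F) {β : MulAut S} (hβ : β ∈ F.autGroup S) :
    ∀ (d : ℕ) (R : Subgroup Ω) (hRS : R ≤ S), Nat.card S - Nat.card R = d → F.IsCentric R →
      (S.subtype.comp β.toMonoidHom).comp (Subgroup.inclusion hRS) ∈ E.Hom R →
      β ∈ E.autGroup S := by
  intro d
  induction d using Nat.strong_induction_on with
  | _ d ih =>
  intro R hRS hd hRc hres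
  by_cases hRS' : R = S
  · rw [mem_autGroup_iff E le_rfl]
    exact hom_congr E (restrict_mem E hRS'.ge hres) (fun x => rfl)
  have hlt : R < S := lt_of_le_of_ne hRS hRS'
  have hβF : S.subtype.comp β.toMonoidHom ∈ F.Hom S := (mem_autGroup_iff F le_rfl β).1 hβ
  obtain ⟨N, hNdef⟩ : ∃ N : Subgroup Ω, N = FusionSystem.normalizerIn S R := ⟨_, rfl⟩
  have hNS : N ≤ S := hNdef ▸ inf_le_left
  have hRN : R ≤ N := hNdef ▸ le_normalizerIn_self hRS
  have hNnorm : ∀ x ∈ N, x ∈ Subgroup.normalizer (R : Set Ω) := fun x hx => by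
    rw [hNdef] at hx
    exact hx.2
  have hcard : Nat.card R < Nat.card N := hNdef ▸ card_lt_card_normalizerIn hS hlt
  have hfinN : Finite N := finite_of_le hNS
  -- the restrictions of `β`
  obtain ⟨βR, hβRdef⟩ : ∃ βR : R →* Ω,
      βR = (S.subtype.comp β.toMonoidHom).comp (Subgroup.inclusion hRS) := ⟨_, rfl⟩
  obtain ⟨βN, hβNdef⟩ : ∃ βN : N →* Ω,
      βN = (S.subtype.comp β.toMonoidHom).comp (Subgroup.inclusion hNS) := ⟨_, rfl⟩
  have hβRx : ∀ x : R, βR x = ((β ⟨x, hRS x.2⟩ : S) : Ω) := fun x => by rw [hβRdef]; rfl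
  have hβNx : ∀ x : N, βN x = ((β ⟨x, hNS x.2⟩ : S) : Ω) := fun x => by rw [hβNdef]; rfl
  have hβR : βR ∈ E.Hom R := by rw [hβRdef]; exact hres
  have hβN : βN ∈ F.Hom N := by rw [hβNdef]; exact restrict_mem F hNS hβF
  obtain ⟨Q, hQdef⟩ : ∃ Q : Subgroup Ω, Q = βR.range := ⟨_, rfl⟩
  have hQconj : E.IsConj R Q := ⟨βR, hβR, hQdef.symm⟩
  have hQS : Q ≤ S := isConj_le E hQconj
  obtain ⟨Rs, hRsconj, hFA, hRec⟩ := hE R hRS
  have hQRs : E.IsConj Q Rs := isConj_trans E (isConj_symm E hQconj) hRsconj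
  obtain ⟨χ, hχ, hχN, hχmap⟩ := exists_normalizer_hom hS E hFA hRec hQRs
  -- `β` maps `N` into the normalizer of `Q`
  have hβNQ : ∀ x : N, βN x ∈ FusionSystem.normalizerIn S Q := by
    intro x
    refine ⟨(F.le_of_mem hβN).2 x, Subgroup.mem_normalizer_iff.2 ?_⟩
    intro h
    constructor
    · intro hh
      rw [hQdef] at hh
      obtain ⟨r, rfl⟩ := hh
      have hxr : (x : Ω) * r * (x : Ω)⁻¹ ∈ R :=
        (Subgroup.mem_normalizer_iff.mp (hNnorm x x.2) r).mp r.2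
      have h1 : βN x * βR r * (βN x)⁻¹ = βR ⟨(x : Ω) * r * (x : Ω)⁻¹, hxr⟩ := by
        rw [hβNx, hβRx, hβRx]
        have h2 : (⟨(x : Ω) * r * (x : Ω)⁻¹, hRS hxr⟩ : S) =
            ⟨x, hNS x.2⟩ * ⟨r, hRS r.2⟩ * ⟨x, hNS x.2⟩⁻¹ := rfl
        rw [h2, map_mul, map_mul, map_inv]
        rfl
      rw [h1, hQdef]
      exact ⟨_, rfl⟩
    · intro hh
      rw [hQdef] at hh
      obtain ⟨r, hr⟩ := hh
      have hxr : (x : Ω)⁻¹ * r * (x : Ω) ∈ R := by
        have h3 := (Subgroup.mem_normalizer_iff.mp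
          (Subgroup.inv_mem _ (hNnorm x x.2)) r).mp r.2
        rwa [inv_inv] at h3
      have h1 : h = βR ⟨(x : Ω)⁻¹ * r * (x : Ω), hxr⟩ := by
        have h4 : h = (βN x)⁻¹ * βR r * βN x := by
          rw [hr]
          group
        rw [h4, hβNx, hβRx, hβRx]
        have h2 : (⟨(x : Ω)⁻¹ * r * (x : Ω), hRS hxr⟩ : S) =
            ⟨x, hNS x.2⟩⁻¹ * ⟨r, hRS r.2⟩ * ⟨x, hNS x.2⟩ := rfl
        rw [h2, map_mul, map_mul, map_inv]
        rfl
      rw [h1, hQdef]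
      exact ⟨_, rfl⟩
  have hβRmemQ : ∀ x : R, βR x ∈ Q := fun x => by
    rw [hQdef]
    exact ⟨x, rfl⟩
  have hβRQ : ∀ x : R, βR x ∈ FusionSystem.normalizerIn S Q := fun x =>
    le_normalizerIn_self hQS (hβRmemQ x)
  -- the composites with `χ`
  obtain ⟨Θ, hΘdef⟩ : ∃ Θ : N →* Ω, Θ = χ.comp (βN.codRestrict _ hβNQ) := ⟨_, rfl⟩
  obtain ⟨ω, hωdef⟩ : ∃ ω : R →* Ω, ω = χ.comp (βR.codRestrict _ hβRQ) := ⟨_, rfl⟩
  have hΘx : ∀ x : N, Θ x = χ ⟨βN x, hβNQ x⟩ := fun x => by rw [hΘdef]; rfl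
  have hωx : ∀ x : R, ω x = χ ⟨βR x, hβRQ x⟩ := fun x => by rw [hωdef]; rfl
  have hΘ : Θ ∈ F.Hom N := by rw [hΘdef]; exact F.comp_mem hβN (hEF _ hχ) hβNQ
  have hω : ω ∈ E.Hom R := by rw [hωdef]; exact E.comp_mem hβR hχ hβRQ
  have hωr : ω.range = Rs := by
    rw [← hχmap]
    ext y
    constructor
    · rintro ⟨x, rfl⟩
      rw [hωx]
      exact ⟨⟨βR x, hβRQ x⟩, Subgroup.mem_subgroupOf.2 (hβRmemQ x), rfl⟩
    · rintro ⟨w, hw, rfl⟩
      have hw' : (w : Ω) ∈ βR.range := by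
        rw [← hQdef]
        exact Subgroup.mem_subgroupOf.1 hw
      obtain ⟨x, hx⟩ := hw'
      refine ⟨x, ?_⟩
      rw [hωx]
      exact congrArg χ (Subtype.ext hx)
  obtain ⟨ωt, hωt, hext⟩ := hRec.2 R ω hω hωr
  have hNext : N ≤ FusionSystem.extender S R ω := by
    intro g hg
    apply Subgroup.subset_closure
    refine ⟨hNS hg, hNnorm g hg, χ ⟨βN ⟨g, hg⟩, hβNQ _⟩, (E.le_of_mem hχ).2 _, ?_⟩
    intro x hx
    rw [hωx, hωx, ← map_inv, ← map_mul, ← map_mul]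
    apply congrArg χ
    apply Subtype.ext
    show βR ⟨g * x * g⁻¹, hx⟩ = βN ⟨g, hg⟩ * βR x * (βN ⟨g, hg⟩)⁻¹
    rw [hβNx, hβRx, hβRx]
    have h2 : (⟨g * (x : Ω) * g⁻¹, hRS hx⟩ : S) =
        ⟨g, hNS hg⟩ * ⟨x, hRS x.2⟩ * ⟨g, hNS hg⟩⁻¹ := rfl
    rw [h2, map_mul, map_mul, map_inv]
    rfl
  obtain ⟨ωN, hωNdef⟩ : ∃ ωN : N →* Ω, ωN = ωt.comp (Subgroup.inclusion hNext) := ⟨_, rfl⟩
  have hωN : ωN ∈ E.Hom N := by rw [hωNdef]; exact restrict_mem E hNext hωt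
  have hagree : ∀ x : N, (x : Ω) ∈ R → ωN x = Θ x := by
    intro x hx
    rw [hωNdef, hΘx]
    show ωt ⟨(x : Ω), hNext x.2⟩ = _
    rw [hext x hx (hNext x.2), hωx]
    apply congrArg χ
    apply Subtype.ext
    show βR ⟨x, hx⟩ = βN x
    rw [hβRx, hβNx]
  obtain ⟨z, hzR, -, hz⟩ := hom_eq_conj_of_centric hS F hF N R hRN hRc ωN Θ (hEF _ hωN) hΘ
    hagree
  have hcz : ∀ y : N, conjHom N (z : Ω) y ∈ N := fun y =>
    N.mul_mem (N.mul_mem z.2 y.2) (N.inv_mem z.2)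
  have hΘE : Θ ∈ E.Hom N := by
    refine comp_mem' E (E.conj_mem hNS (hNS z.2)) hωN hcz (fun y => ?_)
    rw [hz y]
    rfl
  obtain ⟨ρ, hρ, -, hρinv⟩ := exists_inv E hχ rfl
  have hΘr : ∀ y : N, Θ y ∈ χ.range := fun y => by
    rw [hΘx]
    exact ⟨_, rfl⟩
  have hβNE : βN ∈ E.Hom N := by
    refine comp_mem' E hΘE hρ hΘr (fun y => ?_)
    have h3 : (⟨Θ y, hΘr y⟩ : χ.range) = ⟨χ ⟨βN y, hβNQ y⟩, ⟨_, rfl⟩⟩ :=
      Subtype.ext (hΘx y)
    rw [h3]
    exact (hρinv ⟨βN y, hβNQ y⟩ ⟨_, rfl⟩).symm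
  have hNc : F.IsCentric N := isCentric_of_le F hRc hRN hNS
  have hcS : Nat.card N ≤ Nat.card S := Subgroup.card_le_of_le hNS
  refine ih (Nat.card S - Nat.card N) (by omega) N hNS rfl hNc ?_
  rw [← hβNdef]
  exact hβNE

/-- A simplicity criterion for the fusion system of a finite group. -/
theorem simple_of_criterion {G : Type*} [Group G] [Finite G] (p : ℕ) [Fact p.Prime]
    (S : Sylow p G) (hS1 : (S : Subgroup G) ≠ ⊥)
    (ha : ∀ T : Subgroup G, (groupFusionSystem (S : Subgroup G)).StronglyClosed T →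
      T = ⊥ ∨ T = (S : Subgroup G))
    (hb : autInducedBy ⊤ (S : Subgroup G) =
      ⨆ (R : Subgroup G) (_ : (groupFusionSystem (S : Subgroup G)).IsFullyNormalized R ∧
        (groupFusionSystem (S : Subgroup G)).IsRadical p R ∧
        (groupFusionSystem (S : Subgroup G)).IsCentric R),
        autInducedBy (Subgroup.closure {g : G | g ∈ Subgroup.normalizer (R : Set G) ∧
          ∃ k : ℕ, orderOf g = p ^ k}) (S : Subgroup G)) :
    (groupFusionSystem (S : Subgroup G)).IsSimple p := by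
  have hF : (groupFusionSystem (S : Subgroup G)).IsSaturated p := isSaturated_groupFusionSystem S
  have hSp : IsPGroup p (S : Subgroup G) := S.isPGroup'
  refine ⟨hF, hS1, ?_⟩
  intro T E hEn
  obtain ⟨⟨hEsat, -, hInv⟩, -⟩ := hEn
  rcases ha T hInv.2.1 with hT | hT
  · exact Or.inl hT
  right
  subst hT
  have hsub := hInv.1
  have hFr := hInv.2.2.2
  have hSI : SI (groupFusionSystem (S : Subgroup G)) E := si_of_isInvariantIn _ E hInv
  have hAut : (groupFusionSystem (S : Subgroup G)).autGroup (S : Subgroup G) ≤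
      E.autGroup (S : Subgroup G) := by
    rw [autGroup_groupFusionSystem le_rfl, hb]
    refine iSup_le fun R => iSup_le fun hR => ?_
    obtain ⟨-, -, hRc⟩ := hR
    have hRS : R ≤ (S : Subgroup G) := hRc.1
    intro α hα
    obtain ⟨g, hgK, hgα⟩ := mem_autInducedBy_iff.mp hα
    have hK : Subgroup.closure {g : G | g ∈ Subgroup.normalizer (R : Set G) ∧
        ∃ k : ℕ, orderOf g = p ^ k} ≤
        ((E.autGroup R).comap R.normalizerMonoidHom).map
          (Subgroup.normalizer (R : Set G)).subtype := by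
      rw [Subgroup.closure_le]
      rintro h ⟨hhN, k, hk⟩
      refine ⟨⟨h, hhN⟩, ?_, rfl⟩
      show R.normalizerMonoidHom ⟨h, hhN⟩ ∈ E.autGroup R
      refine pElement_mem_of_si hSp _ hF E hSI hRS ?_ (k := k) ?_
      · rw [autGroup_groupFusionSystem hRS]
        exact mem_autInducedBy_iff.mpr ⟨h, Subgroup.mem_top _, fun x => rfl⟩
      · rw [← map_pow]
        have h1 : (⟨h, hhN⟩ : Subgroup.normalizer (R : Set G)) ^ p ^ k = 1 := by
          apply Subtype.ext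
          show h ^ p ^ k = 1
          rw [← hk]
          exact pow_orderOf_eq_one h
        rw [h1, map_one]
    obtain ⟨n, hn, hng⟩ := hK hgK
    have hres : ((S : Subgroup G).subtype.comp α.toMonoidHom).comp (Subgroup.inclusion hRS) ∈
        E.Hom R := by
      have h1 := (mem_autGroup_iff E hRS _).1 hn
      refine hom_congr E h1 (fun x => ?_)
      show ((α ⟨x, hRS x.2⟩ : (S : Subgroup G)) : G) = _
      rw [hgα]
      subst hng
      rfl
    have hαF : α ∈ (groupFusionSystem (S : Subgroup G)).autGroup (S : Subgroup G) := by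
      rw [autGroup_groupFusionSystem le_rfl]
      exact mem_autInducedBy_iff.mpr ⟨g, Subgroup.mem_top _, hgα⟩
    exact aut_mem_of_restrict_mem hSp _ hF E hEsat hsub hαF _ R hRS rfl hRc hres
  refine ⟨rfl, fun P => Set.Subset.antisymm (hsub P) ?_⟩
  intro φ hφ
  obtain ⟨α, hα, φ₀, hφ₀, heq⟩ :=
    hFr P ((groupFusionSystem (S : Subgroup G)).le_of_mem hφ).1 φ hφ
  have hαE := (mem_autGroup_iff E le_rfl α).1 (hAut hα)
  exact comp_mem' E hφ₀ hαE (E.le_of_mem hφ₀).2 (fun x => heq x _)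

end Cfsg.Agent.Lib.Helper8.SimpCrit
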