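import Cfsg.Agent.Lib.Helper8.CharTwo

set_option autoImplicit false

namespace Cfsg.Agent.Lib.Helper8.ThPQ

open Cfsg
open scoped commutatorElement

section baer

variable {H : Type*} [Group H]

/-- Baer addition on a group of class at most two with unique square roots -/
def badd (m : ℕ) (x y : H) : H := x * y * ⁅y, x⁆ ^ m

theorem comm_mul_right (hcl : ∀ x y z : H, Commute ⁅x, y⁆ z) (z x y : H) :
    ⁅z, x * y⁆ = ⁅z, x⁆ * ⁅z, y⁆ := by
  have h1 : ⁅z, y⁆ * x⁻¹ = x⁻¹ * ⁅z, y⁆ := (hcl z y x⁻¹).eq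
  calc ⁅z, x * y⁆ = z * x * z⁻¹ * (⁅z, y⁆ * x⁻¹) := by
        rw [commutatorElement_def, commutatorElement_def]; group
    _ = z * x * z⁻¹ * (x⁻¹ * ⁅z, y⁆) := by rw [h1]
    _ = ⁅z, x⁆ * ⁅z, y⁆ := by rw [commutatorElement_def z x]; group

theorem comm_mul_left (hcl : ∀ x y z : H, Commute ⁅x, y⁆ z) (x y z : H) :
    ⁅x * y, z⁆ = ⁅x, z⁆ * ⁅y, z⁆ := by
  have h := comm_mul_right hcl z x y
  have h' := congrArg Inv.inv h
  simp only [mul_inv_rev, commutatorElement_inv] at h'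
  rw [h', (hcl y z ⁅x, z⁆).eq]

theorem assoc_aux (x y z A B C : H) (hA : Commute A z) (hC : Commute C (A * B)) :
    x * y * A * z * (B * C) = x * (y * z * C) * (A * B) := by
  calc x * y * A * z * (B * C) = x * y * (A * z) * (B * C) := by group
    _ = x * y * (z * A) * (B * C) := by rw [hA.eq]
    _ = x * (y * z) * (A * B * C) := by group
    _ = x * (y * z) * (C * (A * B)) := by rw [hC.eq]
    _ = x * (y * z * C) * (A * B) := by group

theorem badd_assoc (m : ℕ) (hcl : ∀ x y z : H, Commute ⁅x, y⁆ z) (x y z : H) :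
    badd m (badd m x y) z = badd m x (badd m y z) := by
  unfold badd
  have hA : ∀ w : H, Commute (⁅y, x⁆ ^ m) w := fun w => (hcl y x w).pow_left m
  have hC : ∀ w : H, Commute (⁅z, y⁆ ^ m) w := fun w => (hcl z y w).pow_left m
  have e1 : ⁅z, x * y * ⁅y, x⁆ ^ m⁆ = ⁅z, x⁆ * ⁅z, y⁆ := by
    rw [comm_mul_right hcl, comm_mul_right hcl,
      commutatorElement_eq_one_iff_commute.2 (hA z).symm, mul_one]
  have e2 : ⁅y * z * ⁅z, y⁆ ^ m, x⁆ = ⁅y, x⁆ * ⁅z, x⁆ := by
    rw [comm_mul_left hcl, comm_mul_left hcl,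
      commutatorElement_eq_one_iff_commute.2 (hC x), mul_one]
  rw [e1, e2, (hcl z x ⁅z, y⁆).mul_pow, (hcl y x ⁅z, x⁆).mul_pow]
  exact assoc_aux x y z _ _ _ (hA z) (hC _)

theorem badd_comm (m : ℕ) (hcl : ∀ x y z : H, Commute ⁅x, y⁆ z)
    (hm : ∀ x : H, x ^ (2 * m) = x) (x y : H) : badd m x y = badd m y x := by
  unfold badd
  have h1 : y * x = (x * y) * ⁅y, x⁆ := by
    rw [← (hcl y x (x * y)).eq, commutatorElement_def]; group
  have h2 : ⁅x, y⁆ = ⁅y, x⁆⁻¹ := (commutatorElement_inv y x).symm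
  have h3 : ⁅y, x⁆ * (⁅y, x⁆ ^ m)⁻¹ = ⁅y, x⁆ ^ m := by
    have h4 := hm ⁅y, x⁆
    rw [two_mul, pow_add] at h4
    calc ⁅y, x⁆ * (⁅y, x⁆ ^ m)⁻¹ = (⁅y, x⁆ ^ m * ⁅y, x⁆ ^ m) * (⁅y, x⁆ ^ m)⁻¹ := by rw [h4]
      _ = ⁅y, x⁆ ^ m := mul_inv_cancel_right _ _
  rw [h1, h2, inv_pow, mul_assoc (x * y), h3]

theorem badd_one_left (m : ℕ) (x : H) : badd m 1 x = x := by
  unfold badd; rw [commutatorElement_one_right, one_pow, mul_one, one_mul]

theorem badd_one_right (m : ℕ) (x : H) : badd m x 1 = x := by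
  unfold badd; rw [commutatorElement_one_left, one_pow, mul_one, mul_one]

theorem badd_inv_left (m : ℕ) (x : H) : badd m x⁻¹ x = 1 := by
  unfold badd
  rw [commutatorElement_eq_one_iff_commute.2 (Commute.inv_right (Commute.refl x)), one_pow,
    mul_one, inv_mul_cancel]

/-- the Baer abelian group structure -/
@[reducible] def baer (m : ℕ) (hcl : ∀ x y z : H, Commute ⁅x, y⁆ z)
    (hm : ∀ x : H, x ^ (2 * m) = x) : AddCommGroup H :=
  { add := badd m
    add_assoc := badd_assoc m hcl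
    zero := 1
    zero_add := badd_one_left m
    add_zero := badd_one_right m
    nsmul := @nsmulRec H ⟨1⟩ ⟨badd m⟩
    nsmul_zero := fun _ => rfl
    nsmul_succ := fun _ _ => rfl
    neg := fun x => x⁻¹
    sub := fun a b => badd m a b⁻¹
    sub_eq_add_neg := fun _ _ => rfl
    zsmul := @zsmulRec H ⟨1⟩ ⟨badd m⟩ ⟨fun x => x⁻¹⟩ (@nsmulRec H ⟨1⟩ ⟨badd m⟩)
    zsmul_zero' := fun _ => rfl
    zsmul_succ' := fun _ _ => rfl
    zsmul_neg' := fun _ _ => rfl
    neg_add_cancel := badd_inv_left m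
    add_comm := badd_comm m hcl hm }

theorem baer_fix [Finite H] {p : ℕ} [hp : Fact p.Prime]
    (hH : IsPGroup p H) (hp2 : p ≠ 2)
    (hcl : ∀ x y z : H, Commute ⁅x, y⁆ z)
    {Q₀ P₀ : Type*} [Group Q₀] [Fintype Q₀] [Group P₀] [Finite P₀]
    [MulDistribMulAction Q₀ H] [MulDistribMulAction P₀ H]
    (hQ : (Nat.card Q₀).Coprime p) (hP : IsPGroup p P₀)
    (hnorm : ∀ σ : P₀, ∃ e : Q₀ ≃ Q₀, ∀ (q : Q₀) (x : H), σ • (q • x) = (e q) • (σ • x))
    (hfix : ∀ x : H, (∀ σ : P₀, σ • x = x) → ∀ q : Q₀, q • x = x) :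
    ∀ (q : Q₀) (x : H), q • x = x := by
  obtain ⟨n, hn⟩ := hH.exists_card_eq
  have hodd : Odd (Nat.card H) := by
    rw [hn]; exact Odd.pow (hp.out.eq_two_or_odd'.resolve_left hp2)
  obtain ⟨m, hm0⟩ : ∃ m, Nat.card H + 1 = 2 * m := by
    obtain ⟨k, hk⟩ := hodd
    exact ⟨k + 1, by omega⟩
  have hm : ∀ x : H, x ^ (2 * m) = x := by
    intro x
    rw [← hm0, pow_succ, pow_card_eq_one', one_mul]
  let _ : AddCommGroup H := baer m hcl hm
  have hz : (0 : H) = 1 := rfl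
  have hplus : ∀ x y : H, x + y = x * y * ⁅y, x⁆ ^ m := fun _ _ => rfl
  have hns : ∀ (k : ℕ) (x : H), k • x = x ^ k := by
    intro k x
    induction k with
    | zero => rw [zero_nsmul, pow_zero, hz]
    | succ k ih =>
      rw [succ_nsmul, ih, pow_succ, hplus,
        commutatorElement_eq_one_iff_commute.2 ((Commute.refl x).pow_right k), one_pow, mul_one]
  have haddQ : ∀ (q : Q₀) (x y : H), q • (x + y) = q • x + q • y := by
    intro q x y
    rw [hplus, hplus]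
    simp only [commutatorElement_def, smul_mul', smul_pow', smul_inv']
  have haddP : ∀ (σ : P₀) (x y : H), σ • (x + y) = σ • x + σ • y := by
    intro σ x y
    rw [hplus, hplus]
    simp only [commutatorElement_def, smul_mul', smul_pow', smul_inv']
  obtain ⟨Nm, hNm⟩ : ∃ Nm : H →+ H, ∀ x, Nm x = ∑ q : Q₀, q • x :=
    ⟨AddMonoidHom.mk' (fun x => ∑ q : Q₀, q • x) (fun x y => by
      simp only [haddQ, Finset.sum_add_distrib]), fun x => rfl⟩
  have hNq : ∀ (j : Q₀) (x : H), Nm (j • x) = Nm x := by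
    intro j x
    rw [hNm, hNm]
    exact Fintype.sum_equiv (Equiv.mulRight j) (fun q => q • j • x) (fun q => q • x)
      (fun q => (mul_smul q j x).symm)
  have hNfix : ∀ x : H, (∀ q : Q₀, q • x = x) → Nm x = x ^ (Nat.card Q₀) := by
    intro x hx
    rw [hNm, Finset.sum_congr rfl (fun q _ => hx q), Finset.sum_const, Finset.card_univ, hns,
      Nat.card_eq_fintype_card]
  have hNσ : ∀ (σ : P₀) (x : H), Nm (σ • x) = σ • Nm x := by
    intro σ x
    obtain ⟨e, he⟩ := hnorm σ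
    have h1 : σ • (∑ q : Q₀, q • x) = ∑ q : Q₀, σ • (q • x) :=
      map_sum (AddMonoidHom.mk' (fun y => σ • y) (haddP σ)) (fun q => q • x) Finset.univ
    rw [hNm, hNm, h1]
    exact (Fintype.sum_equiv e (fun q => σ • q • x) (fun q => q • σ • x)
      (fun q => he q x)).symm
  by_contra hcon
  have hex : ∃ (q₀ : Q₀) (x₀ : H), q₀ • x₀ ≠ x₀ := by
    by_contra h
    apply hcon
    intro q x
    by_contra h'
    exact h ⟨q, x, h'⟩
  obtain ⟨q₀, x₀, hne⟩ := hex
  have hy : x₀ - q₀ • x₀ ∈ Nm.ker := by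
    rw [AddMonoidHom.mem_ker, map_sub, hNq, sub_self]
  have hy0 : x₀ - q₀ • x₀ ≠ 0 := by
    intro h
    exact hne (sub_eq_zero.1 h).symm
  have hdvd : p ∣ Nat.card ↥Nm.ker := by
    have h1 : Nat.card ↥Nm.ker ∣ Nat.card H := AddSubgroup.card_addSubgroup_dvd_card _
    rw [hn] at h1
    obtain ⟨j, hj, hj2⟩ := (Nat.dvd_prime_pow hp.out).1 h1
    rcases Nat.eq_zero_or_pos j with h0 | h0
    · exfalso
      rw [h0, pow_zero] at hj2
      have hsub : Subsingleton ↥Nm.ker := (Nat.card_eq_one_iff_unique.1 hj2).1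
      have h2 := Subsingleton.elim (⟨x₀ - q₀ • x₀, hy⟩ : ↥Nm.ker) 0
      exact hy0 (congrArg Subtype.val h2)
    · rw [hj2]; exact dvd_pow_self p (Nat.pos_iff_ne_zero.1 h0)
  letI : MulAction P₀ ↥Nm.ker :=
    { smul := fun σ y => ⟨σ • (y : H), by
        rw [AddMonoidHom.mem_ker, hNσ, (AddMonoidHom.mem_ker).1 y.2]; exact smul_one σ⟩
      one_smul := fun y => Subtype.ext (one_smul P₀ (y : H))
      mul_smul := fun σ τ y => Subtype.ext (mul_smul σ τ (y : H)) }
  have h0fix : (0 : ↥Nm.ker) ∈ MulAction.fixedPoints P₀ ↥Nm.ker := by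
    rw [MulAction.mem_fixedPoints]
    intro σ
    exact Subtype.ext (smul_one σ)
  obtain ⟨b, hb, hb0⟩ :=
    hP.exists_fixed_point_of_prime_dvd_card_of_fixed_point ↥Nm.ker hdvd h0fix
  rw [MulAction.mem_fixedPoints] at hb
  have hbfix : ∀ σ : P₀, σ • (b : H) = b := fun σ => congrArg Subtype.val (hb σ)
  have hbq := hfix (b : H) hbfix
  have h1 : Nm (b : H) = (b : H) ^ Nat.card Q₀ := hNfix _ hbq
  rw [(AddMonoidHom.mem_ker).1 b.2] at h1
  obtain ⟨k, hk⟩ := hH (b : H)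
  have hb1 : (b : H) = 1 :=
    Centric.eq_one_of_pow_of_coprime hk (orderOf_dvd_of_pow_eq_one h1.symm) hQ
  exact hb0 (Subtype.ext hb1.symm)

end baer

section main

variable {X : Type*} [Group X]

/-- conjugation action of a subgroup normalizing another -/
@[reducible] def conjAct (A G : Subgroup X) (h : ∀ a ∈ A, ∀ x ∈ G, a * x * a⁻¹ ∈ G) :
    MulDistribMulAction ↥A ↥G :=
  { smul := fun a x => ⟨(a : X) * (x : X) * (a : X)⁻¹, h a.1 a.2 x.1 x.2⟩
    one_smul := fun x => Subtype.ext (by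
      show (1 : X) * (x : X) * (1 : X)⁻¹ = x
      group)
    mul_smul := fun a b x => Subtype.ext (by
      show (a : X) * (b : X) * (x : X) * ((a : X) * (b : X))⁻¹ =
        (a : X) * ((b : X) * (x : X) * (b : X)⁻¹) * (a : X)⁻¹
      group)
    smul_mul := fun a x y => Subtype.ext (by
      show (a : X) * ((x : X) * (y : X)) * (a : X)⁻¹ =
        (a : X) * (x : X) * (a : X)⁻¹ * ((a : X) * (y : X) * (a : X)⁻¹)
      group)
    smul_one := fun a => Subtype.ext (by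
      show (a : X) * (1 : X) * (a : X)⁻¹ = 1
      group) }

theorem thompson_pq [Finite X] {p : ℕ} [hp : Fact p.Prime] (hp2 : p ≠ 2)
    (P Q : Subgroup X) (hP : IsPGroup p P) (hQ : (Nat.card Q).Coprime p)
    (hPQ : ∀ a ∈ P, ∀ q ∈ Q, a * q * a⁻¹ ∈ Q) :
    ∀ (n : ℕ) (G : Subgroup X), Nat.card G = n → IsPGroup p G →
      (∀ a ∈ P, ∀ u ∈ G, a * u * a⁻¹ ∈ G) → (∀ a ∈ Q, ∀ u ∈ G, a * u * a⁻¹ ∈ G) →
      (∀ u ∈ G, (∀ b ∈ P, b * u = u * b) → ∀ a ∈ Q, a * u = u * a) →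
      ∀ u ∈ G, ∀ a ∈ Q, a * u = u * a := by
  intro n
  induction n using Nat.strong_induction_on with
  | _ n ih =>
    intro G hcard hG hPG hQG hcent
    have hQcop : ∀ a ∈ Q, (orderOf a).Coprime p := by
      intro a ha
      have h1 : (⟨a, ha⟩ : ↥Q) ^ Nat.card ↥Q = 1 := pow_card_eq_one'
      have h2 : a ^ Nat.card ↥Q = 1 := congrArg Subtype.val h1
      exact Nat.Coprime.coprime_dvd_left (orderOf_dvd_of_pow_eq_one h2) hQ
    have hWle : ⁅G, Q⁆ ≤ G := by
      rw [Subgroup.commutator_le]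
      intro u hu a ha
      rw [commutatorElement_def]
      have h2 := hQG a ha u⁻¹ (Subgroup.inv_mem _ hu)
      have e : u * a * u⁻¹ * a⁻¹ = u * (a * u⁻¹ * a⁻¹) := by group
      rw [e]; exact Subgroup.mul_mem _ hu h2
    have hQQ : ∀ a ∈ Q, ∀ q ∈ Q, a * q * a⁻¹ ∈ Q := fun a ha q hq =>
      Q.mul_mem (Q.mul_mem ha hq) (Q.inv_mem ha)
    have hinv : ∀ (A B : Subgroup X) (a : X), (∀ u ∈ A, a * u * a⁻¹ ∈ A) →
        (∀ u ∈ B, a * u * a⁻¹ ∈ B) → ∀ u ∈ ⁅A, B⁆, a * u * a⁻¹ ∈ ⁅A, B⁆ := by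
      intro A B a hA hB u hu
      have h1 : (⁅A, B⁆).map (MulAut.conj a).toMonoidHom ≤ ⁅A, B⁆ := by
        rw [Subgroup.map_commutator]
        apply Subgroup.commutator_mono
        · rintro _ ⟨v, hv, rfl⟩; exact hA v hv
        · rintro _ ⟨v, hv, rfl⟩; exact hB v hv
      exact h1 (Subgroup.mem_map_of_mem _ hu)
    by_cases hW : G ≤ ⁅G, Q⁆
    · have hGQ : ⁅G, Q⁆ = G := le_antisymm hWle hW
      by_cases hGbot : G = ⊥
      · intro u hu a ha
        rw [hGbot, Subgroup.mem_bot] at hu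
        rw [hu, mul_one, one_mul]
      have hDle : ⁅G, G⁆ ≤ G := by
        rw [Subgroup.commutator_le]
        intro x hx y hy
        rw [commutatorElement_def]
        exact G.mul_mem (G.mul_mem (G.mul_mem hx hy) (G.inv_mem hx)) (G.inv_mem hy)
      have hDne : ¬ G ≤ ⁅G, G⁆ := by
        intro hle
        obtain ⟨S, hS⟩ := hG.exists_le_sylow
        exact hGbot (WNormal.nil_aux S G G hS hS hle)
      have hDlt : Nat.card ↥(⁅G, G⁆) < n := by
        rw [← hcard]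
        by_contra hge
        exact hDne (le_of_eq (Subgroup.eq_of_le_of_card_ge hDle (not_lt.1 hge)).symm)
      have hihD := ih _ hDlt ⁅G, G⁆ rfl (hG.to_le hDle)
        (fun a ha => hinv G G a (hPG a ha) (hPG a ha))
        (fun a ha => hinv G G a (hQG a ha) (hQG a ha))
        (fun u hu hub => hcent u (hDle hu) hub)
      have hDQ : ⁅⁅G, G⁆, Q⁆ = ⊥ := by
        rw [Subgroup.commutator_eq_bot_iff_le_centralizer]
        intro u hu
        refine Subgroup.mem_centralizer_iff.2 (fun a ha => ?_)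
        exact hihD u hu a ha
      have h1 : ⁅⁅G, ⁅G, G⁆⁆, Q⁆ = ⊥ := by
        rw [eq_bot_iff, ← hDQ]
        exact Subgroup.commutator_mono (Subgroup.commutator_mono le_rfl hDle) le_rfl
      have h2 : ⁅⁅⁅G, G⁆, Q⁆, G⁆ = ⊥ := by rw [hDQ, Subgroup.commutator_bot_left]
      have h3 : ⁅⁅Q, G⁆, ⁅G, G⁆⁆ = ⊥ := Subgroup.commutator_commutator_eq_bot_of_rotate h1 h2
      rw [Subgroup.commutator_comm Q G, hGQ] at h3
      have hcl : ∀ x y z : ↥G, Commute ⁅x, y⁆ z := by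
        intro x y z
        have h4 : ⁅(z : X), ⁅(x : X), (y : X)⁆⁆ ∈ ⁅G, ⁅G, G⁆⁆ :=
          Subgroup.commutator_mem_commutator z.2 (Subgroup.commutator_mem_commutator x.2 y.2)
        rw [h3, Subgroup.mem_bot, commutatorElement_eq_one_iff_commute] at h4
        show ⁅x, y⁆ * z = z * ⁅x, y⁆
        apply Subtype.ext
        show ⁅(x : X), (y : X)⁆ * (z : X) = (z : X) * ⁅(x : X), (y : X)⁆
        exact h4.symm.eq
      haveI : Fintype ↥Q := Fintype.ofFinite _
      letI instQ : MulDistribMulAction ↥Q ↥G := conjAct Q G hQG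
      letI instP : MulDistribMulAction ↥P ↥G := conjAct P G hPG
      have hnorm : ∀ σ : ↥P, ∃ e : ↥Q ≃ ↥Q, ∀ (q : ↥Q) (x : ↥G),
          σ • (q • x) = (e q) • (σ • x) := by
        intro σ
        refine ⟨{ toFun := fun q => ⟨(σ : X) * (q : X) * (σ : X)⁻¹, hPQ σ.1 σ.2 q.1 q.2⟩
                  invFun := fun q => ⟨(σ : X)⁻¹ * (q : X) * (σ : X), by
                    have h5 := hPQ (σ : X)⁻¹ (P.inv_mem σ.2) q.1 q.2
                    rwa [inv_inv] at h5⟩
                  left_inv := fun q => Subtype.ext (by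
                    show (σ : X)⁻¹ * ((σ : X) * (q : X) * (σ : X)⁻¹) * (σ : X) = q
                    group)
                  right_inv := fun q => Subtype.ext (by
                    show (σ : X) * ((σ : X)⁻¹ * (q : X) * (σ : X)) * (σ : X)⁻¹ = q
                    group) }, ?_⟩
        intro q x
        apply Subtype.ext
        show (σ : X) * ((q : X) * (x : X) * (q : X)⁻¹) * (σ : X)⁻¹ =
          ((σ : X) * (q : X) * (σ : X)⁻¹) * ((σ : X) * (x : X) * (σ : X)⁻¹) *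
            ((σ : X) * (q : X) * (σ : X)⁻¹)⁻¹
        group
      have hfix : ∀ x : ↥G, (∀ σ : ↥P, σ • x = x) → ∀ q : ↥Q, q • x = x := by
        intro x hx q
        have h5 : ∀ b ∈ P, b * (x : X) = (x : X) * b := by
          intro b hb
          have h6 : b * (x : X) * b⁻¹ = (x : X) := congrArg Subtype.val (hx ⟨b, hb⟩)
          calc b * (x : X) = (b * (x : X) * b⁻¹) * b := by group
            _ = (x : X) * b := by rw [h6]
        have h7 := hcent (x : X) x.2 h5 (q : X) q.2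
        apply Subtype.ext
        show (q : X) * (x : X) * (q : X)⁻¹ = (x : X)
        rw [h7, mul_inv_cancel_right]
      have hres := baer_fix (p := p) (H := ↥G) hG hp2 hcl hQ hP hnorm hfix
      intro u hu a ha
      have h8 : (a * u * a⁻¹ : X) = u := congrArg Subtype.val (hres ⟨a, ha⟩ ⟨u, hu⟩)
      calc a * u = (a * u * a⁻¹) * a := by group
        _ = u * a := by rw [h8]
    · have hlt : Nat.card ↥(⁅G, Q⁆) < n := by
        rw [← hcard]
        by_contra hge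
        exact hW (le_of_eq (Subgroup.eq_of_le_of_card_ge hWle (not_lt.1 hge)).symm)
      have hih := ih _ hlt ⁅G, Q⁆ rfl (hG.to_le hWle)
        (fun a ha => hinv G Q a (hPG a ha) (hPQ a ha))
        (fun a ha => hinv G Q a (hQG a ha) (hQQ a ha))
        (fun u hu hub => hcent u (hWle hu) hub)
      intro u hu a ha
      obtain ⟨w, hw⟩ : ∃ w, w = u⁻¹ * (a * u * a⁻¹) := ⟨_, rfl⟩
      have hwc : w ∈ ⁅G, Q⁆ := by
        have h4 : ⁅u⁻¹, a⁆ ∈ ⁅G, Q⁆ :=
          Subgroup.commutator_mem_commutator (Subgroup.inv_mem _ hu) ha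
        rw [commutatorElement_def, inv_inv] at h4
        have e : w = u⁻¹ * a * u * a⁻¹ := by rw [hw]; group
        rw [e]; exact h4
      have haw : a * w = w * a := hih w hwc a ha
      obtain ⟨k, hk⟩ := hG ⟨w, hWle hwc⟩
      have hk' : w ^ p ^ k = 1 := congrArg Subtype.val hk
      have hconj : a * u * a⁻¹ = u * w := by rw [hw]; group
      have hw1 : w = 1 := PSolv.eq_one_of_conj_eq_mul a u w (orderOf a) (p ^ k) hconj haw
        (pow_orderOf_eq_one a) hk' (Nat.Coprime.pow_right k (hQcop a ha))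
      rw [hw1, mul_one] at hconj
      calc a * u = (a * u * a⁻¹) * a := by group
        _ = u * a := by rw [hconj]

theorem main [Finite X] {p : ℕ} [Fact p.Prime] (hp : p ≠ 2) (P Q G : Subgroup X)
    (hP : IsPGroup p P) (hQ : (Nat.card Q).Coprime p)
    (hPQ : P ≤ Subgroup.normalizer (Q : Set X))
    (hG : IsPGroup p G) (hPG : P ≤ Subgroup.normalizer (G : Set X))
    (hQG : Q ≤ Subgroup.normalizer (G : Set X))
    (hC : G ⊓ Subgroup.centralizer (P : Set X) ≤ Subgroup.centralizer (Q : Set X)) :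
    Q ≤ Subgroup.centralizer (G : Set X) := by
  have hPQ' : ∀ a ∈ P, ∀ q ∈ Q, a * q * a⁻¹ ∈ Q := fun a ha q hq =>
    (Subgroup.mem_normalizer_iff.1 (hPQ ha) q).1 hq
  have hPG' : ∀ a ∈ P, ∀ u ∈ G, a * u * a⁻¹ ∈ G := fun a ha u hu =>
    (Subgroup.mem_normalizer_iff.1 (hPG ha) u).1 hu
  have hQG' : ∀ a ∈ Q, ∀ u ∈ G, a * u * a⁻¹ ∈ G := fun a ha u hu =>
    (Subgroup.mem_normalizer_iff.1 (hQG ha) u).1 hu
  have hcent : ∀ u ∈ G, (∀ b ∈ P, b * u = u * b) → ∀ a ∈ Q, a * u = u * a := by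
    intro u hu hub a ha
    have h1 : u ∈ Subgroup.centralizer (Q : Set X) :=
      hC (Subgroup.mem_inf.2 ⟨hu, Subgroup.mem_centralizer_iff.2 (fun b hb => hub b hb)⟩)
    exact Subgroup.mem_centralizer_iff.1 h1 a ha
  intro a ha
  rw [Subgroup.mem_centralizer_iff]
  intro u hu
  exact (thompson_pq hp P Q hP hQ hPQ' _ G rfl hG hPG' hQG' hcent u hu a ha).symm

end main

end Cfsg.Agent.Lib.Helper8.ThPQ
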