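import Cfsg.Agent.Lib.Helper8.Transport
import Cfsg.Agent.Lib.Helper8.Constr
import Cfsg.Agent.Lib.Helper8.GroupSub

set_option autoImplicit false

namespace Cfsg.Agent.Lib.Helper8.Transport2

open Cfsg Cfsg.FusionSystem Cfsg.Agent.Lib.Helper8.Fusion Cfsg.Agent.Lib.Helper8.GroupFusion
  Cfsg.Agent.Lib.Helper8.Sat Cfsg.Agent.Lib.Helper8.Sat2 Cfsg.Agent.Lib.Helper8.Transport
  Cfsg.Agent.Lib.Helper8.Chain2 Cfsg.Agent.Lib.Helper8.Normal Cfsg.Agent.Lib.Helper8.Normal2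
  Cfsg.Agent.Lib.Helper8.Constr Cfsg.Agent.Lib.Helper8.GroupSub

variable {Ω Ω' : Type*} [Group Ω] [Group Ω'] {S : Subgroup Ω} {S' : Subgroup Ω'}

/-- Normality of a subgroup in a saturated system transfers along a correspondence. -/
theorem isNormal_of_corr [Finite S] [Finite S'] {p : ℕ} [Fact p.Prime] (hS : IsPGroup p S)
    (hS' : IsPGroup p S') {e : S ≃* S'} {F : FusionSystem S} {F' : FusionSystem S'}
    (h : Corr e F F') (hF : F.IsSaturated p) (hF' : F'.IsSaturated p) {Q : Subgroup Ω}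
    (hQ : F.IsNormal Q) : F'.IsNormal (mapSub e Q) := by
  have hQS := hQ.1
  rw [isNormal_iff_extend hS' F' hF' _ (mapSub_le e Q)]
  intro P' hP'Q φ' hφ'
  obtain ⟨φ, hφ, hrel⟩ := h.bwd P' φ' hφ'
  have hPQ : mapSub e.symm P' ≤ Q := by
    calc mapSub e.symm P' ≤ mapSub e.symm (mapSub e Q) := mapSub_mono e.symm hP'Q
      _ = Q := mapSub_symm_mapSub e hQS
  obtain ⟨α, hα, hαφ⟩ := (isNormal_iff_extend hS F hF Q hQS).1 hQ _ hPQ φ hφ
  refine ⟨MulAut.congr (mapEquiv e hQS) α, congr_mem_autGroup_of_corr h hQS hα, fun x' => ?_⟩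
  have hx'S : (x' : Ω') ∈ S' := (F'.le_of_mem hφ').1 x'.2
  have hφ'S : φ' x' ∈ S' := (F'.le_of_mem hφ').2 x'
  have hsP : ((e.symm ⟨x', hx'S⟩ : S) : Ω) ∈ mapSub e.symm P' :=
    mem_mapSub.mpr ⟨x', hx'S, x'.2, rfl⟩
  have hsQ : ((e.symm ⟨x', hx'S⟩ : S) : Ω) ∈ Q := hPQ hsP
  have h1 : Subgroup.inclusion hP'Q x' = mapEquiv e hQS ⟨_, hsQ⟩ := by
    apply Subtype.ext
    rw [mapEquiv_coe]
    show (x' : Ω') = ((e ⟨((e.symm ⟨x', hx'S⟩ : S) : Ω), _⟩ : S') : Ω')
    rw [coe_symm_apply]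
  rw [h1, congr_apply_mapEquiv, mapEquiv_coe]
  have h2 := hαφ ⟨_, hsP⟩
  have h3 := hrel x' hx'S hφ'S hsP
  have h4 : (⟨((α ⟨_, hsQ⟩ : Q) : Ω), hQS (α ⟨_, hsQ⟩).2⟩ : S) = e.symm ⟨φ' x', hφ'S⟩ := by
    apply Subtype.ext
    show ((α ⟨_, hsQ⟩ : Q) : Ω) = _
    rw [← h3, ← h2]
    rfl
  rw [h4, MulEquiv.apply_symm_apply]

theorem isConstrained_iff [Finite S] (F : FusionSystem S) (p : ℕ) :
    F.IsConstrained p ↔ F.IsSaturated p ∧
      ∃ Q : Subgroup Ω, F.IsNormal Q ∧ FusionSystem.centralizerIn S Q ≤ Q := by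
  constructor
  · rintro ⟨hF, Q, hQ, hQc⟩
    exact ⟨hF, Q, hQ, hQc.2 Q ⟨Q.subtype, id_mem F hQ.1, Subgroup.range_subtype Q⟩⟩
  · rintro ⟨hF, Q, hQ, hQc⟩
    refine ⟨hF, Q, hQ, hQ.1, ?_⟩
    rintro R' ⟨φ, hφ, hφr⟩
    have h1 := (weaklyClosed_of_stronglyClosed F (stronglyClosed_of_isNormal F hQ)).2 φ hφ
    rw [← hφr, h1]
    exact hQc

/-- Being constrained transfers along a correspondence. -/
theorem isConstrained_of_corr [Finite S] [Finite S'] {p : ℕ} [Fact p.Prime] (hS : IsPGroup p S)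
    (hS' : IsPGroup p S') {e : S ≃* S'} {F : FusionSystem S} {F' : FusionSystem S'}
    (h : Corr e F F') (hF : F.IsConstrained p) : F'.IsConstrained p := by
  have hFs := hF.1
  have hF's : F'.IsSaturated p := isSaturated_of_corr hS' h.symm hFs
  obtain ⟨-, Q, hQ, hQc⟩ := (isConstrained_iff F p).1 hF
  rw [isConstrained_iff]
  refine ⟨hF's, mapSub e Q, isNormal_of_corr hS hS' h hFs hF's hQ, ?_⟩
  rintro x' ⟨hx'S, hx'c⟩
  have hxc : ((e.symm ⟨x', hx'S⟩ : S) : Ω) ∈ FusionSystem.centralizerIn S Q := by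
    refine ⟨(e.symm ⟨x', hx'S⟩).2, ?_⟩
    show _ ∈ Subgroup.centralizer (Q : Set Ω)
    rw [Subgroup.mem_centralizer_iff]
    intro q hq
    have h1 := (Subgroup.mem_centralizer_iff.1 hx'c) ((e ⟨q, hQ.1 hq⟩ : S') : Ω')
      (mem_mapSub.mpr ⟨q, hQ.1 hq, hq, rfl⟩)
    have h2 : e ⟨q, hQ.1 hq⟩ * ⟨x', hx'S⟩ = ⟨x', hx'S⟩ * e ⟨q, hQ.1 hq⟩ := Subtype.ext h1
    have h3 := congrArg e.symm h2
    rw [map_mul, map_mul, MulEquiv.symm_apply_apply] at h3
    exact congrArg (fun z : S => (z : Ω)) h3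
  have h4 := hQc hxc
  refine mem_mapSub.mpr ⟨_, (e.symm ⟨x', hx'S⟩).2, h4, ?_⟩
  rw [coe_symm_apply]

theorem fs_ext {F₁ F₂ : FusionSystem S} (h : ∀ P, F₁.Hom P = F₂.Hom P) : F₁ = F₂ := by
  obtain ⟨H₁, _, _, _, _, _⟩ := F₁
  obtain ⟨H₂, _, _, _, _, _⟩ := F₂
  have hh : H₁ = H₂ := funext h
  subst hh
  rfl

variable {G : Type*} [Group G]

theorem fusionSystemOfSubgroup_top (S : Subgroup G) :
    fusionSystemOfSubgroup ⊤ S le_top = groupFusionSystem S := by
  apply fs_ext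
  intro P
  ext φ
  constructor
  · rintro ⟨hP, hφ, g, -, hg⟩
    exact ⟨hP, hφ, g, hg⟩
  · rintro ⟨hP, hφ, g, hg⟩
    exact ⟨hP, hφ, g, Subgroup.mem_top g, hg⟩

/-- The fusion systems of the subnormal subgroups of a group with constrained fusion system
are constrained (stated inside the ambient group). -/
theorem constrained_of_subnormal [Finite G] {p : ℕ} [Fact p.Prime] (S : Sylow p G)
    (hF : (groupFusionSystem (S : Subgroup G)).IsConstrained p) {H : Subgroup G}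
    (hH : H.IsSubnormal) :
    (∃ R : Sylow p H, (R : Subgroup H) = ((S : Subgroup G) ⊓ H).subgroupOf H) ∧
      (fusionSystemOfSubgroup H ((S : Subgroup G) ⊓ H) inf_le_right).IsConstrained p := by
  induction hH with
  | top =>
    refine ⟨sylow_inf_of_normal S ⊤, ?_⟩
    have key : ∀ (T : Subgroup G) (hT : T = (S : Subgroup G)) (hTH : T ≤ ⊤),
        (fusionSystemOfSubgroup ⊤ T hTH).IsConstrained p := by
      rintro T rfl hTH
      rw [fusionSystemOfSubgroup_top]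
      exact hF
    exact key _ (inf_top_eq _) _
  | step H K h_le hSubn h_normal ih =>
    obtain ⟨⟨RK, hRK⟩, hcK⟩ := ih
    have hTHp : IsPGroup p ↥((S : Subgroup G) ⊓ H) := S.isPGroup'.to_le inf_le_left
    have hTKp : IsPGroup p ↥((S : Subgroup G) ⊓ K) := S.isPGroup'.to_le inf_le_left
    have hconjH : ∀ k ∈ K, ∀ x ∈ H, k * x * k⁻¹ ∈ H := by
      intro k hk x hx
      have h1 := h_normal.conj_mem ⟨x, h_le hx⟩ (Subgroup.mem_subgroupOf.2 hx) ⟨k, hk⟩
      exact Subgroup.mem_subgroupOf.1 h1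
    have hSyl : ∃ R : Sylow p H, (R : Subgroup H) = ((S : Subgroup G) ⊓ H).subgroupOf H := by
      rw [sylow_subgroupOf_iff H _ inf_le_right hTHp]
      intro K' hK'H hK'p
      have hK'K : K' ≤ K := hK'H.trans h_le
      have hp' : IsPGroup p ↥(K'.subgroupOf K) :=
        hK'p.of_equiv (Subgroup.subgroupOfEquivOfLe hK'K).symm
      obtain ⟨g, hg⟩ := exists_conj_le_sylow RK hp'
      have hmem : ∀ x : K', (g : G) * (x : G) * (g : G)⁻¹ ∈ (S : Subgroup G) ⊓ H := by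
        intro x
        have h1 : (MulAut.conj g).toMonoidHom ⟨(x : G), hK'K x.2⟩ ∈ (RK : Subgroup K) :=
          hg ⟨⟨(x : G), hK'K x.2⟩, Subgroup.mem_subgroupOf.2 x.2, rfl⟩
        rw [hRK, Subgroup.mem_subgroupOf] at h1
        exact ⟨h1.1, hconjH g g.2 x (hK'H x.2)⟩
      apply Nat.card_le_card_of_injective (fun x : K' => (⟨_, hmem x⟩ : ↥((S : Subgroup G) ⊓ H)))
      intro a b hab
      have h2 : (g : G) * (a : G) * (g : G)⁻¹ = (g : G) * (b : G) * (g : G)⁻¹ :=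
        congrArg Subtype.val hab
      exact Subtype.ext (mul_left_cancel (mul_right_cancel h2))
    refine ⟨hSyl, ?_⟩
    obtain ⟨R, hR⟩ := hSyl
    have hsat := isSaturated_fusionSystemOfSubgroup H ((S : Subgroup G) ⊓ H) inf_le_right R hR
    have hle : (S : Subgroup G) ⊓ H ≤ (S : Subgroup G) ⊓ K := inf_le_inf_left _ h_le
    apply isConstrained_of_subsystem hTKp _ hcK (T := (S : Subgroup G) ⊓ H) _ _ hsat
    · rintro P φ ⟨hP, hφ, g, hg, hgx⟩
      exact ⟨hP.trans hle, fun x => hle (hφ x), g, h_le hg, hgx⟩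
    · refine ⟨hle, ?_⟩
      rintro R' hR' φ ⟨-, hφ, g, hg, hgx⟩ x
      refine ⟨(hφ x).1, ?_⟩
      rw [hgx]
      exact hconjH g hg x (hR' x.2).2

/-- The fusion system of a subnormal subgroup `H` on `S ∩ H`, as a fusion system of the group
`H`, is constrained when that of the whole group is. -/
theorem constrained_subgroupOf [Finite G] {p : ℕ} [Fact p.Prime] (S : Sylow p G)
    (hF : (groupFusionSystem (S : Subgroup G)).IsConstrained p) (H : Subgroup G)
    (hH : H.IsSubnormal) :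
    (groupFusionSystem ((S : Subgroup G).subgroupOf H)).IsConstrained p := by
  obtain ⟨-, hc⟩ := constrained_of_subnormal S hF hH
  have hTHp : IsPGroup p ↥((S : Subgroup G) ⊓ H) := S.isPGroup'.to_le inf_le_left
  have hι := isRealizedBy_inclusion H ((S : Subgroup G) ⊓ H) inf_le_right
  have hcorr := corr_of_isRealizedBy _ _ hι
  have hp' : IsPGroup p ↥(Subgroup.inclusion (inf_le_right : (S : Subgroup G) ⊓ H ≤ H)).range :=
    hTHp.of_surjective _ (MonoidHom.rangeRestrict_surjective _)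
  have h1 := isConstrained_of_corr hTHp hp' hcorr hc
  have key : ∀ (T : Subgroup H),
      T = (Subgroup.inclusion (inf_le_right : (S : Subgroup G) ⊓ H ≤ H)).range →
      (groupFusionSystem T).IsConstrained p := by
    rintro T rfl
    exact h1
  apply key
  rw [Subgroup.inclusion_range, Subgroup.inf_subgroupOf_right]

end Cfsg.Agent.Lib.Helper8.Transport2
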