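import Mathlib
import Cfsg.Prelude.Def_LieExceptional

set_option autoImplicit false

namespace Cfsg.Agent.Lib.Helper8.Zass

/-- Burnside count for a transitive action in which non-identity elements fix at most one point:
the fixed-point-free elements number `|Ω| - 1`. -/
theorem frob_count {N Ω : Type*} [Group N] [MulAction N Ω] [Finite N] [Finite Ω] [Nonempty Ω]
    (ht : ∀ x y : Ω, ∃ g : N, g • x = y)
    (hstar : ∀ g : N, g ≠ 1 → ∀ x y : Ω, g • x = x → g • y = y → x = y) :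
    Nat.card {g : N // ∀ x : Ω, g • x ≠ x} + 1 = Nat.card Ω := by
  classical
  haveI : Fintype N := Fintype.ofFinite N
  haveI : Fintype Ω := Fintype.ofFinite Ω
  have hB := MulAction.sum_card_fixedBy_eq_card_orbits_mul_card_group N Ω
  have horb : Fintype.card (Quotient (MulAction.orbitRel N Ω)) = 1 := by
    obtain ⟨a⟩ : Nonempty Ω := inferInstance
    rw [Fintype.card_eq_one_iff]
    refine ⟨Quotient.mk _ a, fun y => ?_⟩
    refine Quotient.inductionOn y (fun b => ?_)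
    apply Quotient.sound
    obtain ⟨g, hg⟩ := ht a b
    exact MulAction.mem_orbit_iff.2 ⟨g, hg⟩
  rw [horb, one_mul] at hB
  have hd1 : Fintype.card (MulAction.fixedBy Ω (1 : N)) +
      (if (∀ x : Ω, (1 : N) • x ≠ x) then 1 else 0) = Fintype.card Ω := by
    have h1 : ¬ (∀ x : Ω, (1 : N) • x ≠ x) := by
      obtain ⟨a⟩ : Nonempty Ω := inferInstance
      intro h
      exact h a (one_smul N a)
    rw [if_neg h1, add_zero]
    exact Fintype.card_congr (Equiv.subtypeUnivEquiv (fun x => one_smul N x))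
  have hd : ∀ g : N, g ≠ 1 → Fintype.card (MulAction.fixedBy Ω g) +
      (if (∀ x : Ω, g • x ≠ x) then 1 else 0) = 1 := by
    intro g hg
    by_cases hP : ∀ x : Ω, g • x ≠ x
    · rw [if_pos hP]
      have h0 : Fintype.card (MulAction.fixedBy Ω g) = 0 := by
        rw [Fintype.card_eq_zero_iff]
        exact ⟨fun x => hP x.1 x.2⟩
      rw [h0]
    · rw [if_neg hP, add_zero]
      have hex : ∃ x : Ω, g • x = x := by
        by_contra hno
        exact hP (fun x hx => hno ⟨x, hx⟩)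
      obtain ⟨x, hx⟩ := hex
      rw [Fintype.card_eq_one_iff]
      exact ⟨⟨x, hx⟩, fun y => Subtype.ext (hstar g hg y.1 x y.2 hx)⟩
  have hsum1 : ∑ g : N, (Fintype.card (MulAction.fixedBy Ω g) +
      (if (∀ x : Ω, g • x ≠ x) then 1 else 0)) =
      Fintype.card N + (Finset.univ.filter (fun g : N => ∀ x : Ω, g • x ≠ x)).card := by
    rw [Finset.sum_add_distrib, hB, ← Finset.card_filter]
  have hsum2 : ∑ g : N, (Fintype.card (MulAction.fixedBy Ω g) +
      (if (∀ x : Ω, g • x ≠ x) then 1 else 0)) = Fintype.card Ω + (Fintype.card N - 1) := by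
    rw [← Finset.add_sum_erase Finset.univ _ (Finset.mem_univ (1 : N)), hd1,
      Finset.sum_eq_card_nsmul (fun g hg => hd g (Finset.ne_of_mem_erase hg)),
      Finset.card_erase_of_mem (Finset.mem_univ _), Finset.card_univ, smul_eq_mul, mul_one]
  have hM : Nat.card {g : N // ∀ x : Ω, g • x ≠ x} =
      (Finset.univ.filter (fun g : N => ∀ x : Ω, g • x ≠ x)).card := by
    rw [Nat.card_eq_fintype_card]
    exact Fintype.card_of_subtype _ (fun g => by simp)
  have hNpos : 0 < Fintype.card N := Fintype.card_pos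
  rw [hM, Nat.card_eq_fintype_card]
  have h := hsum1.symm.trans hsum2
  omega

/-- If `K` fixes `a`, non-identity elements fix at most one further point and every point other
than `a` has a non-trivial stabilizer, then `K` is transitive on the points other than `a`. -/
theorem two_orbits {K Ω : Type*} [Group K] [MulAction K Ω] [Finite K] [Finite Ω] (a : Ω)
    (hfix : ∀ k : K, k • a = a)
    (h2 : ∀ k : K, k ≠ 1 → ∀ y z : Ω, y ≠ a → z ≠ a → k • y = y → k • z = z → y = z)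
    (hne : ∀ y : Ω, y ≠ a → ∃ k : K, k ≠ 1 ∧ k • y = y)
    (y z : Ω) (hy : y ≠ a) (hz : z ≠ a) : ∃ k : K, k • y = z := by
  classical
  haveI : Fintype K := Fintype.ofFinite K
  haveI : Fintype Ω := Fintype.ofFinite Ω
  have hcard : Fintype.card Ω ≤ Fintype.card K := by
    choose! f hf using hne
    apply Fintype.card_le_of_injective (fun y => if y = a then (1 : K) else f y)
    intro u v huv
    by_cases hu : u = a
    · by_cases hv : v = a
      · rw [hu, hv]
      · exfalso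
        simp only [if_pos hu, if_neg hv] at huv
        exact (hf v hv).1 huv.symm
    · by_cases hv : v = a
      · exfalso
        simp only [if_neg hu, if_pos hv] at huv
        exact (hf u hu).1 huv
      · simp only [if_neg hu, if_neg hv] at huv
        have h3 := (hf v hv).2
        rw [← huv] at h3
        exact h2 (f u) (hf u hu).1 u v hu hv (hf u hu).2 h3
  have hB := MulAction.sum_card_fixedBy_eq_card_orbits_mul_card_group K Ω
  have hc1 : Fintype.card (MulAction.fixedBy Ω (1 : K)) = Fintype.card Ω :=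
    Fintype.card_congr (Equiv.subtypeUnivEquiv (fun x => one_smul K x))
  have hc : ∀ k : K, k ≠ 1 → Fintype.card (MulAction.fixedBy Ω k) ≤ 2 := by
    intro k hk
    by_contra hlt
    have hlt' : 2 < Fintype.card (MulAction.fixedBy Ω k) := Nat.lt_of_not_le hlt
    obtain ⟨u, v, w, huv, huw, hvw⟩ := Fintype.two_lt_card_iff.1 hlt'
    have huv' : (u : Ω) ≠ v := fun h => huv (Subtype.ext h)
    have huw' : (u : Ω) ≠ w := fun h => huw (Subtype.ext h)
    have hvw' : (v : Ω) ≠ w := fun h => hvw (Subtype.ext h)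
    by_cases hu : (u : Ω) = a
    · have hv : (v : Ω) ≠ a := fun h => huv' (hu.trans h.symm)
      have hw : (w : Ω) ≠ a := fun h => huw' (hu.trans h.symm)
      exact hvw' (h2 k hk v w hv hw v.2 w.2)
    · by_cases hv : (v : Ω) = a
      · have hw : (w : Ω) ≠ a := fun h => hvw' (hv.trans h.symm)
        exact huw' (h2 k hk u w hu hw u.2 w.2)
      · exact huv' (h2 k hk u v hu hv u.2 v.2)
  have hS : ∑ k : K, Fintype.card (MulAction.fixedBy Ω k) ≤
      Fintype.card Ω + (Fintype.card K - 1) * 2 := by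
    rw [← Finset.add_sum_erase Finset.univ _ (Finset.mem_univ (1 : K)), hc1]
    apply Nat.add_le_add_left
    have h4 := Finset.sum_le_card_nsmul (Finset.univ.erase (1 : K))
      (fun k => Fintype.card (MulAction.fixedBy Ω k)) 2
      (fun k hk => hc k (Finset.ne_of_mem_erase hk))
    rw [Finset.card_erase_of_mem (Finset.mem_univ _), Finset.card_univ, smul_eq_mul] at h4
    exact h4
  rw [hB] at hS
  have hKpos : 0 < Fintype.card K := Fintype.card_pos
  have hr : Fintype.card (Quotient (MulAction.orbitRel K Ω)) ≤ 2 := by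
    by_contra hlt
    have h3 : 3 * Fintype.card K ≤
        Fintype.card (Quotient (MulAction.orbitRel K Ω)) * Fintype.card K :=
      Nat.mul_le_mul_right _ (Nat.lt_of_not_le hlt)
    omega
  by_contra hno
  apply absurd hr
  apply Nat.not_le_of_lt
  rw [Fintype.two_lt_card_iff]
  refine ⟨Quotient.mk _ a, Quotient.mk _ y, Quotient.mk _ z, ?_, ?_, ?_⟩
  · intro h
    have h' : a ∈ MulAction.orbit K y := Quotient.exact h
    obtain ⟨k, hk⟩ := MulAction.mem_orbit_iff.1 h'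
    apply hy
    have e : y = k⁻¹ • a := by rw [← hk, inv_smul_smul]
    rw [e, hfix]
  · intro h
    have h' : a ∈ MulAction.orbit K z := Quotient.exact h
    obtain ⟨k, hk⟩ := MulAction.mem_orbit_iff.1 h'
    apply hz
    have e : z = k⁻¹ • a := by rw [← hk, inv_smul_smul]
    rw [e, hfix]
  · intro h
    have h' : y ∈ MulAction.orbit K z := Quotient.exact h
    obtain ⟨k, hk⟩ := MulAction.mem_orbit_iff.1 h'
    exact hno ⟨k⁻¹, by rw [← hk, inv_smul_smul]⟩

/-- two regular subgroups of `N`, both normalized by the doubly transitive group `N`, coincide -/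
theorem reg_unique {G Ω : Type*} [Group G] [MulAction G Ω]
    (hfaith : FaithfulSMul G Ω)
    (h3 : ∀ g : G, ∀ a b c : Ω, a ≠ b → b ≠ c → a ≠ c → g • a = a → g • b = b → g • c = c →
      g = 1)
    (N : Subgroup G)
    (hN2 : ∀ a b c d : Ω, a ≠ b → c ≠ d → ∃ n ∈ N, n • a = c ∧ n • b = d)
    (a b c : Ω) (hab : a ≠ b) (hbc : b ≠ c) (hac : a ≠ c)
    (X Y : Subgroup G)
    (hXN : X ≤ N) (hYN : Y ≤ N)
    (hXt : ∀ x y : Ω, ∃ g ∈ X, g • x = y) (hYt : ∀ x y : Ω, ∃ g ∈ Y, g • x = y)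
    (hXf : ∀ g ∈ X, ∀ p : Ω, g • p = p → g = 1) (hYf : ∀ g ∈ Y, ∀ p : Ω, g • p = p → g = 1)
    (hXn : ∀ n ∈ N, ∀ g ∈ X, n * g * n⁻¹ ∈ X) (hYn : ∀ n ∈ N, ∀ g ∈ Y, n * g * n⁻¹ ∈ Y) :
    X = Y := by
  by_cases hD : X ⊓ Y = ⊥
  · exfalso
    have hcomm : ∀ x ∈ X, ∀ y ∈ Y, x * y = y * x := by
      intro x hx y hy
      have h1 : x * y * x⁻¹ * y⁻¹ ∈ X ⊓ Y := by
        refine Subgroup.mem_inf.2 ⟨?_, ?_⟩
        · have h2 := hXn y (hYN hy) x⁻¹ (X.inv_mem hx)
          have e : x * y * x⁻¹ * y⁻¹ = x * (y * x⁻¹ * y⁻¹) := by group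
          rw [e]
          exact X.mul_mem hx h2
        · have h2 := hYn x (hXN hx) y hy
          exact Y.mul_mem h2 (Y.inv_mem hy)
      rw [hD, Subgroup.mem_bot] at h1
      calc x * y = (x * y * x⁻¹ * y⁻¹) * (y * x) := by group
        _ = y * x := by rw [h1, one_mul]
    have hF : ∀ x ∈ X, ∀ y₁ ∈ X, ∀ x' ∈ Y, ∀ p : Ω,
        (x' * x) • (y₁ • p) = (x * y₁ * x⁻¹) • ((x' * x) • p) := by
      intro x hx y₁ hy₁ x' hx' p
      have hc := hcomm (x * y₁ * x⁻¹) (X.mul_mem (X.mul_mem hx hy₁) (X.inv_mem hx)) x' hx'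
      rw [← mul_smul, ← mul_smul]
      congr 1
      calc x' * x * y₁ = x' * (x * y₁ * x⁻¹) * x := by group
        _ = (x * y₁ * x⁻¹) * x' * x := by rw [hc]
        _ = x * y₁ * x⁻¹ * (x' * x) := by group
    have hkey : ∀ x ∈ X, x • a ≠ a → ∀ x' ∈ Y, x' • (x • a) = a →
        x' * x ≠ 1 ∧ (x' * x) • a = a ∧ (x' * x) • (x • a) = x • a := by
      intro x hx hxa x' hx' hx'a
      have hha : (x' * x) • a = a := by rw [mul_smul, hx'a]
      refine ⟨?_, hha, ?_⟩
      · intro h1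
        have hx'eq : x' = x⁻¹ := eq_inv_of_mul_eq_one_left h1
        have hmem : x' ∈ X ⊓ Y :=
          Subgroup.mem_inf.2 ⟨by rw [hx'eq]; exact X.inv_mem hx, hx'⟩
        rw [hD, Subgroup.mem_bot] at hmem
        rw [hmem, one_smul] at hx'a
        exact hxa hx'a
      · have h := hF x hx x hx x' hx' a
        rw [hha] at h
        have e : x * x * x⁻¹ = x := by group
        rw [e] at h
        exact h
    have hsq : ∀ x ∈ X, x * x = 1 := by
      intro x hx
      by_cases hxa : x • a = a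
      · rw [hXf x hx a hxa, one_mul]
      · obtain ⟨x', hx', hx'a⟩ := hYt (x • a) a
        obtain ⟨hne, hha, hhb⟩ := hkey x hx hxa x' hx' hx'a
        have hhc : (x' * x) • ((x * x) • a) = (x * x) • a := by
          have h := hF x hx (x * x) (X.mul_mem hx hx) x' hx' a
          rw [hha] at h
          have e : x * (x * x) * x⁻¹ = x * x := by group
          rw [e] at h
          exact h
        by_cases hc1 : (x * x) • a = a
        · exact hXf _ (X.mul_mem hx hx) a hc1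
        · exfalso
          by_cases hc2 : (x * x) • a = x • a
          · rw [mul_smul] at hc2
            exact hxa (smul_left_cancel x hc2)
          · exact hne (h3 (x' * x) a (x • a) ((x * x) • a) (Ne.symm hxa) (Ne.symm hc2)
              (Ne.symm hc1) hha hhb hhc)
    obtain ⟨m, hm, hma⟩ := hXt a b
    obtain ⟨k, hk, hka⟩ := hXt a c
    obtain ⟨m', hm', hm'b⟩ := hYt b a
    have hmb' : m • a ≠ a := by rw [hma]; exact Ne.symm hab
    rw [← hma] at hm'b
    obtain ⟨hne, hha, hhb⟩ := hkey m hm hmb' m' hm' hm'b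
    have hmkm : m * k * m⁻¹ = k := by
      have h1 := hsq m hm
      have h2 := hsq k hk
      have h3' := hsq (m * k) (X.mul_mem hm hk)
      have hmi : m⁻¹ = m := inv_eq_of_mul_eq_one_left h1
      have hki : k⁻¹ = k := inv_eq_of_mul_eq_one_left h2
      rw [hmi]
      calc m * k * m = (m * k * (m * k)) * k⁻¹ := by group
        _ = k := by rw [h3', one_mul, hki]
    have hhc : (m' * m) • (k • a) = k • a := by
      have h := hF m hm k hk m' hm' a
      rw [hha, hmkm] at h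
      exact h
    rw [hma] at hhb
    rw [hka] at hhc
    exact hne (h3 (m' * m) a b c hab hbc hac hha hhb hhc)
  · obtain ⟨d₀, hd₀⟩ := (Subgroup.ne_bot_iff_exists_ne_one).1 hD
    have hd₀' : (d₀ : G) ≠ 1 := fun h => hd₀ (Subtype.ext h)
    obtain ⟨hd₀X, hd₀Y⟩ := Subgroup.mem_inf.1 d₀.2
    have hex : ∃ p : Ω, (d₀ : G) • p ≠ p := by
      by_contra hno
      apply hd₀'
      apply hfaith.eq_of_smul_eq_smul
      intro p
      rw [one_smul]
      by_contra h
      exact hno ⟨p, h⟩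
    obtain ⟨p, hp⟩ := hex
    have hDt : ∀ u v : Ω, ∃ δ ∈ X ⊓ Y, δ • u = v := by
      intro u v
      by_cases huv : u = v
      · exact ⟨1, Subgroup.one_mem _, by rw [one_smul, huv]⟩
      · obtain ⟨n, hn, hn1, hn2⟩ := hN2 p ((d₀ : G) • p) u v (Ne.symm hp) huv
        refine ⟨n * d₀ * n⁻¹, Subgroup.mem_inf.2 ⟨hXn n hn _ hd₀X, hYn n hn _ hd₀Y⟩, ?_⟩
        rw [← hn1, mul_smul, mul_smul, inv_smul_smul, hn2]
    apply le_antisymm
    · intro x hx
      obtain ⟨δ, hδ, hδa⟩ := hDt a (x • a)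
      obtain ⟨hδX, hδY⟩ := Subgroup.mem_inf.1 hδ
      have h1 : δ⁻¹ * x = 1 := hXf _ (X.mul_mem (X.inv_mem hδX) hx) a
        (by rw [mul_smul, ← hδa, inv_smul_smul])
      have h2 : x = δ := by
        calc x = δ * (δ⁻¹ * x) := by group
          _ = δ := by rw [h1, mul_one]
      rw [h2]; exact hδY
    · intro y hy
      obtain ⟨δ, hδ, hδa⟩ := hDt a (y • a)
      obtain ⟨hδX, hδY⟩ := Subgroup.mem_inf.1 hδ
      have h1 : δ⁻¹ * y = 1 := hYf _ (Y.mul_mem (Y.inv_mem hδY) hy) a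
        (by rw [mul_smul, ← hδa, inv_smul_smul])
      have h2 : y = δ := by
        calc y = δ * (δ⁻¹ * y) := by group
          _ = δ := by rw [h1, mul_one]
      rw [h2]; exact hδX

/-- S0339 -/
theorem main {G Ω : Type*} [Group G] [MulAction G Ω] [Finite Ω]
    (hZ : Cfsg.IsZassenhausGroup G Ω) (N : Subgroup G) [hNn : N.Normal] (hN : N ≠ ⊥) :
    Cfsg.IsZassenhausGroup N Ω := by
  classical
  obtain ⟨hfaith, h2t, h3, ⟨g₀, hg₀, a₀, b₀, hab₀, hga₀, hgb₀⟩, h5⟩ := hZ
  haveI := hfaith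
  haveI : Finite G := Finite.of_injective _ (MulAction.toPerm_injective (α := G) (β := Ω))
  rw [MulAction.is_two_pretransitive_iff] at h2t
  -- a third point
  obtain ⟨c₀, hc₀⟩ : ∃ c : Ω, g₀ • c ≠ c := by
    by_contra hno
    apply hg₀
    apply hfaith.eq_of_smul_eq_smul
    intro p
    rw [one_smul]
    by_contra h
    exact hno ⟨p, h⟩
  have hac₀ : a₀ ≠ c₀ := fun h => hc₀ (by rw [← h]; exact hga₀)
  have hbc₀ : b₀ ≠ c₀ := fun h => hc₀ (by rw [← h]; exact hgb₀)
  -- N is transitive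
  have hT : ∀ c d : Ω, ∃ n ∈ N, n • c = d := by
    intro c d
    by_cases hcd : c = d
    · exact ⟨1, N.one_mem, by rw [one_smul, hcd]⟩
    · obtain ⟨n₀, hn₀⟩ := (Subgroup.ne_bot_iff_exists_ne_one).1 hN
      have hn₀' : (n₀ : G) ≠ 1 := fun h => hn₀ (Subtype.ext h)
      have hex : ∃ a : Ω, (n₀ : G) • a ≠ a := by
        by_contra hno
        apply hn₀'
        apply hfaith.eq_of_smul_eq_smul
        intro a
        rw [one_smul]
        by_contra h
        exact hno ⟨a, h⟩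
      obtain ⟨a, ha⟩ := hex
      obtain ⟨g, hg1, hg2⟩ := h2t (Ne.symm ha) hcd
      refine ⟨g * n₀ * g⁻¹, hNn.conj_mem _ n₀.2 g, ?_⟩
      rw [← hg1, mul_smul, mul_smul, inv_smul_smul, hg2]
  -- some non-identity element of N fixes two points
  have hC1 : ¬ (∀ n ∈ N, n ≠ 1 → ∀ x y : Ω, n • x = x → n • y = y → x = y) := by
    intro hstar
    haveI : Nonempty Ω := ⟨a₀⟩
    have hcount := frob_count (N := ↥N) (Ω := Ω)
      (fun x y => by
        obtain ⟨n, hn, h⟩ := hT x y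
        exact ⟨⟨n, hn⟩, h⟩)
      (fun g hg x y hx hy => hstar g.1 g.2 (fun h => hg (Subtype.ext h)) x y hx hy)
    have hMne : Nonempty {g : ↥N // ∀ x : Ω, g • x ≠ x} := by
      by_contra hemp
      have h0 : Nat.card {g : ↥N // ∀ x : Ω, g • x ≠ x} = 0 := by
        by_contra h0
        exact hemp (Nat.card_pos_iff.1 (Nat.pos_of_ne_zero h0)).1
      rw [h0, zero_add] at hcount
      obtain ⟨x, hx⟩ := Nat.card_eq_one_iff_exists.1 hcount.symm
      exact hab₀ ((hx a₀).trans (hx b₀).symm)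
    obtain ⟨m₀⟩ := hMne
    have hS : ∀ a y : Ω, y ≠ a → ∃ g ∈ N, (∀ x : Ω, g • x ≠ x) ∧ g • a = y := by
      intro a y hya
      have hy₀ : ((m₀ : ↥N) : G) • a ≠ a := m₀.2 a
      obtain ⟨g, hg1, hg2⟩ := h2t (Ne.symm hy₀) (Ne.symm hya)
      refine ⟨g * ((m₀ : ↥N) : G) * g⁻¹, hNn.conj_mem _ (m₀ : ↥N).2 g, ?_, ?_⟩
      · intro x hx
        apply m₀.2 (g⁻¹ • x)
        have h' := congrArg (fun t => g⁻¹ • t) hx
        simp only [mul_smul, inv_smul_smul] at h'
        exact h'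
      · have hga : g⁻¹ • a = a := by
          rw [inv_smul_eq_iff, hg1]
        rw [mul_smul, mul_smul, hga, hg2]
    have hU : ∀ a : Ω, ∀ g₁ ∈ N, (∀ x : Ω, g₁ • x ≠ x) → ∀ g₂ ∈ N, (∀ x : Ω, g₂ • x ≠ x) →
        g₁ • a = g₂ • a → g₁ = g₂ := by
      intro a g₁ h₁ f₁ g₂ h₂ f₂ heq
      have hbij : Function.Bijective (fun o : Option {g : ↥N // ∀ x : Ω, g • x ≠ x} =>
          Option.elim o a (fun m => ((m : ↥N) : G) • a)) := by
        rw [Nat.bijective_iff_surjective_and_card]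
        refine ⟨?_, ?_⟩
        · intro y
          by_cases hya : y = a
          · exact ⟨none, hya.symm⟩
          · obtain ⟨g, hg, hf, hga⟩ := hS a y hya
            exact ⟨some ⟨⟨g, hg⟩, hf⟩, hga⟩
        · rw [Finite.card_option]
          exact hcount
      have hinj := hbij.1
      have h := @hinj (some ⟨⟨g₁, h₁⟩, f₁⟩) (some ⟨⟨g₂, h₂⟩, f₂⟩) heq
      have h' := Option.some.inj h
      exact congrArg (fun m : {g : ↥N // ∀ x : Ω, g • x ≠ x} => ((m : ↥N) : G)) h'
    obtain ⟨M₁, hM₁⟩ : ∃ M₁ : Subgroup G, ∀ g : G, g ∈ M₁ ↔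
        (g = 1 ∨ (g ∈ N ∧ ∀ x : Ω, g • x ≠ x)) := by
      refine ⟨{ carrier := {g | g = 1 ∨ (g ∈ N ∧ ∀ x : Ω, g • x ≠ x)}
                mul_mem' := ?_
                one_mem' := Or.inl rfl
                inv_mem' := ?_ }, fun g => Iff.rfl⟩
      · rintro g₁ g₂ (rfl | ⟨h₁, f₁⟩) (rfl | ⟨h₂, f₂⟩)
        · rw [one_mul]; exact Or.inl rfl
        · rw [one_mul]; exact Or.inr ⟨h₂, f₂⟩
        · rw [mul_one]; exact Or.inr ⟨h₁, f₁⟩
        · by_cases h1 : g₁ * g₂ = 1
          · exact Or.inl h1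
          · refine Or.inr ⟨N.mul_mem h₁ h₂, fun x hx => h1 ?_⟩
            have finv : ∀ x : Ω, g₁⁻¹ • x ≠ x := fun x hx => f₁ x (inv_smul_eq_iff.1 hx).symm
            have hx' : g₁⁻¹ • x = g₂ • x := by
              calc g₁⁻¹ • x = g₁⁻¹ • ((g₁ * g₂) • x) := by rw [hx]
                _ = g₂ • x := by rw [mul_smul, inv_smul_smul]
            have h2 := hU x g₁⁻¹ (N.inv_mem h₁) finv g₂ h₂ f₂ hx'
            rw [← h2, mul_inv_cancel]
      · rintro g (rfl | ⟨h₁, f₁⟩)
        · exact Or.inl inv_one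
        · exact Or.inr ⟨N.inv_mem h₁, fun x hx => f₁ x (inv_smul_eq_iff.1 hx).symm⟩
    have hM₁n : M₁.Normal := by
      constructor
      intro m hm g
      rw [hM₁] at hm ⊢
      rcases hm with rfl | ⟨h₁, f₁⟩
      · left; group
      · right
        refine ⟨hNn.conj_mem m h₁ g, fun x hx => f₁ (g⁻¹ • x) ?_⟩
        have h' := congrArg (fun t => g⁻¹ • t) hx
        simp only [mul_smul, inv_smul_smul] at h'
        exact h'
    have hM₁t : MulAction.IsPretransitive ↥M₁ Ω := by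
      constructor
      intro x y
      by_cases hxy : y = x
      · exact ⟨1, by rw [one_smul, hxy]⟩
      · obtain ⟨g, hg, hf, hgx⟩ := hS x y hxy
        exact ⟨⟨g, (hM₁ g).2 (Or.inr ⟨hg, hf⟩)⟩, hgx⟩
    obtain ⟨a, ha⟩ := h5 M₁ hM₁n hM₁t
    apply ha
    rw [eq_bot_iff]
    intro m hm
    rw [Subgroup.mem_bot]
    have hm' : (m : G) • a = a := MulAction.mem_stabilizer_iff.1 hm
    rcases (hM₁ m.1).1 m.2 with h | ⟨_, f⟩
    · exact Subtype.ext h
    · exact absurd hm' (f a)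
  have h4' : ∃ n ∈ N, n ≠ 1 ∧ ∃ x y : Ω, x ≠ y ∧ n • x = x ∧ n • y = y := by
    by_contra hno
    apply hC1
    intro n hn hn1 x y hx hy
    by_contra hxy
    exact hno ⟨n, hn, hn1, x, y, hxy, hx, hy⟩
  obtain ⟨n₁, hn₁, hn₁1, a₁, b₁, hab₁, hna₁, hnb₁⟩ := h4'
  have hpair : ∀ a y : Ω, y ≠ a → ∃ k ∈ N, k ≠ 1 ∧ k • a = a ∧ k • y = y := by
    intro a y hya
    obtain ⟨g, hg1, hg2⟩ := h2t hab₁ (Ne.symm hya)
    refine ⟨g * n₁ * g⁻¹, hNn.conj_mem _ hn₁ g, ?_, ?_, ?_⟩
    · intro h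
      apply hn₁1
      have e : n₁ = g⁻¹ * (g * n₁ * g⁻¹) * g := by group
      rw [e, h]; group
    · rw [← hg1, mul_smul, mul_smul, inv_smul_smul, hna₁]
    · rw [← hg2, mul_smul, mul_smul, inv_smul_smul, hnb₁]
  have hK : ∀ a y z : Ω, y ≠ a → z ≠ a → ∃ k ∈ N, k • a = a ∧ k • y = z := by
    intro a y z hy hz
    obtain ⟨k, hk⟩ := two_orbits (K := ↥(N ⊓ MulAction.stabilizer G a)) (Ω := Ω) a
      (fun k => MulAction.mem_stabilizer_iff.1 (Subgroup.mem_inf.1 k.2).2)
      (fun k hk1 y z hy hz hky hkz => by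
        by_contra hyz
        apply hk1
        apply Subtype.ext
        exact h3 (k : G) a y z (Ne.symm hy) hyz (Ne.symm hz)
          (MulAction.mem_stabilizer_iff.1 (Subgroup.mem_inf.1 k.2).2) hky hkz)
      (fun y hy => by
        obtain ⟨k, hkN, hk1, hka, hky⟩ := hpair a y hy
        exact ⟨⟨k, Subgroup.mem_inf.2 ⟨hkN, MulAction.mem_stabilizer_iff.2 hka⟩⟩,
          fun h => hk1 (congrArg Subtype.val h), hky⟩)
      y z hy hz
    exact ⟨(k : G), (Subgroup.mem_inf.1 k.2).1,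
      MulAction.mem_stabilizer_iff.1 (Subgroup.mem_inf.1 k.2).2, hk⟩
  have hN2 : ∀ a b c d : Ω, a ≠ b → c ≠ d → ∃ n ∈ N, n • a = c ∧ n • b = d := by
    intro a b c d hab hcd
    obtain ⟨n, hn, hnc⟩ := hT a c
    have hd' : n⁻¹ • d ≠ a := by
      intro h
      apply hcd
      rw [← hnc, ← h, smul_inv_smul]
    obtain ⟨k, hk, hka, hkb⟩ := hK a b (n⁻¹ • d) (Ne.symm hab) hd'
    refine ⟨n * k, N.mul_mem hn hk, ?_, ?_⟩
    · rw [mul_smul, hka, hnc]
    · rw [mul_smul, hkb, smul_inv_smul]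
  unfold Cfsg.IsZassenhausGroup
  refine ⟨⟨fun {n₁ n₂} h => Subtype.ext (hfaith.eq_of_smul_eq_smul (fun a => h a))⟩,
    ?_, ?_, ?_, ?_⟩
  · rw [MulAction.is_two_pretransitive_iff]
    intro a b c d hab hcd
    obtain ⟨n, hn, h1, h2⟩ := hN2 a b c d hab hcd
    exact ⟨⟨n, hn⟩, h1, h2⟩
  · intro n a b c hab hbc hac h1 h2 h3'
    exact Subtype.ext (h3 (n : G) a b c hab hbc hac h1 h2 h3')
  · exact ⟨⟨n₁, hn₁⟩, fun h => hn₁1 (congrArg Subtype.val h), a₁, b₁, hab₁, hna₁, hnb₁⟩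
  · intro M hMn hMt
    by_contra hno
    have hfree : ∀ m ∈ M, ∀ p : Ω, ((m : ↥N) : G) • p = p → m = 1 := by
      intro m hm p hmp
      by_contra hm1
      apply hno
      refine ⟨p, fun hbot => hm1 ?_⟩
      have h : (⟨m, hm⟩ : ↥M) ∈ MulAction.stabilizer ↥M p := MulAction.mem_stabilizer_iff.2 hmp
      rw [hbot, Subgroup.mem_bot] at h
      exact congrArg Subtype.val h
    obtain ⟨M₀, hM₀⟩ : ∃ M₀ : Subgroup G, M₀ = M.map N.subtype := ⟨_, rfl⟩
    have hM₀mem : ∀ g : G, g ∈ M₀ ↔ ∃ m ∈ M, ((m : ↥N) : G) = g := by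
      intro g
      rw [hM₀]
      exact Subgroup.mem_map
    have hM₀N : M₀ ≤ N := by
      intro g hg
      obtain ⟨m, -, rfl⟩ := (hM₀mem g).1 hg
      exact m.2
    have hM₀t : ∀ x y : Ω, ∃ g ∈ M₀, g • x = y := by
      intro x y
      obtain ⟨m, hm⟩ := hMt.exists_smul_eq x y
      exact ⟨((m : ↥N) : G), (hM₀mem _).2 ⟨m.1, m.2, rfl⟩, hm⟩
    have hM₀f : ∀ g ∈ M₀, ∀ p : Ω, g • p = p → g = 1 := by
      intro g hg p hgp
      obtain ⟨m, hm, rfl⟩ := (hM₀mem g).1 hg
      rw [hfree m hm p hgp]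
      rfl
    have hM₀n : ∀ n ∈ N, ∀ g ∈ M₀, n * g * n⁻¹ ∈ M₀ := by
      intro n hn g hg
      obtain ⟨m, hm, rfl⟩ := (hM₀mem g).1 hg
      exact (hM₀mem _).2 ⟨⟨n, hn⟩ * m * ⟨n, hn⟩⁻¹, hMn.conj_mem m hm ⟨n, hn⟩, rfl⟩
    have hconj : ∀ g : G, M₀.map (MulAut.conj g).toMonoidHom = M₀ := by
      intro g
      symm
      apply reg_unique hfaith h3 N hN2 a₀ b₀ c₀ hab₀ hbc₀ hac₀ M₀
        (M₀.map (MulAut.conj g).toMonoidHom) hM₀N ?_ hM₀t ?_ hM₀f ?_ hM₀n ?_
      · intro y hy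
        obtain ⟨x, hx, rfl⟩ := Subgroup.mem_map.1 hy
        exact hNn.conj_mem x (hM₀N hx) g
      · intro u v
        obtain ⟨x, hx, hxu⟩ := hM₀t (g⁻¹ • u) (g⁻¹ • v)
        refine ⟨g * x * g⁻¹, Subgroup.mem_map.2 ⟨x, hx, rfl⟩, ?_⟩
        rw [mul_smul, mul_smul, hxu, smul_inv_smul]
      · intro y hy p hyp
        obtain ⟨x, hx, rfl⟩ := Subgroup.mem_map.1 hy
        have hyp' : (g * x * g⁻¹) • p = p := hyp
        have h' := congrArg (fun t => g⁻¹ • t) hyp'
        simp only [mul_smul, inv_smul_smul] at h'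
        have hx1 := hM₀f x hx (g⁻¹ • p) h'
        show g * x * g⁻¹ = 1
        rw [hx1]; group
      · intro n hn y hy
        obtain ⟨x, hx, rfl⟩ := Subgroup.mem_map.1 hy
        have hn' : g⁻¹ * n * g ∈ N := by
          have h := hNn.conj_mem n hn g⁻¹
          rwa [inv_inv] at h
        have h1 := hM₀n _ hn' x hx
        refine Subgroup.mem_map.2 ⟨_, h1, ?_⟩
        show g * ((g⁻¹ * n * g) * x * (g⁻¹ * n * g)⁻¹) * g⁻¹ = n * (g * x * g⁻¹) * n⁻¹
        group
    have hnorm : M₀.Normal := by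
      constructor
      intro x hx g
      have h : g * x * g⁻¹ ∈ M₀.map (MulAut.conj g).toMonoidHom :=
        Subgroup.mem_map.2 ⟨x, hx, rfl⟩
      rw [hconj g] at h
      exact h
    obtain ⟨p, hp⟩ := h5 M₀ hnorm ⟨fun x y => by
      obtain ⟨g, hg, h⟩ := hM₀t x y
      exact ⟨⟨g, hg⟩, h⟩⟩
    apply hp
    rw [eq_bot_iff]
    intro m hm
    rw [Subgroup.mem_bot]
    exact Subtype.ext (hM₀f m.1 m.2 p (MulAction.mem_stabilizer_iff.1 hm))

end Cfsg.Agent.Lib.Helper8.Zass
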